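/-
CALL SL2L (helper2), piece G4 (double by helper40): an element of prime order `s ∣ p - 1`, `s ≠ 2`,
normalizing `P` and centralizing `Z`, fixes one of the `p + 1` lines `Z ≤ L ≤ P`, `|L| = p²`.
-/
import Mathlib

set_option autoImplicit false

namespace Cfsg.Agent.Helper40

open Subgroup

universe u

variable {Γ : Type u} [Group Γ] [Finite Γ]

/-- PIECE G4 (fixed line): `⟨k⟩` of prime order `s` acts on the `p + 1` lines by `L ↦ k L k⁻¹`;
`s ∣ p - 1` and `s ≠ 2` give `s ∤ p + 1`, so there is a fixed line. -/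
theorem sl2l_fixed_line {p s : ℕ} (hp : p.Prime) (hs : s.Prime) (hs2 : s ≠ 2) (hsp : s ∣ p - 1)
    {P Z : Subgroup Γ}
    (hlines : Nat.card {L : Subgroup Γ // Z ≤ L ∧ L ≤ P ∧ Nat.card L = p ^ 2} = p + 1)
    {k : Γ} (hks : orderOf k = s) (hkP : ∀ a ∈ P, k * a * k⁻¹ ∈ P)
    (hkZ : ∀ z ∈ Z, k * z = z * k) :
    ∃ L : Subgroup Γ, Z ≤ L ∧ L ≤ P ∧ Nat.card L = p ^ 2 ∧ ∀ a ∈ L, k * a * k⁻¹ ∈ L := by
  classical
  have : Fact s.Prime := ⟨hs⟩
  -- the set of lines
  let X := {L : Subgroup Γ // Z ≤ L ∧ L ≤ P ∧ Nat.card L = p ^ 2}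
  have : Finite X := Finite.of_injective (fun L : X => (L.1 : Set Γ))
    (fun A B h => Subtype.ext (SetLike.coe_injective h))
  letI : Fintype X := Fintype.ofFinite X
  -- conjugation by `k` on lines
  have hwd : ∀ L : X, Z ≤ L.1.map (MulAut.conj k).toMonoidHom ∧
      L.1.map (MulAut.conj k).toMonoidHom ≤ P ∧
      Nat.card (L.1.map (MulAut.conj k).toMonoidHom) = p ^ 2 := by
    intro L
    refine ⟨?_, ?_, ?_⟩
    · intro z hz
      refine Subgroup.mem_map.mpr ⟨z, L.2.1 hz, ?_⟩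
      show k * z * k⁻¹ = z
      rw [hkZ z hz, mul_inv_cancel_right]
    · intro x hx
      obtain ⟨a, ha, rfl⟩ := Subgroup.mem_map.mp hx
      exact hkP a (L.2.2.1 ha)
    · rw [Subgroup.card_map_of_injective (MulAut.conj k).injective]
      exact L.2.2.2
  let f : Function.End X := fun L => ⟨L.1.map (MulAut.conj k).toMonoidHom, hwd L⟩
  have hiter : ∀ (n : ℕ) (L : X), ((f ^ n) L).1 = L.1.map (MulAut.conj (k ^ n)).toMonoidHom := by
    intro n
    induction n with
    | zero =>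
      intro L
      rw [pow_zero, pow_zero, map_one]
      show L.1 = L.1.map (MonoidHom.id Γ)
      rw [Subgroup.map_id]
    | succ n ih =>
      intro L
      have e1 : (f ^ (n + 1)) L = f ((f ^ n) L) := by
        rw [pow_succ' f n]; rfl
      rw [e1]
      show ((f ^ n) L).1.map (MulAut.conj k).toMonoidHom = _
      rw [ih L, Subgroup.map_map]
      congr 1
      ext x
      simp [pow_succ' k n, MulAut.conj_apply, mul_assoc]
  have hfs : f ^ s ^ 1 = 1 := by
    rw [pow_one]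
    funext L
    apply Subtype.ext
    rw [hiter s L, ← hks, pow_orderOf_eq_one, map_one]
    show L.1.map (MonoidHom.id Γ) = L.1
    rw [Subgroup.map_id]
  have hmod := Equiv.Perm.card_fixedPoints_modEq (f := f) (p := s) (n := 1) hfs
  have hcardX : Fintype.card X = p + 1 := by
    rw [← Nat.card_eq_fintype_card]; exact hlines
  -- `s ∤ p + 1`
  have hnd : ¬ s ∣ p + 1 := by
    intro h
    have hp1 : 1 ≤ p := hp.one_lt.le
    have h2 : s ∣ 2 := by
      have : p + 1 = (p - 1) + 2 := by omega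
      rw [this] at h
      exact (Nat.dvd_add_right hsp).mp h
    have := (Nat.prime_dvd_prime_iff_eq hs Nat.prime_two).mp h2
    exact hs2 this
  have hne : Fintype.card (Function.fixedPoints f) ≠ 0 := by
    intro h0
    rw [hcardX, h0] at hmod
    exact hnd ((Nat.modEq_zero_iff_dvd).mp hmod)
  obtain ⟨⟨L, hL⟩⟩ := Fintype.card_pos_iff.mp (Nat.pos_of_ne_zero hne)
  refine ⟨L.1, L.2.1, L.2.2.1, L.2.2.2, ?_⟩
  intro a ha
  have h1 : (f L).1 = L.1 := congrArg Subtype.val hL
  have h2 : k * a * k⁻¹ ∈ (f L).1 := Subgroup.mem_map.mpr ⟨a, ha, rfl⟩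
  rw [h1] at h2
  exact h2

end Cfsg.Agent.Helper40
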