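import Mathlib
import Cfsg.Agent.Helper6.Matsumoto

/-!
Abstract combinatorics of an exchange family (Bourbaki's conditions for the Weyl group of a
BN-pair): distinguished double coset representatives of parabolic subgroups, the element with
full descent set, and the alternating sum of Solomon.
-/

set_option autoImplicit false
set_option linter.unusedSectionVars false
set_option linter.unusedVariables false

namespace Cfsg.Agent.Helper40.BNSt

open Cfsg.Agent.Helper6

section Abstract

variable {W : Type*} [Group W] {S : Set W} {Ps : W → Set W}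

theorem prod_reverse_of_sq {l : List W} (h : ∀ x ∈ l, x * x = 1) :
    l.reverse.prod = l.prod⁻¹ := by
  have : l.map (fun x => x⁻¹) = l := by
    conv_rhs => rw [← List.map_id l]
    apply List.map_congr_left
    intro a ha
    exact inv_eq_self_of_sq (h a ha)
  rw [List.prod_inv_reverse, this]

theorem reduced_reverse (h : ExchFamily S Ps) {l : List W} (hr : Reduced S l) :
    Reduced S l.reverse := by
  have hw : IsWord S l.reverse := fun x hx => hr.1 x (List.mem_reverse.1 hx)
  refine ⟨hw, fun l' hl' hp => ?_⟩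
  have h1 : l'.reverse.prod = l.prod := by
    rw [prod_reverse_of_sq (fun x hx => h.sq x (hl' x hx)), hp,
      prod_reverse_of_sq (fun x hx => h.sq x (hr.1 x hx)), inv_inv]
  have := hr.2 l'.reverse (fun x hx => hl' x (List.mem_reverse.1 hx)) h1
  simpa using this

theorem reduced_cons_of_mem (h : ExchFamily S Ps) {s : W} (hs : s ∈ S) {l : List W}
    (hr : Reduced S l) (hm : l.prod ∈ Ps s) : Reduced S (s :: l) := by
  refine ⟨isWord_cons.2 ⟨hs, hr.1⟩, fun l' hl' hp => ?_⟩
  by_contra hlt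
  rw [not_le] at hlt
  have hxl : s * l.prod ∉ Ps s := h.not_mem s hs _ hm
  have hp' : l'.prod = s * l.prod := by simpa using hp
  rw [← hp'] at hxl
  obtain ⟨l'', hl'', _, hlen, hp''⟩ := h.exists_shorter hs hl' hxl
  have hss := h.sq s hs
  have e : l''.prod = l.prod := by rw [hp'', hp', ← mul_assoc, hss, one_mul]
  have := hr.2 l'' hl'' e
  simp at hlt
  omega

/-- the length of an element: the length of its reduced words -/
noncomputable def len (h : ExchFamily S Ps) (w : W) : ℕ :=
  (Classical.choose (exists_reduced_of_word (h.gen w))).length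

theorem len_eq (h : ExchFamily S Ps) {l : List W} (hr : Reduced S l) :
    len h l.prod = l.length := by
  have hspec := Classical.choose_spec (exists_reduced_of_word (h.gen l.prod))
  exact hspec.1.length_eq hr hspec.2

theorem len_inv (h : ExchFamily S Ps) (w : W) : len h w⁻¹ = len h w := by
  obtain ⟨ω, hω, hωp⟩ := exists_reduced_of_word (h.gen w)
  have h1 := len_eq h (reduced_reverse h hω)
  rw [prod_reverse_of_sq (fun x hx => h.sq x (hω.1 x hx)), hωp] at h1
  rw [h1, ← hωp, len_eq h hω, List.length_reverse]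

/-- no left descent in `J` and no right descent in `K` -/
def IsDist (Ps : W → Set W) (J K : Set W) (d : W) : Prop :=
  (∀ s ∈ J, d ∈ Ps s) ∧ (∀ s ∈ K, d⁻¹ ∈ Ps s)

theorem exists_dist_aux (h : ExchFamily S Ps) {J K : Set W} (hJ : J ⊆ S) (hK : K ⊆ S) :
    ∀ (n : ℕ) (l : List W), l.length ≤ n → IsWord S l →
      ∃ d, IsDist Ps J K d ∧ ∃ a ∈ Subgroup.closure J, ∃ b ∈ Subgroup.closure K,
        l.prod = a * d * b := by
  intro n
  induction n with
  | zero =>
    intro l hlen hl
    have : l = [] := List.length_eq_zero_iff.1 (Nat.le_zero.1 hlen)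
    subst this
    exact ⟨1, ⟨fun s hs => h.one_mem s (hJ hs), fun s hs => by simpa using h.one_mem s (hK hs)⟩,
      1, Subgroup.one_mem _, 1, Subgroup.one_mem _, by simp⟩
  | succ n ih =>
    intro l hlen hl
    by_cases hd : IsDist Ps J K l.prod
    · exact ⟨l.prod, hd, 1, Subgroup.one_mem _, 1, Subgroup.one_mem _, by simp⟩
    · unfold IsDist at hd
      rw [not_and_or] at hd
      rcases hd with hd | hd
      · push Not at hd
        obtain ⟨s, hsJ, hn⟩ := hd
        obtain ⟨l', hl', _, hlen', hp⟩ := h.exists_shorter (hJ hsJ) hl hn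
        obtain ⟨d, hd, a, ha, b, hb, e⟩ := ih l' (by omega) hl'
        refine ⟨d, hd, s * a, Subgroup.mul_mem _ (Subgroup.subset_closure hsJ) ha, b, hb, ?_⟩
        have hss := h.sq s (hJ hsJ)
        calc l.prod = s * s * l.prod := by rw [hss, one_mul]
          _ = s * l'.prod := by rw [hp, mul_assoc]
          _ = s * a * d * b := by rw [e]; group
      · push Not at hd
        obtain ⟨s, hsK, hn⟩ := hd
        have hrev : l.reverse.prod = l.prod⁻¹ :=
          prod_reverse_of_sq (fun x hx => h.sq x (hl x hx))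
        have hwrev : IsWord S l.reverse := fun x hx => hl x (List.mem_reverse.1 hx)
        rw [← hrev] at hn
        obtain ⟨l', hl', _, hlen', hp⟩ := h.exists_shorter (hK hsK) hwrev hn
        have hwrev' : IsWord S l'.reverse := fun x hx => hl' x (List.mem_reverse.1 hx)
        obtain ⟨d, hd, a, ha, b, hb, e⟩ := ih l'.reverse
          (by simp only [List.length_reverse] at hlen' ⊢; omega) hwrev'
        refine ⟨d, hd, a, ha, b * s, Subgroup.mul_mem _ hb (Subgroup.subset_closure hsK), ?_⟩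
        have hss := h.sq s (hK hsK)
        have e2 : l'.reverse.prod = l.prod * s := by
          rw [prod_reverse_of_sq (fun x hx => h.sq x (hl' x hx)), hp, hrev, mul_inv_rev, inv_inv,
            inv_eq_self_of_sq hss]
        calc l.prod = l.prod * s * s := by rw [mul_assoc, hss, mul_one]
          _ = a * d * (b * s) := by rw [← e2, e]; group

theorem exists_dist (h : ExchFamily S Ps) {J K : Set W} (hJ : J ⊆ S) (hK : K ⊆ S) (w : W) :
    ∃ d, IsDist Ps J K d ∧ ∃ a ∈ Subgroup.closure J, ∃ b ∈ Subgroup.closure K,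
      w = a * d * b := by
  obtain ⟨l, hl, rfl⟩ := h.gen w
  exact exists_dist_aux h hJ hK l.length l le_rfl hl

theorem dist_sublist (h : ExchFamily S Ps) {J K : Set W} (hJ : J ⊆ S) (hK : K ⊆ S) {d d' : W}
    (hd' : IsDist Ps J K d') {a b : W} (ha : a ∈ Subgroup.closure J)
    (hb : b ∈ Subgroup.closure K) (e : d' = a * d * b)
    {ω : List W} (hω : Reduced S ω) (hωp : ω.prod = d) :
    ∃ δ : List W, δ.Sublist ω ∧ Reduced S δ ∧ δ.prod = d' := by
  obtain ⟨la, hla, hpa⟩ := exists_word_of_mem_closure (fun x hx => h.sq x (hJ hx)) ha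
  obtain ⟨lb, hlb, hpb⟩ := exists_word_of_mem_closure (fun x hx => h.sq x (hK hx)) hb
  have hw : IsWord S (la ++ (ω ++ lb)) :=
    isWord_append.2 ⟨hla.mono hJ, isWord_append.2 ⟨hω.1, hlb.mono hK⟩⟩
  obtain ⟨ω', hsub, hr, hp⟩ := h.exists_reduced_sublist _ le_rfl hw
  have hp' : ω'.prod = d' := by
    rw [hp, e]
    simp [hpa, hpb, hωp, mul_assoc]
  obtain ⟨α, ρ, rfl, hα, hρ⟩ := List.sublist_append_iff.1 hsub
  obtain ⟨δ, β, rfl, hδ, hβ⟩ := List.sublist_append_iff.1 hρ
  have hα0 : α = [] := by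
    match α, hα, hr, hp' with
    | [], _, _, _ => rfl
    | s :: α', hα, hr, hp' =>
      exfalso
      have hsJ : s ∈ J := hla s (hα.subset (by simp))
      have h1 := h.not_mem_of_reduced_cons (s := s) (l := α' ++ (δ ++ β)) (by simpa using hr)
      have h2 : (s :: (α' ++ (δ ++ β))).prod = d' := by simpa using hp'
      rw [h2] at h1
      exact h1 (hd'.1 s hsJ)
  subst hα0
  have hβ0 : β = [] := by
    by_contra hne
    obtain ⟨β', s, rfl⟩ : ∃ β' s, β = β' ++ [s] :=
      ⟨β.dropLast, β.getLast hne, (List.dropLast_append_getLast hne).symm⟩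
    have hsK : s ∈ K := hlb s (hβ.subset (by simp))
    have hrr := reduced_reverse h hr
    have e1 : ([] ++ (δ ++ (β' ++ [s]))).reverse = s :: (β'.reverse ++ δ.reverse) := by simp
    have h1 : ([] ++ (δ ++ (β' ++ [s]))).reverse.prod = d'⁻¹ := by
      rw [prod_reverse_of_sq (fun x hx => h.sq x (hr.1 x hx)), hp']
    rw [e1] at hrr h1
    have h2 := h.not_mem_of_reduced_cons hrr
    rw [h1] at h2
    exact h2 (hd'.2 s hsK)
  subst hβ0
  exact ⟨δ, hδ, by simpa using hr, by simpa using hp'⟩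

theorem dist_unique (h : ExchFamily S Ps) {J K : Set W} (hJ : J ⊆ S) (hK : K ⊆ S) {d d' : W}
    (hd : IsDist Ps J K d) (hd' : IsDist Ps J K d') {a b : W} (ha : a ∈ Subgroup.closure J)
    (hb : b ∈ Subgroup.closure K) (e : d' = a * d * b) : d' = d := by
  obtain ⟨ω, hω, hωp⟩ := exists_reduced_of_word (h.gen d)
  obtain ⟨ω', hω', hωp'⟩ := exists_reduced_of_word (h.gen d')
  obtain ⟨δ, hδ, hδr, hδp⟩ := dist_sublist h hJ hK hd' ha hb e hω hωp
  have e' : d = a⁻¹ * d' * b⁻¹ := by rw [e]; group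
  obtain ⟨δ', hδ', hδr', hδp'⟩ := dist_sublist h hJ hK hd (Subgroup.inv_mem _ ha)
    (Subgroup.inv_mem _ hb) e' hω' hωp'
  have h1 : δ.length = ω'.length := hδr.length_eq hω' (hδp.trans hωp'.symm)
  have h2 : δ'.length = ω.length := hδr'.length_eq hω (hδp'.trans hωp.symm)
  have h3 := hδ.length_le
  have h4 := hδ'.length_le
  have h5 : δ = ω := hδ.eq_of_length (by omega)
  rw [← hδp, h5, hωp]

/-- the set of products of sub-words -/
def subProd (l : List W) : Set W := {w | ∃ τ : List W, τ.Sublist l ∧ τ.prod = w}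

theorem subProd_cons (x : W) (l : List W) (w : W) :
    w ∈ subProd (x :: l) ↔ w ∈ subProd l ∨ ∃ v ∈ subProd l, w = x * v := by
  unfold subProd
  simp only [Set.mem_ofPred_eq, List.sublist_cons_iff]
  constructor
  · rintro ⟨τ, hτ | ⟨r, rfl, hr⟩, rfl⟩
    · exact Or.inl ⟨τ, hτ, rfl⟩
    · exact Or.inr ⟨r.prod, ⟨r, hr, rfl⟩, by simp⟩
  · rintro (⟨τ, hτ, rfl⟩ | ⟨v, ⟨τ, hτ, rfl⟩, rfl⟩)
    · exact ⟨τ, Or.inl hτ, rfl⟩
    · exact ⟨x :: τ, Or.inr ⟨τ, rfl, hτ⟩, by simp⟩

open Pointwise in
theorem map_prod_eq_subProd (l : List W) :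
    (l.map (fun x => ({1, x} : Set W))).prod = subProd l := by
  induction l with
  | nil =>
    ext w
    simp [subProd, eq_comm]
  | cons x l ih =>
    rw [List.map_cons, List.prod_cons, ih]
    ext w
    rw [subProd_cons, Set.mem_mul]
    constructor
    · rintro ⟨a, ha, b, hb, rfl⟩
      rcases ha with rfl | rfl
      · left
        simpa using hb
      · exact Or.inr ⟨b, hb, rfl⟩
    · rintro (hw | ⟨v, hv, rfl⟩)
      · exact ⟨1, by simp, w, hw, by simp⟩
      · exact ⟨x, by simp, v, hv, rfl⟩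

/-- products of alternating words of bounded length -/
def altSet (c d : W) (k : ℕ) : Set W :=
  {w | (∃ j, j ≤ k ∧ w = (altW c d j).prod) ∨ (∃ j, j < k ∧ w = (altW d c j).prod)}

theorem subProd_altW {c d : W} (hc : c * c = 1) (hd : d * d = 1) (k : ℕ) :
    subProd (altW c d k) = altSet c d k := by
  induction k generalizing c d with
  | zero =>
    ext w
    simp [subProd, altSet, altW_zero, eq_comm]
  | succ k ih =>
    ext w
    rw [altW_succ, subProd_cons, ih hd hc]
    unfold altSet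
    simp only [Set.mem_ofPred_eq]
    constructor
    · rintro ((⟨j, hj, rfl⟩ | ⟨j, hj, rfl⟩) | ⟨v, (⟨j, hj, rfl⟩ | ⟨j, hj, rfl⟩), rfl⟩)
      · exact Or.inr ⟨j, by omega, rfl⟩
      · exact Or.inl ⟨j, by omega, rfl⟩
      · exact Or.inl ⟨j + 1, by omega, by rw [altW_succ, List.prod_cons]⟩
      · cases j with
        | zero => exact Or.inl ⟨1, by omega, by simp [altW_succ, altW_zero]⟩
        | succ j =>
          exact Or.inr ⟨j, by omega, by rw [altW_succ, List.prod_cons, ← mul_assoc, hc, one_mul]⟩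
    · rintro (⟨j, hj, rfl⟩ | ⟨j, hj, rfl⟩)
      · cases j with
        | zero => exact Or.inl (Or.inl ⟨0, by omega, by simp [altW_zero]⟩)
        | succ j =>
          exact Or.inr ⟨(altW d c j).prod, Or.inl ⟨j, by omega, rfl⟩,
            by rw [altW_succ, List.prod_cons]⟩
      · exact Or.inl (Or.inl ⟨j, by omega, rfl⟩)

theorem altSet_le {c d : W} {m : ℕ} (hb : (altW c d m).prod = (altW d c m).prod) :
    altSet c d m ⊆ altSet d c m := by
  intro w hw
  unfold altSet at hw ⊢
  simp only [Set.mem_ofPred_eq] at hw ⊢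
  rcases hw with ⟨j, hj, rfl⟩ | ⟨j, hj, rfl⟩
  · rcases Nat.lt_or_ge j m with h | h
    · exact Or.inr ⟨j, h, rfl⟩
    · have : j = m := by omega
      subst this
      exact Or.inl ⟨j, le_rfl, hb⟩
  · exact Or.inl ⟨j, by omega, rfl⟩

theorem subProd_braid {c d : W} (hc : c * c = 1) (hd : d * d = 1) {m : ℕ}
    (hm : (c * d) ^ m = 1) : subProd (altW c d m) = subProd (altW d c m) := by
  have hb : (altW c d m).prod = (altW d c m).prod := by
    have := altW_prod_mul_inv hc hd m
    rw [hm] at this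
    exact mul_inv_eq_one.1 this
  rw [subProd_altW hc hd, subProd_altW hd hc]
  exact Set.Subset.antisymm (altSet_le hb) (altSet_le hb.symm)

open Pointwise in
theorem subProd_eq_of_reduced (h : ExchFamily S Ps) {l l' : List W} (hl : Reduced S l)
    (hl' : Reduced S l') (hp : l.prod = l'.prod) : subProd l = subProd l' := by
  have key := h.matsumoto (Mon := Set W) (fun x => ({1, x} : Set W)) (by
    intro c hc d hd hne ho
    rw [map_prod_eq_subProd, map_prod_eq_subProd]
    exact subProd_braid (h.sq c hc) (h.sq d hd) (pow_orderOf_eq_one _)) l.length l l' hl hl' rfl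
    (hl'.length_eq hl hp.symm) hp
  rwa [map_prod_eq_subProd, map_prod_eq_subProd] at key

/-- full left descent set -/
def IsLong (S : Set W) (Ps : W → Set W) (w : W) : Prop := ∀ s ∈ S, w ∉ Ps s

theorem subProd_of_isLong (h : ExchFamily S Ps) {w : W} (hw : IsLong S Ps w) :
    ∀ (n : ℕ) (τ : List W), τ.length ≤ n → IsWord S τ → ∀ ω : List W, Reduced S ω →
      ω.prod = w → τ.prod ∈ subProd ω := by
  intro n
  induction n with
  | zero =>
    intro τ hlen _ ω _ _
    have : τ = [] := List.length_eq_zero_iff.1 (Nat.le_zero.1 hlen)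
    subst this
    exact ⟨[], List.nil_sublist _, rfl⟩
  | succ n ih =>
    intro τ hlen hτ ω hω hωp
    match τ, hlen, hτ with
    | [], _, _ => exact ⟨[], List.nil_sublist _, rfl⟩
    | s :: τ', hlen, hτ =>
      have hs : s ∈ S := (isWord_cons.1 hτ).1
      have hn : ω.prod ∉ Ps s := by rw [hωp]; exact hw s hs
      obtain ⟨ω₁, x, ω₂, h1, h2, h3⟩ := h.exchange_erase hs hω.1 hn
      have hss := h.sq s hs
      have hw' : IsWord S (s :: (ω₁ ++ ω₂)) := by
        refine isWord_cons.2 ⟨hs, fun z hz => hω.1 z ?_⟩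
        rw [h1]
        rw [List.mem_append] at hz ⊢
        rcases hz with hz | hz
        · exact Or.inl hz
        · exact Or.inr (List.mem_cons_of_mem _ hz)
      have hp' : (s :: (ω₁ ++ ω₂)).prod = ω.prod := by
        rw [List.prod_cons, ← h3, ← mul_assoc, hss, one_mul]
      have hr' : Reduced S (s :: (ω₁ ++ ω₂)) := hω.of_length_eq hw' hp'
        (by rw [h1]; simp only [List.length_cons, List.length_append]; omega)
      have hmem := ih τ' (by simpa using hlen) (isWord_cons.1 hτ).2 _ hr' (hp'.trans hωp)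
      rw [subProd_eq_of_reduced h hω hr' hp'.symm]
      rw [subProd_cons] at hmem ⊢
      rw [List.prod_cons]
      rcases hmem with hmem | ⟨v, hv, e⟩
      · exact Or.inr ⟨τ'.prod, hmem, rfl⟩
      · left
        rw [e, ← mul_assoc, hss, one_mul]
        exact hv

theorem isLong_unique (h : ExchFamily S Ps) {w w' : W} (hw : IsLong S Ps w)
    (hw' : IsLong S Ps w') : w = w' := by
  obtain ⟨ω, hω, hωp⟩ := exists_reduced_of_word (h.gen w)
  obtain ⟨ω', hω', hωp'⟩ := exists_reduced_of_word (h.gen w')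
  obtain ⟨τ, hτ, hτp⟩ := subProd_of_isLong h hw _ ω' le_rfl hω'.1 ω hω hωp
  obtain ⟨τ', hτ', hτp'⟩ := subProd_of_isLong h hw' _ ω le_rfl hω.1 ω' hω' hωp'
  have h1 := hω'.2 τ (hω.1.sublist hτ) hτp
  have h2 := hω.2 τ' (hω'.1.sublist hτ') hτp'
  have h3 := hτ.length_le
  have h4 := hτ'.length_le
  have h5 : τ = ω := hτ.eq_of_length (by omega)
  rw [← hωp, ← h5, hτp, hωp']

theorem isLong_of_max (h : ExchFamily S Ps) {v : W} (hv : ∀ x, len h x ≤ len h v) :
    IsLong S Ps v := by
  intro s hs hmem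
  obtain ⟨ω, hω, hωp⟩ := exists_reduced_of_word (h.gen v)
  have hr := reduced_cons_of_mem h hs hω (by rw [hωp]; exact hmem)
  have h1 := len_eq h hr
  have h2 := len_eq h hω
  have h3 := hv (s :: ω).prod
  rw [h1, ← hωp, h2] at h3
  simp at h3

theorem exists_isLong (h : ExchFamily S Ps) [Finite W] :
    ∃ w, IsLong S Ps w ∧ IsLong S Ps w⁻¹ := by
  obtain ⟨w, hw⟩ := Finite.exists_max (len h)
  exact ⟨w, isLong_of_max h hw, isLong_of_max h fun x => by rw [len_inv]; exact hw x⟩

end Abstract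

section Solomon

theorem alt_sum_single {ι : Type*} [DecidableEq ι] (I A : Finset ι) (hA : A ⊆ I) :
    ∑ J ∈ I.powerset, (if J ⊆ A then (-1 : ℤ) ^ J.card else 0) = if A = ∅ then 1 else 0 := by
  rw [← Finset.sum_filter, ← Finset.sum_powerset_neg_one_pow_card]
  congr 1
  ext J
  simp only [Finset.mem_filter, Finset.mem_powerset]
  exact ⟨fun h => h.2, fun h => ⟨h.trans hA, h⟩⟩

theorem alt_sum_one {ι : Type*} [DecidableEq ι] {W : Type*} [Fintype W] (I : Finset ι)
    (A : W → Finset ι) (hA : ∀ w, A w ⊆ I) :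
    ∑ J ∈ I.powerset, (-1 : ℤ) ^ J.card *
      ((Finset.univ.filter (fun w => J ⊆ A w)).card : ℤ) =
    ((Finset.univ.filter (fun w => A w = ∅)).card : ℤ) := by
  classical
  have h1 : ∀ J : Finset ι, ((Finset.univ.filter (fun w => J ⊆ A w)).card : ℤ) =
      ∑ w, (if J ⊆ A w then (1 : ℤ) else 0) := by
    intro J
    rw [Finset.card_filter]
    push_cast
    rfl
  have h2 : ((Finset.univ.filter (fun w => A w = ∅)).card : ℤ) =
      ∑ w, (if A w = ∅ then (1 : ℤ) else 0) := by
    rw [Finset.card_filter]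
    push_cast
    rfl
  have h3 : ∀ w, (if A w = ∅ then (1 : ℤ) else 0) =
      ∑ J ∈ I.powerset, (-1 : ℤ) ^ J.card * (if J ⊆ A w then (1 : ℤ) else 0) := by
    intro w
    rw [← alt_sum_single I (A w) (hA w)]
    apply Finset.sum_congr rfl
    intro J _
    by_cases h1 : J ⊆ A w <;> simp [h1]
  rw [h2]
  simp_rw [h3, h1, Finset.mul_sum]
  rw [Finset.sum_comm]

theorem alt_sum_pair {ι : Type*} [DecidableEq ι] {W : Type*} [Fintype W] (I : Finset ι)
    (A A' : W → Finset ι) (hA : ∀ w, A w ⊆ I) (hA' : ∀ w, A' w ⊆ I) :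
    ∑ J ∈ I.powerset, ∑ K ∈ I.powerset, (-1 : ℤ) ^ J.card * (-1 : ℤ) ^ K.card *
      ((Finset.univ.filter (fun w => J ⊆ A w ∧ K ⊆ A' w)).card : ℤ) =
    ((Finset.univ.filter (fun w => A w = ∅ ∧ A' w = ∅)).card : ℤ) := by
  classical
  have h1 : ∀ J K : Finset ι, ((Finset.univ.filter (fun w => J ⊆ A w ∧ K ⊆ A' w)).card : ℤ) =
      ∑ w, (if J ⊆ A w then (1 : ℤ) else 0) * (if K ⊆ A' w then (1 : ℤ) else 0) := by
    intro J K
    rw [Finset.card_filter]
    push_cast
    apply Finset.sum_congr rfl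
    intro w _
    by_cases h1 : J ⊆ A w <;> by_cases h2 : K ⊆ A' w <;> simp [h1, h2]
  have h2 : ((Finset.univ.filter (fun w => A w = ∅ ∧ A' w = ∅)).card : ℤ) =
      ∑ w, (if A w = ∅ then (1 : ℤ) else 0) * (if A' w = ∅ then (1 : ℤ) else 0) := by
    rw [Finset.card_filter]
    push_cast
    apply Finset.sum_congr rfl
    intro w _
    by_cases h1 : A w = ∅ <;> by_cases h2 : A' w = ∅ <;> simp [h1, h2]
  have h3 : ∀ w, (if A w = ∅ then (1 : ℤ) else 0) * (if A' w = ∅ then (1 : ℤ) else 0) =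
      ∑ J ∈ I.powerset, ∑ K ∈ I.powerset, (-1 : ℤ) ^ J.card * (-1 : ℤ) ^ K.card *
        ((if J ⊆ A w then (1 : ℤ) else 0) * (if K ⊆ A' w then (1 : ℤ) else 0)) := by
    intro w
    rw [← alt_sum_single I (A w) (hA w), ← alt_sum_single I (A' w) (hA' w), Finset.sum_mul_sum]
    apply Finset.sum_congr rfl
    intro J _
    apply Finset.sum_congr rfl
    intro K _
    by_cases h1 : J ⊆ A w <;> by_cases h2 : K ⊆ A' w <;> simp [h1, h2]
  rw [h2]
  simp_rw [h3, h1, Finset.mul_sum]
  conv_rhs => rw [Finset.sum_comm]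
  apply Finset.sum_congr rfl
  intro J _
  rw [Finset.sum_comm]

variable {W : Type*} [Group W] {S : Set W} {Ps : W → Set W}

open Classical in
/-- the set of indices that are not left descents -/
noncomputable def ascSet (Ps : W → Set W) (r : ℕ) (σ : ℕ → W) (w : W) : Finset ℕ :=
  (Finset.range r).filter (fun j => w ∈ Ps (σ j))

theorem ascSet_sub (r : ℕ) (σ : ℕ → W) (w : W) : ascSet Ps r σ w ⊆ Finset.range r := by
  classical
  unfold ascSet
  exact Finset.filter_subset _ _

theorem sub_ascSet_iff {r : ℕ} {σ : ℕ → W} {J : Finset ℕ} (hJ : J ⊆ Finset.range r) (w : W) :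
    J ⊆ ascSet Ps r σ w ↔ ∀ s ∈ σ '' (J : Set ℕ), w ∈ Ps s := by
  classical
  unfold ascSet
  constructor
  · rintro h s ⟨j, hj, rfl⟩
    exact (Finset.mem_filter.1 (h hj)).2
  · intro h j hj
    exact Finset.mem_filter.2 ⟨hJ hj, h _ ⟨j, hj, rfl⟩⟩

theorem ascSet_eq_empty_iff {r : ℕ} {σ : ℕ → W} (hS : S = σ '' ((Finset.range r : Finset ℕ) : Set ℕ))
    (w : W) : ascSet Ps r σ w = ∅ ↔ IsLong S Ps w := by
  classical
  unfold ascSet IsLong
  rw [Finset.filter_eq_empty_iff, hS]
  constructor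
  · rintro h s ⟨j, hj, rfl⟩
    exact h hj
  · intro h j hj
    exact h _ ⟨j, hj, rfl⟩

theorem card_dist_eq [Fintype W] {r : ℕ} {σ : ℕ → W} {J K : Finset ℕ}
    (hJ : J ⊆ Finset.range r) (hK : K ⊆ Finset.range r) :
    Nat.card {w : W // IsDist Ps (σ '' (J : Set ℕ)) (σ '' (K : Set ℕ)) w} =
      (Finset.univ.filter (fun w => J ⊆ ascSet Ps r σ w ∧ K ⊆ ascSet Ps r σ w⁻¹)).card := by
  classical
  rw [Nat.card_eq_fintype_card, Fintype.card_subtype]
  congr 1
  ext w
  simp only [Finset.mem_filter, Finset.mem_univ, true_and]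
  rw [sub_ascSet_iff hJ, sub_ascSet_iff hK]
  rfl

theorem solomon_pair (h : ExchFamily S Ps) [Finite W] (r : ℕ) (σ : ℕ → W)
    (hS : S = σ '' ((Finset.range r : Finset ℕ) : Set ℕ)) :
    ∑ J ∈ (Finset.range r).powerset, ∑ K ∈ (Finset.range r).powerset,
      (-1 : ℤ) ^ J.card * (-1 : ℤ) ^ K.card *
        (Nat.card {w : W // IsDist Ps (σ '' (J : Set ℕ)) (σ '' (K : Set ℕ)) w} : ℤ) = 1 := by
  classical
  have : Fintype W := Fintype.ofFinite W
  have h1 := alt_sum_pair (Finset.range r) (fun w : W => ascSet Ps r σ w)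
    (fun w : W => ascSet Ps r σ w⁻¹) (fun w => ascSet_sub r σ w) (fun w => ascSet_sub r σ w⁻¹)
  have h2 : (Finset.univ.filter (fun w : W => ascSet Ps r σ w = ∅ ∧ ascSet Ps r σ w⁻¹ = ∅)).card
      = 1 := by
    obtain ⟨w₀, hw₀, hw₀'⟩ := exists_isLong h
    rw [Finset.card_eq_one]
    refine ⟨w₀, ?_⟩
    ext w
    simp only [Finset.mem_filter, Finset.mem_univ, true_and, Finset.mem_singleton]
    rw [ascSet_eq_empty_iff hS, ascSet_eq_empty_iff hS]
    constructor
    · intro hw
      exact isLong_unique h hw.1 hw₀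
    · rintro rfl
      exact ⟨hw₀, hw₀'⟩
  rw [h2, Nat.cast_one] at h1
  refine Eq.trans (Finset.sum_congr rfl fun J hJ => Finset.sum_congr rfl fun K hK => ?_) h1
  rw [card_dist_eq (Finset.mem_powerset.1 hJ) (Finset.mem_powerset.1 hK)]

theorem solomon_one (h : ExchFamily S Ps) [Finite W] (r : ℕ) (σ : ℕ → W)
    (hS : S = σ '' ((Finset.range r : Finset ℕ) : Set ℕ)) :
    ∑ J ∈ (Finset.range r).powerset,
      (-1 : ℤ) ^ J.card *
        (Nat.card {w : W // IsDist Ps (σ '' (J : Set ℕ)) (∅ : Set W) w} : ℤ) = 1 := by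
  classical
  have : Fintype W := Fintype.ofFinite W
  have h1 := alt_sum_one (Finset.range r) (fun w : W => ascSet Ps r σ w)
    (fun w => ascSet_sub r σ w)
  have h2 : (Finset.univ.filter (fun w : W => ascSet Ps r σ w = ∅)).card = 1 := by
    obtain ⟨w₀, hw₀, hw₀'⟩ := exists_isLong h
    rw [Finset.card_eq_one]
    refine ⟨w₀, ?_⟩
    ext w
    simp only [Finset.mem_filter, Finset.mem_univ, true_and, Finset.mem_singleton]
    rw [ascSet_eq_empty_iff hS]
    constructor
    · intro hw
      exact isLong_unique h hw hw₀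
    · rintro rfl
      exact hw₀
  rw [h2, Nat.cast_one] at h1
  refine Eq.trans (Finset.sum_congr rfl fun J hJ => ?_) h1
  have e := card_dist_eq (Ps := Ps) (σ := σ) (Finset.mem_powerset.1 hJ) (Finset.empty_subset (Finset.range r))
  simp only [Finset.coe_empty, Set.image_empty, Finset.empty_subset, and_true] at e
  rw [e]

end Solomon

end Cfsg.Agent.Helper40.BNSt
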