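import Mathlib
import Cfsg.Agent.Helper6.BN
import Cfsg.Agent.Helper40.BNStA
import Cfsg.Agent.Helper40.PairOrbits
import Cfsg.Agent.Helper40.UnipotentIrr

/-!
The Steinberg character of a finite group with a BN-pair: the alternating sum of the permutation
characters on the standard parabolic subgroups is an irreducible character.
-/

set_option autoImplicit false
set_option linter.unusedSectionVars false
set_option linter.unusedVariables false

namespace Cfsg.Agent.Helper40.BNSt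

open Cfsg.Agent.Helper6
open scoped ComplexConjugate

section Group

variable {G : Type*} [Group G] (P : Cfsg.BNPair G)

/-- the union of the double cosets `B a n b B`, `a ∈ ⟨J⟩`, `b ∈ ⟨K⟩` -/
def XJK (J K : Set G) (n : G) : Set G :=
  {g | ∃ a ∈ Subgroup.closure J, ∃ b ∈ Subgroup.closure K, g ∈ DC P (a * n * b)}

theorem XJK_left {J K : Set G} (hJ : J ⊆ P.S) (hK : K ⊆ P.S) {n : G} (hn : n ∈ P.N) {p : G}
    (hp : p ∈ P.parabolic J) : ∀ x ∈ XJK P J K n, p * x ∈ XJK P J K n := by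
  let M : Subgroup G :=
    { carrier := {g | ∀ x ∈ XJK P J K n, g * x ∈ XJK P J K n ∧ g⁻¹ * x ∈ XJK P J K n}
      one_mem' := by
        intro x hx
        simpa using hx
      mul_mem' := by
        intro g g' hg hg' x hx
        constructor
        · rw [mul_assoc]
          exact (hg _ (hg' x hx).1).1
        · rw [mul_inv_rev, mul_assoc]
          exact (hg' _ (hg x hx).2).2
      inv_mem' := by
        intro g hg x hx
        rw [inv_inv]
        exact ⟨(hg x hx).2, (hg x hx).1⟩ }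
  have hB : P.B ≤ M := by
    intro b hb x hx
    obtain ⟨a, ha, c, hc, hx⟩ := hx
    exact ⟨⟨a, ha, c, hc, mul_left_mem_DC P hb hx⟩,
      ⟨a, ha, c, hc, mul_left_mem_DC P (P.B.inv_mem hb) hx⟩⟩
  have hJM : J ⊆ (M : Set G) := by
    intro s hs x hx
    obtain ⟨a, ha, c, hc, hx⟩ := hx
    have hanc : a * n * c ∈ P.N :=
      P.N.mul_mem (P.N.mul_mem (closure_le_N P hJ ha) hn) (closure_le_N P hK hc)
    have hsa : s * a ∈ Subgroup.closure J :=
      Subgroup.mul_mem _ (Subgroup.subset_closure hs) ha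
    have e : s * (a * n * c) = s * a * n * c := by group
    constructor
    · rcases T3_left P (hJ hs) hanc hx with h | h
      · rw [e] at h
        exact ⟨s * a, hsa, c, hc, h⟩
      · exact ⟨a, ha, c, hc, h⟩
    · rcases T3_inv_left P (hJ hs) hanc hx with h | h
      · rw [e] at h
        exact ⟨s * a, hsa, c, hc, h⟩
      · exact ⟨a, ha, c, hc, h⟩
  have hle : P.parabolic J ≤ M := parabolic_le P hB hJM
  intro x hx
  exact (hle hp x hx).1

theorem XJK_inv {J K : Set G} {n g : G} (hg : g ∈ XJK P J K n) : g⁻¹ ∈ XJK P K J n⁻¹ := by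
  obtain ⟨a, ha, c, hc, hx⟩ := hg
  refine ⟨c⁻¹, Subgroup.inv_mem _ hc, a⁻¹, Subgroup.inv_mem _ ha, ?_⟩
  have h1 := mem_DC_inv P hx
  have e : (a * n * c)⁻¹ = c⁻¹ * n⁻¹ * a⁻¹ := by group
  rwa [e] at h1

theorem XJK_right {J K : Set G} (hJ : J ⊆ P.S) (hK : K ⊆ P.S) {n : G} (hn : n ∈ P.N) {q : G}
    (hq : q ∈ P.parabolic K) {x : G} (hx : x ∈ XJK P J K n) : x * q ∈ XJK P J K n := by
  have h1 := XJK_left P hK hJ (P.N.inv_mem hn) ((P.parabolic K).inv_mem hq) _ (XJK_inv P hx)
  have h2 := XJK_inv P h1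
  simpa [mul_inv_rev] using h2

theorem mem_XJK_self {J K : Set G} {n g : G} (hg : g ∈ DC P n) : g ∈ XJK P J K n :=
  ⟨1, Subgroup.one_mem _, 1, Subgroup.one_mem _, by simpa using hg⟩

theorem proj_of_mem_XJK {J K : Set G} (hJ : J ⊆ P.S) (hK : K ⊆ P.S) {n n' g : G}
    (hn : n ∈ P.N) (hn' : n' ∈ P.N) (hg : g ∈ XJK P J K n) (hg' : g ∈ DC P n') :
    ∃ a ∈ Subgroup.closure (proj P '' J), ∃ b ∈ Subgroup.closure (proj P '' K),
      proj P n' = a * proj P n * b := by
  obtain ⟨a, ha, c, hc, hx⟩ := hg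
  have haN := closure_le_N P hJ ha
  have hcN := closure_le_N P hK hc
  have h1 := bruhat_unique P (P.N.mul_mem (P.N.mul_mem haN hn) hcN) hn'
    (DC_eq_of_inter P hx hg')
  rw [proj_mul P (P.N.mul_mem haN hn) hcN, proj_mul P haN hn] at h1
  exact ⟨proj P a, (proj_mem_closure P (Set.Subset.trans hJ P.subset) ha).2, proj P c,
    (proj_mem_closure P (Set.Subset.trans hK P.subset) hc).2, h1.symm⟩

theorem exists_lift {J : Set G} (hJ : J ⊆ P.S) {a : Wg P}
    (ha : a ∈ Subgroup.closure (proj P '' J)) : ∃ m ∈ Subgroup.closure J, proj P m = a := by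
  obtain ⟨l, hl, rfl⟩ := exists_word_of_mem_closure
    (fun x hx => SW_sq P (show x ∈ SW P from Set.image_mono hJ hx)) ha
  obtain ⟨m, hm, _, hp⟩ := exists_lift_word P (Set.Subset.trans hJ P.subset) l hl
  exact ⟨m, hm, hp⟩

theorem exists_distRep {J K : Set G} (hJ : J ⊆ P.S) (hK : K ⊆ P.S) (w : Wg P) :
    ∃ d, IsDist (PsW P) (proj P '' J) (proj P '' K) d ∧
      ∃ a ∈ Subgroup.closure (proj P '' J), ∃ b ∈ Subgroup.closure (proj P '' K),
        w = a * d * b :=
  exists_dist (exchFamily P) (Set.image_mono hJ) (Set.image_mono hK) w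

/-- the distinguished representative of the double coset `W_J w W_K` -/
noncomputable def distRep {J K : Set G} (hJ : J ⊆ P.S) (hK : K ⊆ P.S) (w : Wg P) : Wg P :=
  Classical.choose (exists_distRep P hJ hK w)

theorem distRep_spec {J K : Set G} (hJ : J ⊆ P.S) (hK : K ⊆ P.S) (w : Wg P) :
    IsDist (PsW P) (proj P '' J) (proj P '' K) (distRep P hJ hK w) ∧
      ∃ a ∈ Subgroup.closure (proj P '' J), ∃ b ∈ Subgroup.closure (proj P '' K),
        w = a * distRep P hJ hK w * b :=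
  Classical.choose_spec (exists_distRep P hJ hK w)

theorem distRep_eq {J K : Set G} (hJ : J ⊆ P.S) (hK : K ⊆ P.S) {w w' a b : Wg P}
    (ha : a ∈ Subgroup.closure (proj P '' J)) (hb : b ∈ Subgroup.closure (proj P '' K))
    (e : w' = a * w * b) : distRep P hJ hK w' = distRep P hJ hK w := by
  obtain ⟨hd, a₁, ha₁, b₁, hb₁, e₁⟩ := distRep_spec P hJ hK w
  obtain ⟨hd', a₂, ha₂, b₂, hb₂, e₂⟩ := distRep_spec P hJ hK w'
  generalize distRep P hJ hK w' = d' at *
  generalize distRep P hJ hK w = d at *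
  refine dist_unique (exchFamily P) (Set.image_mono hJ) (Set.image_mono hK) hd hd'
    (a := a₂⁻¹ * a * a₁) (b := b₁ * b * b₂⁻¹)
    (mul_mem (mul_mem (inv_mem ha₂) ha) ha₁) (mul_mem (mul_mem hb₁ hb) (inv_mem hb₂)) ?_
  have h1 : d' = a₂⁻¹ * (a₂ * d' * b₂) * b₂⁻¹ := by group
  rw [← e₂, e, e₁] at h1
  rw [h1]
  group

theorem distRep_of_isDist {J K : Set G} (hJ : J ⊆ P.S) (hK : K ⊆ P.S) {d : Wg P}
    (hd : IsDist (PsW P) (proj P '' J) (proj P '' K) d) : distRep P hJ hK d = d := by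
  obtain ⟨hd', a, ha, b, hb, e⟩ := distRep_spec P hJ hK d
  generalize distRep P hJ hK d = d' at *
  refine dist_unique (exchFamily P) (Set.image_mono hJ) (Set.image_mono hK) hd hd'
    (inv_mem ha) (inv_mem hb) ?_
  have h1 : d' = a⁻¹ * (a * d' * b) * b⁻¹ := by group
  rw [← e] at h1
  exact h1

/-- a complete invariant of the double cosets `P_J g P_K` -/
noncomputable def cInv {J K : Set G} (hJ : J ⊆ P.S) (hK : K ⊆ P.S) (g : G) : Wg P :=
  distRep P hJ hK (proj P (Classical.choose (bruhat_exists P g)))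

theorem cInv_eq {J K : Set G} (hJ : J ⊆ P.S) (hK : K ⊆ P.S) {g n : G} (hn : n ∈ P.N)
    (hg : g ∈ DC P n) : cInv P hJ hK g = distRep P hJ hK (proj P n) := by
  unfold cInv
  obtain ⟨hn', hg'⟩ := Classical.choose_spec (bruhat_exists P g)
  rw [bruhat_unique P hn' hn (DC_eq_of_inter P hg' hg)]

theorem cInv_inv {J K : Set G} (hJ : J ⊆ P.S) (hK : K ⊆ P.S) {p q : G}
    (hp : p ∈ P.parabolic J) (hq : q ∈ P.parabolic K) (g : G) :
    cInv P hJ hK (p * g * q) = cInv P hJ hK g := by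
  obtain ⟨n, hn, hg⟩ := bruhat_exists P g
  obtain ⟨n', hn', hg'⟩ := bruhat_exists P (p * g * q)
  rw [cInv_eq P hJ hK hn hg, cInv_eq P hJ hK hn' hg']
  have h1 : p * g * q ∈ XJK P J K n :=
    XJK_right P hJ hK hn hq (XJK_left P hJ hK hn hp _ (mem_XJK_self P hg))
  obtain ⟨a, ha, b, hb, e⟩ := proj_of_mem_XJK P hJ hK hn hn' h1 hg'
  exact distRep_eq P hJ hK ha hb e

theorem cInv_complete {J K : Set G} (hJ : J ⊆ P.S) (hK : K ⊆ P.S) {g g' : G}
    (h : cInv P hJ hK g = cInv P hJ hK g') :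
    ∃ p ∈ P.parabolic J, ∃ q ∈ P.parabolic K, g' = p * g * q := by
  obtain ⟨n, hn, hg⟩ := bruhat_exists P g
  obtain ⟨n', hn', hg'⟩ := bruhat_exists P g'
  rw [cInv_eq P hJ hK hn hg, cInv_eq P hJ hK hn' hg'] at h
  obtain ⟨_, a₁, ha₁, b₁, hb₁, e₁⟩ := distRep_spec P hJ hK (proj P n)
  obtain ⟨_, a₂, ha₂, b₂, hb₂, e₂⟩ := distRep_spec P hJ hK (proj P n')
  rw [← h] at e₂
  generalize distRep P hJ hK (proj P n) = d at e₁ e₂
  obtain ⟨at', hat, hatp⟩ := exists_lift P hJ (mul_mem ha₂ (inv_mem ha₁))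
  obtain ⟨bt, hbt, hbtp⟩ := exists_lift P hK (mul_mem (inv_mem hb₁) hb₂)
  have hatN := closure_le_N P hJ hat
  have hbtN := closure_le_N P hK hbt
  have hN : at' * n * bt ∈ P.N := P.N.mul_mem (P.N.mul_mem hatN hn) hbtN
  have e3 : proj P (at' * n * bt) = proj P n' := by
    rw [proj_mul P (P.N.mul_mem hatN hn) hbtN, proj_mul P hatN hn, hatp, hbtp, e₂, e₁]
    group
  have h4 : g' ∈ DC P (at' * n * bt) := by
    rw [DC_eq_of_proj_eq P hN hn' e3]
    exact hg'
  obtain ⟨c₁, hc₁, c₂, hc₂, rfl⟩ := (mem_DC P).1 hg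
  obtain ⟨u₁, hu₁, u₂, hu₂, rfl⟩ := (mem_DC P).1 h4
  refine ⟨u₁ * at' * c₁⁻¹, ?_, c₂⁻¹ * bt * u₂, ?_, by group⟩
  · exact mul_mem (mul_mem (B_le_parabolic P J hu₁) (closure_le_parabolic P J hat))
      (inv_mem (B_le_parabolic P J hc₁))
  · exact mul_mem (mul_mem (inv_mem (B_le_parabolic P K hc₂)) (closure_le_parabolic P K hbt))
      (B_le_parabolic P K hu₂)

theorem range_cInv {J K : Set G} (hJ : J ⊆ P.S) (hK : K ⊆ P.S) :
    Set.range (cInv P hJ hK) = {d | IsDist (PsW P) (proj P '' J) (proj P '' K) d} := by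
  ext d
  constructor
  · rintro ⟨g, rfl⟩
    exact (distRep_spec P hJ hK _).1
  · intro hd
    obtain ⟨n, hn, rfl⟩ := proj_surj P d
    exact ⟨n, by rw [cInv_eq P hJ hK hn (DC_self P n)]; exact distRep_of_isDist P hJ hK hd⟩

theorem sum_fpc_parabolic [Fintype G] {J K : Set G} (hJ : J ⊆ P.S) (hK : K ⊆ P.S) :
    ∑ g : G, Cfsg.fixedPointCharacter (P.parabolic J) g *
        Cfsg.fixedPointCharacter (P.parabolic K) g =
      (Nat.card G : ℂ) *
        (Nat.card {d : Wg P // IsDist (PsW P) (proj P '' J) (proj P '' K) d} : ℂ) := by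
  rw [Cfsg.Agent.Helper40.sum_fixedPointCharacter_mul (P.parabolic J) (P.parabolic K)
    (cInv P hJ hK) (fun p hp q hq g => cInv_inv P hJ hK hp hq g)
    (fun g g' h => cInv_complete P hJ hK h), range_cInv]
  rfl

end Group

section Steinberg

variable {G : Type*} [Group G] (P : Cfsg.BNPair G)

/-- the alternating sum of the permutation characters on the standard parabolic subgroups,
for an enumeration `σ` of the distinguished generators -/
noncomputable def stChar (r : ℕ) (σ : ℕ → G) (g : G) : ℂ :=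
  ∑ J ∈ (Finset.range r).powerset,
    (-1 : ℂ) ^ J.card * Cfsg.fixedPointCharacter (P.parabolic (σ '' (J : Set ℕ))) g

theorem stChar_conj (r : ℕ) (σ : ℕ → G) (g : G) : conj (stChar P r σ g) = stChar P r σ g := by
  unfold stChar
  rw [map_sum]
  apply Finset.sum_congr rfl
  intro J _
  rw [map_mul, map_pow, map_neg, map_one, Cfsg.Agent.Helper40.fpc_conj]

theorem stChar_isClassFunction [Fintype G] (r : ℕ) (σ : ℕ → G) :
    Cfsg.IsClassFunction G (stChar P r σ) := by
  intro g h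
  unfold stChar
  apply Finset.sum_congr rfl
  intro J _
  congr 1
  exact Cfsg.Agent.Helper79.isCharacter_isClassFunction (Cfsg.Agent.Helper40.fpc_isCharacter _) g h

theorem stChar_inner_int [Fintype G] (r : ℕ) (σ : ℕ → G) (χ : Cfsg.IrrCharacter G) :
    ∃ z : ℤ, Cfsg.classInner (stChar P r σ) χ = (z : ℂ) := by
  classical
  have hm : ∀ J : Finset ℕ, ∃ m : ℕ, Cfsg.classInner
      (Cfsg.fixedPointCharacter (P.parabolic (σ '' (J : Set ℕ)))) (χ : G → ℂ) = (m : ℂ) :=
    fun J => Cfsg.Agent.Helper15.inner_nat (Cfsg.Agent.Helper40.fpc_isCharacter _)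
      (Cfsg.Agent.Helper15.isChar_of_irr χ.2)
  choose m hm using hm
  refine ⟨∑ J ∈ (Finset.range r).powerset, (-1 : ℤ) ^ J.card * (m J : ℤ), ?_⟩
  have e : stChar P r σ = ∑ J ∈ (Finset.range r).powerset,
      ((-1 : ℂ) ^ J.card) • Cfsg.fixedPointCharacter (P.parabolic (σ '' (J : Set ℕ))) := by
    funext g
    unfold stChar
    rw [Finset.sum_apply]
    rfl
  rw [e, Cfsg.Agent.Helper15.classInner_sum_left]
  push_cast
  apply Finset.sum_congr rfl
  intro J _
  rw [Cfsg.Agent.Helper15.classInner_smul_left, hm J]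

theorem image_sub_S {r : ℕ} {σ : ℕ → G}
    (hS : P.S = σ '' ((Finset.range r : Finset ℕ) : Set ℕ)) {J : Finset ℕ}
    (hJ : J ∈ (Finset.range r).powerset) : σ '' (J : Set ℕ) ⊆ P.S := by
  rw [hS]
  exact Set.image_mono (Finset.coe_subset.2 (Finset.mem_powerset.1 hJ))

theorem SW_eq_image {r : ℕ} {σ : ℕ → G}
    (hS : P.S = σ '' ((Finset.range r : Finset ℕ) : Set ℕ)) :
    SW P = (fun j => proj P (σ j)) '' ((Finset.range r : Finset ℕ) : Set ℕ) := by
  unfold SW
  rw [hS, Set.image_image]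

theorem sum_stChar_mul [Fintype G] (r : ℕ) (σ : ℕ → G)
    (hS : P.S = σ '' ((Finset.range r : Finset ℕ) : Set ℕ)) :
    ∑ g : G, stChar P r σ g * stChar P r σ g = (Nat.card G : ℂ) := by
  classical
  have h1 : ∀ g, stChar P r σ g * stChar P r σ g =
      ∑ J ∈ (Finset.range r).powerset, ∑ K ∈ (Finset.range r).powerset,
        (-1 : ℂ) ^ J.card * (-1 : ℂ) ^ K.card *
          (Cfsg.fixedPointCharacter (P.parabolic (σ '' (J : Set ℕ))) g *
            Cfsg.fixedPointCharacter (P.parabolic (σ '' (K : Set ℕ))) g) := by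
    intro g
    unfold stChar
    rw [Finset.sum_mul_sum]
    apply Finset.sum_congr rfl
    intro J _
    apply Finset.sum_congr rfl
    intro K _
    ring
  simp_rw [h1]
  rw [Finset.sum_comm]
  have h2 : ∀ J ∈ (Finset.range r).powerset, ∑ g : G, ∑ K ∈ (Finset.range r).powerset,
      (-1 : ℂ) ^ J.card * (-1 : ℂ) ^ K.card *
        (Cfsg.fixedPointCharacter (P.parabolic (σ '' (J : Set ℕ))) g *
          Cfsg.fixedPointCharacter (P.parabolic (σ '' (K : Set ℕ))) g) =
      ∑ K ∈ (Finset.range r).powerset, (Nat.card G : ℂ) *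
        ((-1 : ℂ) ^ J.card * (-1 : ℂ) ^ K.card *
          (Nat.card {d : Wg P // IsDist (PsW P) ((fun j => proj P (σ j)) '' (J : Set ℕ))
            ((fun j => proj P (σ j)) '' (K : Set ℕ)) d} : ℂ)) := by
    intro J hJ
    rw [Finset.sum_comm]
    apply Finset.sum_congr rfl
    intro K hK
    rw [← Finset.mul_sum, sum_fpc_parabolic P (image_sub_S P hS hJ) (image_sub_S P hS hK),
      Set.image_image, Set.image_image]
    ring
  rw [Finset.sum_congr rfl h2]
  simp_rw [← Finset.mul_sum]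
  have h3 := congrArg (Int.cast : ℤ → ℂ)
    (solomon_pair (exchFamily P) r (fun j => proj P (σ j)) (SW_eq_image P hS))
  push_cast at h3
  rw [h3, mul_one]

theorem stChar_norm [Fintype G] (r : ℕ) (σ : ℕ → G)
    (hS : P.S = σ '' ((Finset.range r : Finset ℕ) : Set ℕ)) :
    Cfsg.classInner (stChar P r σ) (stChar P r σ) = 1 := by
  unfold Cfsg.classInner
  simp only [stChar_conj]
  rw [sum_stChar_mul P r σ hS]
  have hG : (Nat.card G : ℂ) ≠ 0 := by exact_mod_cast Nat.card_pos.ne'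
  exact inv_mul_cancel₀ hG

theorem parabolic_empty : P.parabolic (∅ : Set G) = P.B := by
  unfold Cfsg.BNPair.parabolic
  simp

theorem sum_stChar_mul_B [Fintype G] (r : ℕ) (σ : ℕ → G)
    (hS : P.S = σ '' ((Finset.range r : Finset ℕ) : Set ℕ)) :
    ∑ g : G, stChar P r σ g * Cfsg.fixedPointCharacter P.B g = (Nat.card G : ℂ) := by
  classical
  unfold stChar
  simp only [Finset.sum_mul]
  rw [Finset.sum_comm]
  have h2 : ∀ J ∈ (Finset.range r).powerset, ∑ g : G,
      (-1 : ℂ) ^ J.card * Cfsg.fixedPointCharacter (P.parabolic (σ '' (J : Set ℕ))) g *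
        Cfsg.fixedPointCharacter P.B g =
      (Nat.card G : ℂ) * ((-1 : ℂ) ^ J.card *
          (Nat.card {d : Wg P // IsDist (PsW P) ((fun j => proj P (σ j)) '' (J : Set ℕ))
            (∅ : Set (Wg P)) d} : ℂ)) := by
    intro J hJ
    have h := sum_fpc_parabolic P (image_sub_S P hS hJ) (Set.empty_subset P.S)
    rw [parabolic_empty, Set.image_image, Set.image_empty] at h
    simp_rw [mul_assoc]
    rw [← Finset.mul_sum, h]
    ring
  rw [Finset.sum_congr rfl h2, ← Finset.mul_sum]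
  have h3 := congrArg (Int.cast : ℤ → ℂ)
    (solomon_one (exchFamily P) r (fun j => proj P (σ j)) (SW_eq_image P hS))
  push_cast at h3
  rw [h3, mul_one]

/-- **Steinberg character of a finite group with a BN-pair**: the alternating sum of the
permutation characters on the standard parabolic subgroups is irreducible. -/
theorem stChar_isIrr [Fintype G] (r : ℕ) (σ : ℕ → G)
    (hS : P.S = σ '' ((Finset.range r : Finset ℕ) : Set ℕ)) :
    Cfsg.IsIrrCharacter G (stChar P r σ) := by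
  refine Cfsg.Agent.Helper40.isIrr_of_int_norm_one (π := Cfsg.fixedPointCharacter P.B)
    (stChar_isClassFunction P r σ) (stChar_inner_int P r σ) (stChar_norm P r σ hS)
    (Cfsg.Agent.Helper40.fpc_isCharacter _) ⟨1, one_pos, ?_⟩
  unfold Cfsg.classInner
  simp only [Cfsg.Agent.Helper40.fpc_conj]
  rw [sum_stChar_mul_B P r σ hS]
  have hG : (Nat.card G : ℂ) ≠ 0 := by exact_mod_cast Nat.card_pos.ne'
  rw [inv_mul_cancel₀ hG]
  simp

end Steinberg

end Cfsg.Agent.Helper40.BNSt
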