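import Mathlib
import Cfsg.Agent.Helper40.BNStB

/-!
The Steinberg character of a finite group with a BN-pair, restricted to `B`: it is the
permutation character of `B` on the cosets of `B ∩ n₀ B n₀⁻¹`, `n₀` a representative of the
element with full descent set.
-/

set_option autoImplicit false
set_option linter.unusedSectionVars false
set_option linter.unusedVariables false

namespace Cfsg.Agent.Helper40.BNSt

open Cfsg.Agent.Helper6

section AbstractMore

variable {W : Type*} [Group W] {S : Set W} {Ps : W → Set W}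

/-- version of `dist_sublist` for an arbitrary word of `d` -/
theorem dist_sublist_word (h : ExchFamily S Ps) {J K : Set W} (hJ : J ⊆ S) (hK : K ⊆ S)
    {d d' : W} (hd' : IsDist Ps J K d') {a b : W} (ha : a ∈ Subgroup.closure J)
    (hb : b ∈ Subgroup.closure K) (e : d' = a * d * b)
    {ω : List W} (hω : IsWord S ω) (hωp : ω.prod = d) :
    ∃ δ : List W, δ.Sublist ω ∧ Reduced S δ ∧ δ.prod = d' := by
  obtain ⟨la, hla, hpa⟩ := exists_word_of_mem_closure (fun x hx => h.sq x (hJ hx)) ha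
  obtain ⟨lb, hlb, hpb⟩ := exists_word_of_mem_closure (fun x hx => h.sq x (hK hx)) hb
  have hw : IsWord S (la ++ (ω ++ lb)) :=
    isWord_append.2 ⟨hla.mono hJ, isWord_append.2 ⟨hω, hlb.mono hK⟩⟩
  obtain ⟨ω', hsub, hr, hp⟩ := h.exists_reduced_sublist _ le_rfl hw
  have hp' : ω'.prod = d' := by
    rw [hp, e]
    simp [hpa, hpb, hωp, mul_assoc]
  obtain ⟨α, ρ, rfl, hα, hρ⟩ := List.sublist_append_iff.1 hsub
  obtain ⟨δ, β, rfl, hδ, hβ⟩ := List.sublist_append_iff.1 hρ
  have hα0 : α = [] := by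
    match α, hα, hr, hp' with
    | [], _, _, _ => rfl
    | s :: α', hα, hr, hp' =>
      exfalso
      have hsJ : s ∈ J := hla s (hα.subset (by simp))
      have h1 := h.not_mem_of_reduced_cons (s := s) (l := α' ++ (δ ++ β)) (by simpa using hr)
      have h2 : (s :: (α' ++ (δ ++ β))).prod = d' := by simpa using hp'
      rw [h2] at h1
      exact h1 (hd'.1 s hsJ)
  subst hα0
  have hβ0 : β = [] := by
    by_contra hne
    obtain ⟨β', s, rfl⟩ : ∃ β' s, β = β' ++ [s] :=
      ⟨β.dropLast, β.getLast hne, (List.dropLast_append_getLast hne).symm⟩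
    have hsK : s ∈ K := hlb s (hβ.subset (by simp))
    have hrr := reduced_reverse h hr
    have e1 : ([] ++ (δ ++ (β' ++ [s]))).reverse = s :: (β'.reverse ++ δ.reverse) := by simp
    have h1 : ([] ++ (δ ++ (β' ++ [s]))).reverse.prod = d'⁻¹ := by
      rw [prod_reverse_of_sq (fun x hx => h.sq x (hr.1 x hx)), hp']
    rw [e1] at hrr h1
    have h2 := h.not_mem_of_reduced_cons hrr
    rw [h1] at h2
    exact h2 (hd'.2 s hsK)
  subst hβ0
  exact ⟨δ, hδ, by simpa using hr, by simpa using hp'⟩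

/-- lengths add: a reduced word in `J` followed by a reduced word of an element without left
descents in `J` is reduced -/
theorem reduced_append_of_dist (h : ExchFamily S Ps) {J : Set W} (hJ : J ⊆ S) {d : W}
    (hd : ∀ s ∈ J, d ∈ Ps s) {δ : List W} (hδ : Reduced S δ) (hδp : δ.prod = d) :
    ∀ α : List W, Reduced S α → IsWord J α → Reduced S (α ++ δ) := by
  intro α
  induction α with
  | nil => intro _ _; simpa using hδ
  | cons s α' ih =>
    intro hα hαJ
    have hsJ : s ∈ J := (isWord_cons.1 hαJ).1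
    have hα'J : IsWord J α' := (isWord_cons.1 hαJ).2
    have hs : s ∈ S := hJ hsJ
    have ih' := ih hα.tail hα'J
    rw [List.cons_append]
    refine reduced_cons_of_mem h hs ih' ?_
    by_contra hn
    rw [List.prod_append] at hn
    obtain ⟨l₁, x, l₂, h1, h2⟩ := h.exchange_aux hs δ hδ.1 α'.prod (h.mem_of_reduced_cons hα) hn
    have hx : x ∈ S := hδ.1 x (by rw [h1]; simp)
    have hxx := h.sq x hx
    have hss := h.sq s hs
    have hc : α'.prod⁻¹ * s⁻¹ * α'.prod ∈ Subgroup.closure J :=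
      mul_mem (mul_mem (inv_mem (prod_mem_closure_of_isWord hα'J))
        (inv_mem (Subgroup.subset_closure hsJ))) (prod_mem_closure_of_isWord hα'J)
    have e : d = α'.prod⁻¹ * s⁻¹ * α'.prod * (l₁ ++ l₂).prod * 1 := by
      have e1 : α'.prod * (l₁ ++ l₂).prod = s * (α'.prod * d) := by
        rw [← hδp, h1, List.prod_append, List.prod_append, List.prod_cons]
        calc α'.prod * (l₁.prod * l₂.prod) = α'.prod * l₁.prod * (x * x) * l₂.prod := by
              rw [hxx]; group
          _ = (α'.prod * l₁.prod * x) * x * l₂.prod := by group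
          _ = s * (α'.prod * l₁.prod) * x * l₂.prod := by rw [← h2]
          _ = s * (α'.prod * (l₁.prod * (x * l₂.prod))) := by group
      have e2 : (l₁ ++ l₂).prod = α'.prod⁻¹ * (s * (α'.prod * d)) := by
        rw [← e1]; group
      rw [e2]
      group
    have hwl : IsWord S (l₁ ++ l₂) := by
      intro z hz
      apply hδ.1 z
      rw [h1]
      rw [List.mem_append] at hz ⊢
      rcases hz with hz | hz
      · exact Or.inl hz
      · exact Or.inr (List.mem_cons_of_mem _ hz)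
    obtain ⟨δ', hδ', hδr', hδp'⟩ := dist_sublist_word h hJ (Set.empty_subset S)
      (d' := d) (d := (l₁ ++ l₂).prod) ⟨hd, fun s hs => absurd hs (Set.notMem_empty s)⟩ hc
      (Subgroup.one_mem _) e hwl rfl
    have h3 := hδ.2 δ' hδr'.1 (hδp'.trans hδp.symm)
    have h4 := hδ'.length_le
    rw [h1] at h3
    simp only [List.length_append, List.length_cons] at h3 h4
    omega

end AbstractMore

section GroupMore

variable {G : Type*} [Group G] (P : Cfsg.BNPair G)

/-- `C(m) C(n) ⊆ C(m n)` when `m` is a product of generators in `K` and `n` has no left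
descents in `K` -/
theorem DC_mul_of_leftDist {K : Set G} (hK : K ⊆ P.S) :
    ∀ ω : List (Wg P), Reduced (SW P) ω → IsWord (proj P '' K) ω → ∀ m ∈ P.N,
      proj P m = ω.prod → ∀ n ∈ P.N, (∀ s ∈ proj P '' K, proj P n ∈ PsW P s) →
        ∀ x ∈ DC P m, ∀ y ∈ DC P n, x * y ∈ DC P (m * n) := by
  intro ω
  induction ω with
  | nil =>
    intro _ _ m hm hpm n hn hd x hx y hy
    have hmB : m ∈ P.B := (proj_eq_one_iff P hm).1 (by simpa using hpm)
    have hxB : x ∈ P.B := mem_B_of_mem_DC P hmB hx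
    rw [DC_mul_left P hmB]
    exact mul_left_mem_DC P hxB hy
  | cons sb ω' ih =>
    intro hr hw m hm hpm n hn hd x hx y hy
    obtain ⟨s, hsK, rfl⟩ := (isWord_cons.1 hw).1
    have hs : s ∈ P.S := hK hsK
    have hsN := S_mem_N P hs
    have hm' : s⁻¹ * m ∈ P.N := P.N.mul_mem (P.N.inv_mem hsN) hm
    have hpm' : proj P (s⁻¹ * m) = ω'.prod := by
      rw [proj_mul P (P.N.inv_mem hsN) hm, proj_inv P hsN, hpm, List.prod_cons,
        inv_mul_cancel_left]
    have e : m = s * (s⁻¹ * m) := by group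
    rw [e] at hx
    obtain ⟨b₁, hb₁, b₂, hb₂, rfl⟩ := (mem_DC P).1 hx
    have hz : (s⁻¹ * m) * b₂ * y ∈ DC P (s⁻¹ * m * n) :=
      ih hr.tail (isWord_cons.1 hw).2 _ hm' hpm' n hn hd _
        (mul_right_mem_DC P hb₂ (DC_self P _)) y hy
    have hPg : Pg P s (s⁻¹ * m * n) := by
      rw [← mem_PsW_iff P hs (P.N.mul_mem hm' hn), proj_mul P hm' hn, hpm']
      obtain ⟨δ, hδ, hδp⟩ := exists_reduced_of_word (SW_gen P (proj P n))
      have hred := reduced_append_of_dist (exchFamily P) (Set.image_mono hK) hd hδ hδp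
        (proj P s :: ω') hr hw
      have h5 := (exchFamily P).mem_of_reduced_cons (s := proj P s) (l := ω' ++ δ)
        (by simpa using hred)
      rwa [List.prod_append, hδp] at h5
    obtain ⟨c₁, hc₁, c₂, hc₂, hzeq⟩ := (mem_DC P).1 hz
    have h1 : s * c₁ * (s⁻¹ * m * n) ∈ DC P (s * (s⁻¹ * m * n)) := hPg c₁ hc₁
    have e2 : b₁ * (s * (s⁻¹ * m)) * b₂ * y = b₁ * (s * c₁ * (s⁻¹ * m * n)) * c₂ := by
      calc b₁ * (s * (s⁻¹ * m)) * b₂ * y = b₁ * s * (s⁻¹ * m * b₂ * y) := by group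
        _ = b₁ * s * (c₁ * (s⁻¹ * m * n) * c₂) := by rw [hzeq]
        _ = _ := by group
    have e3 : m * n = s * (s⁻¹ * m * n) := by group
    rw [e2, e3]
    exact mul_right_mem_DC P hc₂ (mul_left_mem_DC P hb₁ h1)

/-- `C(n) C(m) ⊆ C(n m)` when `m ∈ ⟨K⟩` and `n` has no right descents in `K` -/
theorem DC_mul_of_rightDist {K : Set G} (hK : K ⊆ P.S) {n m : G} (hn : n ∈ P.N)
    (hd : ∀ s ∈ proj P '' K, (proj P n)⁻¹ ∈ PsW P s) (hm : m ∈ Subgroup.closure K) {x y : G}
    (hx : x ∈ DC P n) (hy : y ∈ DC P m) : x * y ∈ DC P (n * m) := by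
  have hmN := closure_le_N P hK hm
  have hmc : proj P m⁻¹ ∈ Subgroup.closure (proj P '' K) :=
    (proj_mem_closure P (Set.Subset.trans hK P.subset) (inv_mem hm)).2
  obtain ⟨l, hl, hp⟩ := exists_word_of_mem_closure
    (fun x hx => SW_sq P (show x ∈ SW P from Set.image_mono hK hx)) hmc
  obtain ⟨ω, hsub, hr, hp'⟩ := (exchFamily P).exists_reduced_sublist l.length le_rfl
    (hl.mono (Set.image_mono hK))
  have h1 := DC_mul_of_leftDist P hK ω hr (hl.sublist hsub) m⁻¹ (P.N.inv_mem hmN)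
    (by rw [hp', hp]) n⁻¹ (P.N.inv_mem hn) (by rw [proj_inv P hn]; exact hd)
    y⁻¹ (mem_DC_inv P hy) x⁻¹ (mem_DC_inv P hx)
  have h2 := mem_DC_inv P h1
  simpa [mul_inv_rev] using h2

/-- the Bruhat cell of a coset `x B`, as an element of the Weyl group -/
noncomputable def cellW (q : G ⧸ P.B) : Wg P :=
  proj P (Classical.choose (bruhat_exists P q.out))

theorem cellW_mk {x n : G} (hn : n ∈ P.N) (hx : x ∈ DC P n) :
    cellW P (x : G ⧸ P.B) = proj P n := by
  unfold cellW
  obtain ⟨hn', hx'⟩ := Classical.choose_spec (bruhat_exists P ((x : G ⧸ P.B).out))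
  generalize Classical.choose (bruhat_exists P ((x : G ⧸ P.B).out)) = n' at hn' hx' ⊢
  obtain ⟨b, hb⟩ := QuotientGroup.mk_out_eq_mul P.B x
  rw [hb] at hx'
  have hx'' : x ∈ DC P n' := by
    have h1 := mul_right_mem_DC P (P.B.inv_mem b.2) hx'
    simpa using h1
  exact bruhat_unique P hn' hn (DC_eq_of_inter P hx'' hx)

theorem cellW_smul {b : G} (hb : b ∈ P.B) (q : G ⧸ P.B) : cellW P (b • q) = cellW P q := by
  induction q using QuotientGroup.induction_on with
  | H x =>
    obtain ⟨n, hn, hx⟩ := bruhat_exists P x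
    rw [cellW_mk P hn hx]
    exact cellW_mk P hn (mul_left_mem_DC P hb hx)

end GroupMore

section Restrict

variable {G : Type*} [Group G] (P : Cfsg.BNPair G)

theorem qmap_smul {H K : Subgroup G} (h : H ≤ K) (g : G) (q : G ⧸ H) :
    Subgroup.quotientMapOfLE h (g • q) = g • Subgroup.quotientMapOfLE h q := by
  induction q using QuotientGroup.induction_on with
  | H x => rfl

/-- two cosets `x B`, `y B` in cells without right descents in `K` and with `x P_K = y P_K`
are equal -/
theorem coset_eq_of_rightDist {K : Set G} (hK : K ⊆ P.S) (x y : G)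
    (hx : ∀ s ∈ proj P '' K, (cellW P (x : G ⧸ P.B))⁻¹ ∈ PsW P s)
    (hy : ∀ s ∈ proj P '' K, (cellW P (y : G ⧸ P.B))⁻¹ ∈ PsW P s)
    (hxy : (x : G ⧸ P.parabolic K) = (y : G ⧸ P.parabolic K)) :
    (x : G ⧸ P.B) = (y : G ⧸ P.B) := by
  obtain ⟨n, hn, hxn⟩ := bruhat_exists P x
  obtain ⟨n', hn', hyn⟩ := bruhat_exists P y
  rw [cellW_mk P hn hxn] at hx
  rw [cellW_mk P hn' hyn] at hy
  have hp : x⁻¹ * y ∈ P.parabolic K := QuotientGroup.eq.1 hxy
  obtain ⟨m, hm, hpm⟩ := (parabolic_mem_iff P hK _).1 hp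
  have hmN := closure_le_N P hK hm
  have h1 : x * (x⁻¹ * y) ∈ DC P (n * m) := DC_mul_of_rightDist P hK hn hx hm hxn hpm
  rw [mul_inv_cancel_left] at h1
  have h2 := bruhat_unique P hn' (P.N.mul_mem hn hmN) (DC_eq_of_inter P hyn h1)
  rw [proj_mul P hn hmN] at h2
  have h3 : proj P n' = proj P n := dist_unique (exchFamily P) (Set.empty_subset _)
    (Set.image_mono hK) (J := ∅) (K := proj P '' K)
    ⟨fun s hs => absurd hs (Set.notMem_empty s), hx⟩
    ⟨fun s hs => absurd hs (Set.notMem_empty s), hy⟩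
    (Subgroup.one_mem _) (proj_mem_closure P (Set.Subset.trans hK P.subset) hm).2
    (by rw [h2, one_mul])
  rw [h3] at h2
  have h4 : proj P m = 1 := by
    have h5 := congrArg (fun t => (proj P n)⁻¹ * t) h2
    simpa using h5.symm
  have hmB : m ∈ P.B := (proj_eq_one_iff P hmN).1 h4
  exact QuotientGroup.eq.2 (mem_B_of_mem_DC P hmB hpm)

/-- for `b ∈ B`, the fixed points of `b` on `G / P_K` correspond to the fixed points on `G / B`
lying in the cells without right descents in `K` -/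
theorem card_fixedBy_parabolic {K : Set G} (hK : K ⊆ P.S) {b : G} (hb : b ∈ P.B) :
    Nat.card (MulAction.fixedBy (G ⧸ P.parabolic K) b) =
      Nat.card {q : G ⧸ P.B // b • q = q ∧ ∀ s ∈ proj P '' K, (cellW P q)⁻¹ ∈ PsW P s} := by
  symm
  have hle : P.B ≤ P.parabolic K := B_le_parabolic P K
  let Φ : {q : G ⧸ P.B // b • q = q ∧ ∀ s ∈ proj P '' K, (cellW P q)⁻¹ ∈ PsW P s} →
      MulAction.fixedBy (G ⧸ P.parabolic K) b :=
    fun q => ⟨Subgroup.quotientMapOfLE hle q.1, by
      rw [MulAction.mem_fixedBy, ← qmap_smul, q.2.1]⟩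
  refine Nat.card_eq_of_bijective Φ ⟨?_, ?_⟩
  · rintro ⟨q₁, h1, h1'⟩ ⟨q₂, h2, h2'⟩ h
    have h' : Subgroup.quotientMapOfLE hle q₁ = Subgroup.quotientMapOfLE hle q₂ :=
      congrArg Subtype.val h
    apply Subtype.ext
    induction q₁ using QuotientGroup.induction_on with
    | H x =>
      induction q₂ using QuotientGroup.induction_on with
      | H y => exact coset_eq_of_rightDist P hK x y h1' h2' h'
  · rintro ⟨Q, hQ⟩
    induction Q using QuotientGroup.induction_on with
    | H x =>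
      obtain ⟨n, hn, hxn⟩ := bruhat_exists P x
      obtain ⟨d, hd, a, ha, c, hc, e⟩ := exists_dist (exchFamily P)
        (J := ∅) (K := proj P '' K) (Set.empty_subset _) (Set.image_mono hK) (proj P n)
      rw [Subgroup.closure_empty, Subgroup.mem_bot] at ha
      subst ha
      rw [one_mul] at e
      obtain ⟨m₀, hm₀, hm₀p⟩ := exists_lift P hK hc
      have hm₀N := closure_le_N P hK hm₀
      obtain ⟨b₁, hb₁, b₂, hb₂, rfl⟩ := (mem_DC P).1 hxn
      have hn' : n * m₀⁻¹ ∈ P.N := P.N.mul_mem hn (P.N.inv_mem hm₀N)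
      have hpn' : proj P (n * m₀⁻¹) = d := by
        rw [proj_mul P hn (P.N.inv_mem hm₀N), proj_inv P hm₀N, hm₀p, e]
        group
      have hx' : b₁ * (n * m₀⁻¹) ∈ DC P (n * m₀⁻¹) := mul_left_mem_DC P hb₁ (DC_self P _)
      have hcell : cellW P ((b₁ * (n * m₀⁻¹) : G) : G ⧸ P.B) = d := by
        rw [cellW_mk P hn' hx', hpn']
      have hPK : ((b₁ * (n * m₀⁻¹) : G) : G ⧸ P.parabolic K) =
          ((b₁ * n * b₂ : G) : G ⧸ P.parabolic K) := by
        rw [QuotientGroup.eq]
        have e1 : (b₁ * (n * m₀⁻¹))⁻¹ * (b₁ * n * b₂) = m₀ * b₂ := by group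
        rw [e1]
        exact mul_mem (closure_le_parabolic P K hm₀) (hle hb₂)
      have hfix : b • ((b₁ * (n * m₀⁻¹) : G) : G ⧸ P.B) = ((b₁ * (n * m₀⁻¹) : G) : G ⧸ P.B) := by
        refine coset_eq_of_rightDist P hK (b * (b₁ * (n * m₀⁻¹))) (b₁ * (n * m₀⁻¹)) ?_ ?_ ?_
        · have h6 := cellW_smul P hb ((b₁ * (n * m₀⁻¹) : G) : G ⧸ P.B)
          have h7 : cellW P ((b * (b₁ * (n * m₀⁻¹)) : G) : G ⧸ P.B) = d := by
            rw [← hcell, ← h6]
            rfl
          rw [h7]
          exact hd.2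
        · rw [hcell]
          exact hd.2
        · have h8 : ((b * (b₁ * (n * m₀⁻¹)) : G) : G ⧸ P.parabolic K) =
              b • ((b₁ * (n * m₀⁻¹) : G) : G ⧸ P.parabolic K) := rfl
          rw [h8, hPK]
          exact hQ
      refine ⟨⟨((b₁ * (n * m₀⁻¹) : G) : G ⧸ P.B), hfix, ?_⟩, ?_⟩
      · rw [hcell]
        exact hd.2
      · apply Subtype.ext
        exact hPK

end Restrict

section RestrictB

variable {G : Type*} [Group G] (P : Cfsg.BNPair G)

theorem isLong_inv_self {w : Wg P} [Finite G] (hw : IsLong (SW P) (PsW P) w) :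
    IsLong (SW P) (PsW P) w⁻¹ ∧ w⁻¹ = w := by
  obtain ⟨w₀, h1, h2⟩ := exists_isLong (exchFamily P)
  have e : w = w₀ := isLong_unique (exchFamily P) hw h1
  subst e
  exact ⟨h2, isLong_unique (exchFamily P) h2 hw⟩

theorem mem_stabilizer_iff {n₀ : G} (c : ↥P.B) :
    c ∈ MulAction.stabilizer ↥P.B ((n₀ : G) : G ⧸ P.B) ↔ n₀⁻¹ * (c : G) * n₀ ∈ P.B := by
  rw [MulAction.mem_stabilizer_iff]
  have e : c • ((n₀ : G) : G ⧸ P.B) = (((c : G) * n₀ : G) : G ⧸ P.B) := rfl
  rw [e, QuotientGroup.eq]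
  have e2 : ((c : G) * n₀)⁻¹ * n₀ = (n₀⁻¹ * (c : G) * n₀)⁻¹ := by group
  rw [e2, inv_mem_iff]

/-- the fixed points of `b ∈ B` in the cell of `n₀` -/
theorem card_fixed_cell {n₀ : G} (hn₀ : n₀ ∈ P.N) (b : ↥P.B) :
    Nat.card (MulAction.fixedBy (↥P.B ⧸ MulAction.stabilizer ↥P.B ((n₀ : G) : G ⧸ P.B)) b) =
      Nat.card {q : G ⧸ P.B // (b : G) • q = q ∧ cellW P q = proj P n₀} := by
  let q₀ : G ⧸ P.B := ((n₀ : G) : G ⧸ P.B)
  have hf : ∀ z : ↥P.B ⧸ MulAction.stabilizer ↥P.B q₀,
      cellW P (MulAction.ofQuotientStabilizer ↥P.B q₀ z) = proj P n₀ := by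
    intro z
    induction z using QuotientGroup.induction_on with
    | H c =>
      have e : MulAction.ofQuotientStabilizer ↥P.B q₀ (QuotientGroup.mk c) =
          (((c : G) * n₀ : G) : G ⧸ P.B) := rfl
      rw [e]
      exact cellW_mk P hn₀ (mul_left_mem_DC P c.2 (DC_self P n₀))
  let Ψ : MulAction.fixedBy (↥P.B ⧸ MulAction.stabilizer ↥P.B q₀) b →
      {q : G ⧸ P.B // (b : G) • q = q ∧ cellW P q = proj P n₀} :=
    fun z => ⟨MulAction.ofQuotientStabilizer ↥P.B q₀ z.1, by
      have h1 := MulAction.ofQuotientStabilizer_smul ↥P.B q₀ b z.1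
      rw [MulAction.mem_fixedBy.1 z.2] at h1
      exact h1.symm, hf z.1⟩
  refine Nat.card_eq_of_bijective Ψ ⟨?_, ?_⟩
  · intro z₁ z₂ h
    apply Subtype.ext
    exact MulAction.injective_ofQuotientStabilizer ↥P.B q₀ (congrArg Subtype.val h)
  · rintro ⟨q, hq1, hq2⟩
    induction q using QuotientGroup.induction_on with
    | H x =>
      obtain ⟨n, hn, hxn⟩ := bruhat_exists P x
      rw [cellW_mk P hn hxn] at hq2
      rw [DC_eq_of_proj_eq P hn hn₀ hq2] at hxn
      obtain ⟨c, hc, c', hc', rfl⟩ := (mem_DC P).1 hxn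
      have e : MulAction.ofQuotientStabilizer ↥P.B q₀ (QuotientGroup.mk ⟨c, hc⟩) =
          ((c * n₀ * c' : G) : G ⧸ P.B) := by
        show ((c * n₀ : G) : G ⧸ P.B) = _
        rw [QuotientGroup.eq]
        have e1 : (c * n₀)⁻¹ * (c * n₀ * c') = c' := by group
        rw [e1]
        exact hc'
      have hfix : (QuotientGroup.mk ⟨c, hc⟩ : ↥P.B ⧸ MulAction.stabilizer ↥P.B q₀) ∈
          MulAction.fixedBy (↥P.B ⧸ MulAction.stabilizer ↥P.B q₀) b := by
        rw [MulAction.mem_fixedBy]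
        apply MulAction.injective_ofQuotientStabilizer ↥P.B q₀
        rw [MulAction.ofQuotientStabilizer_smul, e]
        exact hq1
      exact ⟨⟨_, hfix⟩, Subtype.ext e⟩

/-- **Restriction of the Steinberg character to `B`**: it is the permutation character of `B` on
the cosets of the stabiliser of `n₀ B`, where `n₀` represents the element of full descent set. -/
theorem stChar_apply_B [Finite G] (r : ℕ) (σ : ℕ → G)
    (hS : P.S = σ '' ((Finset.range r : Finset ℕ) : Set ℕ)) {n₀ : G} (hn₀ : n₀ ∈ P.N)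
    (hlong : IsLong (SW P) (PsW P) (proj P n₀)) (b : ↥P.B) :
    stChar P r σ (b : G) =
      Cfsg.fixedPointCharacter (MulAction.stabilizer ↥P.B ((n₀ : G) : G ⧸ P.B)) b := by
  classical
  have hb := b.2
  obtain ⟨hlonginv, hinv⟩ := isLong_inv_self P hlong
  let X := {q : G ⧸ P.B // (b : G) • q = q}
  have : Fintype X := Fintype.ofFinite X
  let σb : ℕ → Wg P := fun j => proj P (σ j)
  let A : X → Finset ℕ := fun x => ascSet (PsW P) r σb (cellW P x.1)⁻¹
  have h1 := alt_sum_one (Finset.range r) A (fun x => ascSet_sub r σb _)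
  have h2 : ∀ J ∈ (Finset.range r).powerset,
      Cfsg.fixedPointCharacter (P.parabolic (σ '' (J : Set ℕ))) (b : G) =
        (((Finset.univ.filter (fun x : X => J ⊆ A x)).card : ℤ) : ℂ) := by
    intro J hJ
    unfold Cfsg.fixedPointCharacter
    rw [card_fixedBy_parabolic P (image_sub_S P hS hJ) hb, Set.image_image]
    rw [Int.cast_natCast, ← Fintype.card_subtype, ← Nat.card_eq_fintype_card]
    congr 1
    refine Nat.card_congr ((Equiv.subtypeSubtypeEquivSubtypeInter _ _).symm.trans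
      (Equiv.subtypeEquivRight fun x => ?_))
    exact (sub_ascSet_iff (Finset.mem_powerset.1 hJ) _).symm
  have h3 : (Finset.univ.filter (fun x : X => A x = ∅)).card =
      Nat.card {q : G ⧸ P.B // (b : G) • q = q ∧ cellW P q = proj P n₀} := by
    rw [← Fintype.card_subtype, ← Nat.card_eq_fintype_card]
    refine Nat.card_congr ((Equiv.subtypeEquivRight fun x => ?_).trans
      (Equiv.subtypeSubtypeEquivSubtypeInter _ _))
    rw [ascSet_eq_empty_iff (SW_eq_image P hS)]
    constructor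
    · intro h
      have h4 := isLong_unique (exchFamily P) h hlong
      rw [← hinv, ← h4, inv_inv]
    · intro h
      rw [h]
      exact hlonginv
  unfold stChar
  rw [Finset.sum_congr rfl (fun J hJ => by rw [h2 J hJ])]
  unfold Cfsg.fixedPointCharacter
  rw [card_fixed_cell P hn₀ b, ← h3]
  have h5 := congrArg (Int.cast : ℤ → ℂ) h1
  push_cast at h5
  rw [← h5]
  apply Finset.sum_congr rfl
  intro J _
  rw [Int.cast_natCast]

end RestrictB

section LongCriterion

variable {G : Type*} [Group G] (P : Cfsg.BNPair G)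

theorem mem_orbit_iff {n x : G} :
    ((x : G) : G ⧸ P.B) ∈ MulAction.orbit ↥P.B ((n : G) : G ⧸ P.B) ↔ x ∈ DC P n := by
  constructor
  · rintro ⟨c, hc⟩
    have hc : (((c : G) * n : G) : G ⧸ P.B) = ((x : G) : G ⧸ P.B) := hc
    rw [QuotientGroup.eq] at hc
    rw [mem_DC]
    refine ⟨c, c.2, ((c : G) * n)⁻¹ * x, hc, ?_⟩
    group
  · intro hx
    obtain ⟨c, hc, c', hc', rfl⟩ := (mem_DC P).1 hx
    refine ⟨⟨c, hc⟩, ?_⟩
    show ((c * n : G) : G ⧸ P.B) = _
    rw [QuotientGroup.eq]
    have e1 : (c * n)⁻¹ * (c * n * c') = c' := by group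
    rw [e1]
    exact hc'

/-- if `C(s) C(n) = C(s n)` then the cell of `s n` is strictly bigger than the cell of `n` -/
theorem ncard_orbit_lt [Finite G] {s n : G} (hs : s ∈ P.S) (hn : n ∈ P.N) (hPg : Pg P s n) :
    (MulAction.orbit ↥P.B ((n : G) : G ⧸ P.B)).ncard <
      (MulAction.orbit ↥P.B (((s * n : G)) : G ⧸ P.B)).ncard := by
  have hsN := S_mem_N P hs
  rw [← Set.ncard_image_of_injective _ (MulAction.injective (β := G ⧸ P.B) s)]
  apply Set.ncard_lt_ncard _ (Set.toFinite _)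
  constructor
  · rintro _ ⟨q, hq, rfl⟩
    induction q using QuotientGroup.induction_on with
    | H x =>
      rw [mem_orbit_iff] at hq
      show ((s * x : G) : G ⧸ P.B) ∈ _
      rw [mem_orbit_iff]
      obtain ⟨c, hc, c', hc', rfl⟩ := (mem_DC P).1 hq
      have e1 : s * (c * n * c') = s * c * n * c' := by group
      rw [e1]
      exact mul_right_mem_DC P hc' (hPg c hc)
  · intro hsub
    obtain ⟨b', hb', hnot⟩ := exists_conj_not_mem P hs
    have hg : s⁻¹ * b' * s ∉ P.B := by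
      intro h
      apply hnot
      have e : s * b' * s = (s * s) * (s⁻¹ * b' * s) := by group
      rw [e]
      exact P.B.mul_mem (S_sq P hs) h
    have hgs : s⁻¹ * b' * s ∈ DC P s := by
      have h1 := T3_inv_left P hs hsN (mul_left_mem_DC P hb' (DC_self P s))
      rw [← mul_assoc] at h1
      rcases h1 with h1 | h1
      · exact absurd (mem_B_of_mem_DC P (S_sq P hs) h1) hg
      · exact h1
    obtain ⟨c₁, hc₁, c₂, hc₂, hgeq⟩ := (mem_DC P).1 hgs
    have hx : b' * (s * n) ∈ DC P (s * n) := mul_left_mem_DC P hb' (DC_self P _)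
    have hmem : ((b' * (s * n) : G) : G ⧸ P.B) ∈
        MulAction.orbit ↥P.B (((s * n : G)) : G ⧸ P.B) := (mem_orbit_iff P).2 hx
    obtain ⟨q, hq, hqe⟩ := hsub hmem
    induction q using QuotientGroup.induction_on with
    | H y =>
      rw [mem_orbit_iff] at hq
      have hqe : ((s * y : G) : G ⧸ P.B) = ((b' * (s * n) : G) : G ⧸ P.B) := hqe
      rw [QuotientGroup.eq] at hqe
      -- y ∈ s⁻¹ b' s n B
      have hy : y = (s⁻¹ * b' * s) * n * ((s * y)⁻¹ * (b' * (s * n)))⁻¹ := by group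
      have h2 : (s⁻¹ * b' * s) * n ∈ DC P (s * n) := by
        rw [hgeq]
        have e2 : c₁ * s * c₂ * n = c₁ * (s * c₂ * n) := by group
        rw [e2]
        exact mul_left_mem_DC P hc₁ (hPg c₂ hc₂)
      have h3 : y ∈ DC P (s * n) := by
        rw [hy]
        exact mul_right_mem_DC P (P.B.inv_mem hqe) h2
      have h4 := bruhat_unique P (P.N.mul_mem hsN hn) hn (DC_eq_of_inter P h3 hq)
      rw [proj_mul P hsN hn] at h4
      have h5 : proj P s = 1 := by
        have h6 := congrArg (fun t => t * (proj P n)⁻¹) h4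
        simpa using h6
      exact S_not_mem_B P hs ((proj_eq_one_iff P hsN).1 h5)

/-- a representative `n₀ ∈ N` whose cell has the smallest stabiliser in `B` represents the
element with full descent set -/
theorem isLong_of_stabilizer_le [Finite G] {n₀ : G} (hn₀ : n₀ ∈ P.N)
    (h : ∀ n ∈ P.N, MulAction.stabilizer ↥P.B ((n₀ : G) : G ⧸ P.B) ≤
      MulAction.stabilizer ↥P.B ((n : G) : G ⧸ P.B)) :
    IsLong (SW P) (PsW P) (proj P n₀) := by
  rintro _ ⟨s, hs, rfl⟩ hmem
  have hPg : Pg P s n₀ := (mem_PsW_iff P hs hn₀).1 hmem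
  have hsN := S_mem_N P hs
  have h1 := ncard_orbit_lt P hs hn₀ hPg
  rw [← MulAction.index_stabilizer, ← MulAction.index_stabilizer] at h1
  have h2 := Subgroup.index_dvd_of_le (h (s * n₀) (P.N.mul_mem hsN hn₀))
  have h3 : (MulAction.stabilizer ↥P.B ((n₀ : G) : G ⧸ P.B)).index ≠ 0 :=
    Subgroup.index_ne_zero_of_finite
  have h4 := Nat.le_of_dvd (Nat.pos_of_ne_zero h3) h2
  omega

end LongCriterion

end Cfsg.Agent.Helper40.BNSt
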