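import Mathlib
import Cfsg.Agent.Helper40.BNStB
import Cfsg.Agent.Helper36.ChevRelAll
import Cfsg.Prelude.Def_ParabolicCharacters

/-!
Glue between the BN-pair of a Chevalley group (helper36) and the Steinberg character of the
prelude (alternating sum over the standard parabolic subgroups `parabolicIn`).
-/

set_option autoImplicit false
set_option linter.unusedSectionVars false
set_option linter.unusedVariables false

namespace Cfsg.Agent.Helper40.BNSt

open Cfsg Cfsg.Lie Cfsg.Agent.Helper6 Cfsg.Agent.Helper36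

section Chev

variable {D : ChevalleyDatum} {F : Type*} [Field F] {η : ℕ → ℕ → ℤ}

open Classical in
/-- the representatives `n_i` of the fundamental reflections, as elements of the Chevalley group -/
noncomputable def sigmaN (R : BRel D F η) (i : ℕ) : ↥(D.group F) :=
  if hi : i < D.rank then
    ⟨R.n i, monomialSubgroup_le_group R.xadd (R.n_mem_monomial hi)⟩ else 1

theorem sigmaN_val (R : BRel D F η) {i : ℕ} (hi : i < D.rank) :
    ((sigmaN R i : ↥(D.group F)) : GL D.Idx F) = R.n i := by
  unfold sigmaN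
  rw [dif_pos hi]

theorem S_eq_image (R : BRel D F η) (P : Cfsg.BNPair ↥(D.group F))
    (hS : P.S = {n : ↥(D.group F) | ∃ i < D.rank,
      ((n : GL D.Idx F) : Matrix D.Idx D.Idx F) = D.nMat F (D.simple i) 1}) :
    P.S = sigmaN R '' ((Finset.range D.rank : Finset ℕ) : Set ℕ) := by
  rw [hS]
  ext n
  constructor
  · rintro ⟨i, hi, hn⟩
    refine ⟨i, by simpa using hi, ?_⟩
    apply Subtype.ext
    apply Units.ext
    rw [sigmaN_val R hi, hn, R.n_val]
  · rintro ⟨i, hi, rfl⟩
    have hi' : i < D.rank := by simpa using hi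
    exact ⟨i, hi', by rw [sigmaN_val R hi', R.n_val]⟩

theorem parabolicIn_eq (R : BRel D F η) (P : Cfsg.BNPair ↥(D.group F))
    (hB : P.B = (D.borelSubgroup F).subgroupOf (D.group F)) {J : Finset ℕ}
    (hJ : J ⊆ Finset.range D.rank) :
    D.parabolicIn F J = P.parabolic (sigmaN R '' (J : Set ℕ)) := by
  unfold ChevalleyDatum.parabolicIn ChevalleyDatum.parabolicSubgroup Cfsg.BNPair.parabolic
  have hBG := borelSubgroup_le_group (D := D) (F := F) R.xadd
  have hX : {g : GL D.Idx F | ∃ j ∈ (J : Set ℕ), j < D.rank ∧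
      (g : Matrix D.Idx D.Idx F) = D.nMat F (D.simple j) 1} =
      (D.group F).subtype '' (sigmaN R '' (J : Set ℕ)) := by
    ext g
    constructor
    · rintro ⟨j, hj, hjr, hg⟩
      refine ⟨sigmaN R j, ⟨j, hj, rfl⟩, ?_⟩
      apply Units.ext
      rw [Subgroup.coe_subtype, sigmaN_val R hjr, R.n_val, hg]
    · rintro ⟨_, ⟨j, hj, rfl⟩, rfl⟩
      have hjr : j < D.rank := by simpa using hJ hj
      exact ⟨j, hj, hjr, by rw [Subgroup.coe_subtype, sigmaN_val R hjr, R.n_val]⟩
  rw [hX, ← MonoidHom.map_closure, hB]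
  have hle : (Subgroup.closure (sigmaN R '' (J : Set ℕ))).map (D.group F).subtype ≤
      D.group F := by
    rintro _ ⟨x, _, rfl⟩
    exact x.2
  rw [Subgroup.subgroupOf_sup hBG hle]
  congr 1
  exact Subgroup.comap_map_eq_self_of_injective (Subgroup.subtype_injective _) _

theorem steinberg_eq_stChar (R : BRel D F η) (P : Cfsg.BNPair ↥(D.group F))
    (hB : P.B = (D.borelSubgroup F).subgroupOf (D.group F)) :
    D.steinbergCharacter F = stChar P D.rank (sigmaN R) := by
  funext g
  unfold ChevalleyDatum.steinbergCharacter stChar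
  apply Finset.sum_congr rfl
  intro J hJ
  rw [parabolicIn_eq R P hB (Finset.mem_powerset.1 hJ)]

end Chev

end Cfsg.Agent.Helper40.BNSt
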