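import Mathlib
import Cfsg.Agent.Helper40.BNStC
import Cfsg.Agent.Helper40.BNStD
import Cfsg.Agent.S1042
import Cfsg.Agent.S1053
import Cfsg.Agent.S1027
import Cfsg.Agent.S2326
import Cfsg.Agent.S0165

/-!
The Steinberg character of a Chevalley group of type G₂, B₂, D₄, F₄, E₆, E₇, E₈: restriction
to `B = UH`, degree and vanishing on elements of order divisible by the characteristic.
-/

set_option autoImplicit false
set_option linter.unusedSectionVars false
set_option linter.unusedVariables false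

namespace Cfsg.Agent.Helper40.BNSt

open Cfsg Cfsg.Lie Cfsg.Agent.Helper6 Cfsg.Agent.Helper36

section ChevRestrict

variable {D : ChevalleyDatum} {F : Type*} [Field F] {η : ℕ → ℕ → ℤ}

/-- elements of `B` are products `u h` -/
theorem exists_uh (R : BRel D F η) {b : GL D.Idx F} (hb : b ∈ D.borelSubgroup F) :
    ∃ u ∈ D.posUnipotent F, ∃ h ∈ D.diagonalSubgroup F, b = u * h := by
  have hb' : b ∈ ((D.posUnipotent F ⊔ D.diagonalSubgroup F : Subgroup (GL D.Idx F)) :
      Set (GL D.Idx F)) := hb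
  rw [Subgroup.coe_mul_of_right_le_normalizer_left _ _ R.hU] at hb'
  obtain ⟨u, hu, h, hh, rfl⟩ := hb'
  exact ⟨u, hu, h, hh, rfl⟩

theorem mem_B_coe (P : Cfsg.BNPair ↥(D.group F))
    (hB : P.B = (D.borelSubgroup F).subgroupOf (D.group F)) (x : ↥(D.group F)) :
    x ∈ P.B ↔ (x : GL D.Idx F) ∈ D.borelSubgroup F := by
  rw [hB, Subgroup.mem_subgroupOf]

theorem mem_N_coe (P : Cfsg.BNPair ↥(D.group F))
    (hN : P.N = (D.monomialSubgroup F).subgroupOf (D.group F)) (x : ↥(D.group F)) :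
    x ∈ P.N ↔ (x : GL D.Idx F) ∈ D.monomialSubgroup F := by
  rw [hN, Subgroup.mem_subgroupOf]

theorem stab_ge (R : BRel D F η) (P : Cfsg.BNPair ↥(D.group F))
    (hB : P.B = (D.borelSubgroup F).subgroupOf (D.group F))
    (hN : P.N = (D.monomialSubgroup F).subgroupOf (D.group F))
    {n : ↥(D.group F)} (hn : n ∈ P.N) :
    ((D.diagonalSubgroup F).subgroupOf (D.group F)).subgroupOf P.B ≤
      MulAction.stabilizer ↥P.B ((n : ↥(D.group F)) : ↥(D.group F) ⧸ P.B) := by
  intro c hc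
  rw [mem_stabilizer_iff, mem_B_coe P hB]
  rw [Subgroup.mem_subgroupOf, Subgroup.mem_subgroupOf] at hc
  rw [mem_N_coe P hN] at hn
  exact BRel.H_le_B D F (R.N_conj_H' (n : GL D.Idx F) hn _ hc)

theorem stab_eq (R : BRel D F η) (P : Cfsg.BNPair ↥(D.group F))
    (hB : P.B = (D.borelSubgroup F).subgroupOf (D.group F))
    (hN : P.N = (D.monomialSubgroup F).subgroupOf (D.group F))
    {n : ↥(D.group F)} (hn : n ∈ P.N)
    (hUV : (D.posUnipotent F).map (MulAut.conj (n : GL D.Idx F)).toMonoidHom =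
      D.negUnipotent F) :
    MulAction.stabilizer ↥P.B ((n : ↥(D.group F)) : ↥(D.group F) ⧸ P.B) =
      ((D.diagonalSubgroup F).subgroupOf (D.group F)).subgroupOf P.B := by
  refine le_antisymm ?_ (stab_ge R P hB hN hn)
  intro c hc
  rw [mem_stabilizer_iff, mem_B_coe P hB] at hc
  have hc' : (n : GL D.Idx F)⁻¹ * ((c : ↥(D.group F)) : GL D.Idx F) * (n : GL D.Idx F) ∈
      D.borelSubgroup F := hc
  have hcB : ((c : ↥(D.group F)) : GL D.Idx F) ∈ D.borelSubgroup F :=
    (mem_B_coe P hB _).1 c.2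
  have hn' : (n : GL D.Idx F) ∈ D.monomialSubgroup F := (mem_N_coe P hN _).1 hn
  obtain ⟨u, hu, h, hh, e⟩ := exists_uh R hc'
  have hv : (n : GL D.Idx F) * u * (n : GL D.Idx F)⁻¹ ∈ D.negUnipotent F := by
    rw [← hUV]
    exact ⟨u, hu, rfl⟩
  have hh' : (n : GL D.Idx F) * h * (n : GL D.Idx F)⁻¹ ∈ D.diagonalSubgroup F :=
    R.N_conj_H _ hn' h hh
  have ec : ((c : ↥(D.group F)) : GL D.Idx F) =
      ((n : GL D.Idx F) * u * (n : GL D.Idx F)⁻¹) *
        ((n : GL D.Idx F) * h * (n : GL D.Idx F)⁻¹) := by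
    have e1 : ((c : ↥(D.group F)) : GL D.Idx F) = (n : GL D.Idx F) *
        ((n : GL D.Idx F)⁻¹ * ((c : ↥(D.group F)) : GL D.Idx F) * (n : GL D.Idx F)) *
          (n : GL D.Idx F)⁻¹ := by group
    rw [e1, e]
    group
  have hvB : (n : GL D.Idx F) * u * (n : GL D.Idx F)⁻¹ ∈ D.borelSubgroup F := by
    have e2 : (n : GL D.Idx F) * u * (n : GL D.Idx F)⁻¹ =
        ((c : ↥(D.group F)) : GL D.Idx F) *
          ((n : GL D.Idx F) * h * (n : GL D.Idx F)⁻¹)⁻¹ := by
      rw [ec]
      group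
    rw [e2]
    exact mul_mem hcB (inv_mem (BRel.H_le_B D F hh'))
  have hv1 : (n : GL D.Idx F) * u * (n : GL D.Idx F)⁻¹ = 1 := by
    have h3 : (n : GL D.Idx F) * u * (n : GL D.Idx F)⁻¹ ∈
        D.borelSubgroup F ⊓ D.negUnipotent F := ⟨hvB, hv⟩
    rwa [R.bv, Subgroup.mem_bot] at h3
  rw [Subgroup.mem_subgroupOf, Subgroup.mem_subgroupOf, ec, hv1, one_mul]
  exact hh'

/-- **Restriction of the Steinberg character to `B`** is the permutation character on `B / H`. -/
theorem chev_steinberg_restrict [Fintype F]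
    (hD : D ∈ [chevG2, chevB2, chevD4, chevF4, chevE6, chevE7, chevE8])
    (X : Subgroup ↥(D.group F)) (hX : X = (D.borelSubgroup F).subgroupOf (D.group F))
    (b : ↥X) :
    D.steinbergCharacter F (b : ↥(D.group F)) =
      Cfsg.fixedPointCharacter (((D.diagonalSubgroup F).subgroupOf (D.group F)).subgroupOf X)
        b := by
  obtain ⟨P, hB, hN, hS⟩ := Cfsg.Agent.S1042.result (F := F) D hD
  have R := Cfsg.Agent.Helper36.bRel_of_mem (F := F) hD
  obtain ⟨n, hnN, hUV⟩ := Cfsg.Agent.S1053.result (F := F) D hD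
  have hnG : n ∈ D.group F := monomialSubgroup_le_group R.xadd hnN
  have hXP : X = P.B := hX.trans hB.symm
  subst hXP
  have hn₀ : (⟨n, hnG⟩ : ↥(D.group F)) ∈ P.N := by
    rw [mem_N_coe P hN]
    exact hnN
  have hst := stab_eq R P hB hN hn₀ hUV
  have hlong := isLong_of_stabilizer_le P hn₀
    (fun m hm => by rw [hst]; exact stab_ge R P hB hN hm)
  rw [steinberg_eq_stChar R P hB,
    stChar_apply_B P D.rank (sigmaN R) (S_eq_image R P hS) hn₀ hlong b, hst]

end ChevRestrict

section ChevDegree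

variable {D : ChevalleyDatum} {F : Type*} [Field F]

theorem fpc_one {G : Type*} [Group G] (H : Subgroup G) :
    Cfsg.fixedPointCharacter H 1 = (Nat.card (G ⧸ H) : ℂ) := by
  unfold Cfsg.fixedPointCharacter
  rw [MulAction.fixedBy_one_eq_univ]
  congr 1
  exact Nat.card_congr (Equiv.Set.univ _)

/-- `[B : H] = |U|` -/
theorem card_B_quot_H {η : ℕ → ℕ → ℤ} (R : BRel D F η) :
    Nat.card (↥((D.borelSubgroup F).subgroupOf (D.group F)) ⧸
      ((D.diagonalSubgroup F).subgroupOf (D.group F)).subgroupOf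
        ((D.borelSubgroup F).subgroupOf (D.group F))) = Nat.card ↥(D.posUnipotent F) := by
  symm
  have hBG := borelSubgroup_le_group (D := D) (F := F) R.xadd
  have hUB : D.posUnipotent F ≤ D.borelSubgroup F := le_sup_left
  let φ : ↥(D.posUnipotent F) → ↥((D.borelSubgroup F).subgroupOf (D.group F)) ⧸
      ((D.diagonalSubgroup F).subgroupOf (D.group F)).subgroupOf
        ((D.borelSubgroup F).subgroupOf (D.group F)) :=
    fun u => QuotientGroup.mk ⟨⟨u.1, hBG (hUB u.2)⟩, Subgroup.mem_subgroupOf.2 (hUB u.2)⟩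
  refine Nat.card_eq_of_bijective φ ⟨?_, ?_⟩
  · intro u₁ u₂ h
    have h1 := QuotientGroup.eq.1 h
    rw [Subgroup.mem_subgroupOf, Subgroup.mem_subgroupOf] at h1
    have h2 : (u₁ : GL D.Idx F)⁻¹ * (u₂ : GL D.Idx F) ∈ D.diagonalSubgroup F := h1
    have h3 : (u₁ : GL D.Idx F)⁻¹ * (u₂ : GL D.Idx F) ∈
        D.posUnipotent F ⊓ D.diagonalSubgroup F :=
      Subgroup.mem_inf.2 ⟨(D.posUnipotent F).mul_mem ((D.posUnipotent F).inv_mem u₁.2) u₂.2, h2⟩
    rw [R.uh, Subgroup.mem_bot] at h3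
    apply Subtype.ext
    exact inv_mul_eq_one.1 h3
  · intro q
    induction q using QuotientGroup.induction_on with
    | H b =>
      have hb : ((b : ↥(D.group F)) : GL D.Idx F) ∈ D.borelSubgroup F :=
        Subgroup.mem_subgroupOf.1 b.2
      obtain ⟨u, hu, h, hh, e⟩ := exists_uh R hb
      refine ⟨⟨u, hu⟩, ?_⟩
      apply QuotientGroup.eq.2
      rw [Subgroup.mem_subgroupOf, Subgroup.mem_subgroupOf]
      show u⁻¹ * ((b : ↥(D.group F)) : GL D.Idx F) ∈ D.diagonalSubgroup F
      rw [e, inv_mul_cancel_left]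
      exact hh

/-- **Degree of the Steinberg character**: `q ^ N`. -/
theorem chev_steinberg_degree [Fintype F]
    (hD : D ∈ [chevG2, chevB2, chevD4, chevF4, chevE6, chevE7, chevE8]) :
    D.steinbergCharacter F 1 = (Fintype.card F : ℂ) ^ (D.nroots / 2) := by
  have R := Cfsg.Agent.Helper36.bRel_of_mem (F := F) hD
  have h1 := chev_steinberg_restrict (F := F) hD _ rfl
    (1 : ↥((D.borelSubgroup F).subgroupOf (D.group F)))
  rw [Subgroup.coe_one, fpc_one, card_B_quot_H R, Cfsg.Agent.S1027.result D hD] at h1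
  rw [h1]
  push_cast
  rfl

/-- **The Steinberg character vanishes on elements of order divisible by the characteristic.** -/
theorem chev_steinberg_vanish [Fintype F] (p : ℕ) [Fact p.Prime] [CharP F p]
    (hD : D ∈ [chevG2, chevB2, chevD4, chevF4, chevE6, chevE7, chevE8])
    (hirr : Cfsg.IsIrrCharacter ↥(D.group F) (D.steinbergCharacter F))
    (g : ↥(D.group F)) (hg : p ∣ orderOf g) : D.steinbergCharacter F g = 0 := by
  classical
  have hp : p.Prime := Fact.out
  have R := Cfsg.Agent.Helper36.bRel_of_mem (F := F) hD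
  have hUG : D.posUnipotent F ≤ D.group F :=
    le_trans le_sup_left (borelSubgroup_le_group (D := D) (F := F) R.xadd)
  obtain ⟨f, -, hqf⟩ := FiniteField.card F p
  obtain ⟨S, hS⟩ := Cfsg.Agent.S2326.result (F := F) p D hD
  have hcardS : Nat.card S = Fintype.card F ^ (D.nroots / 2) := by
    have h1 : Nat.card (S : Subgroup ↥(D.group F)) =
        Nat.card ((D.posUnipotent F).subgroupOf (D.group F)) := by rw [hS]
    rw [← Cfsg.Agent.S1027.result D hD]
    exact h1.trans (Nat.card_congr (Subgroup.subgroupOfEquivOfLe hUG).toEquiv)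
  have hfac : (Nat.card ↥(D.group F)).factorization p = (f : ℕ) * (D.nroots / 2) := by
    have h2 := Sylow.card_eq_multiplicity S
    rw [hcardS, hqf, ← pow_mul] at h2
    exact (Nat.pow_right_injective hp.two_le h2).symm
  have hdeg := chev_steinberg_degree (F := F) hD
  obtain ⟨m, ρ, hρ, hχ⟩ := hirr
  have hm : m = p ^ ((f : ℕ) * (D.nroots / 2)) := by
    have h := Representation.char_one ρ
    rw [hχ, hdeg, Module.finrank_fin_fun, hqf] at h
    rw [pow_mul]
    exact_mod_cast h.symm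
  have : ρ.IsIrreducible := hρ
  have hG0 : Nat.card ↥(D.group F) ≠ 0 := Nat.card_pos.ne'
  have h0 := Cfsg.Agent.S0165.result ρ p ((f : ℕ) * (D.nroots / 2)) hp
    (by rw [← hfac]; exact Nat.ordProj_dvd _ _)
    (by rw [← hfac]; exact Nat.pow_succ_factorization_not_dvd hG0 hp)
    (by rw [Module.finrank_fin_fun, hm])
    g hg
  rw [← hχ]
  exact h0

end ChevDegree

end Cfsg.Agent.Helper40.BNSt
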