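import Mathlib

/-!
# Simultaneous eigenspaces of an abelian group of operators of exponent `p` (helper40)

Tools for lower bounds of representation degrees in cross characteristic: an elementary abelian
`p`-group acting on a finite-dimensional space over an algebraically closed field in which `p ≠ 0`
decomposes the space into weight spaces; characters of `(F^n, +)` are `ψ (c ⬝ᵥ ·)`.
-/

set_option autoImplicit false

namespace Cfsg.Agent.Helper40

open Matrix

section Chars

theorem char_sum {A : Type*} [AddCommMonoid A] {L : Type*} [CommMonoid L] (χ : A → L) (h0 : χ 0 = 1)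
    (hadd : ∀ a b, χ (a + b) = χ a * χ b) {ι : Type*} (s : Finset ι) (f : ι → A) :
    χ (∑ j ∈ s, f j) = ∏ j ∈ s, χ (f j) := by
  classical
  induction s using Finset.induction_on with
  | empty => simp [h0]
  | insert a s ha ih => rw [Finset.sum_insert ha, Finset.prod_insert ha, hadd, ih]

variable {F : Type*} [Field F] {L : Type*} [Field L]

theorem char_ne_zero (ψ : F → L) (hψ0 : ψ 0 = 1) (hψ : ∀ s t, ψ (s + t) = ψ s * ψ t) (a : F) :
    ψ a ≠ 0 := by
  intro h
  have := hψ a (-a)
  rw [add_neg_cancel, hψ0, h, zero_mul] at this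
  exact one_ne_zero this

theorem char_shift_inj (ψ : F → L) (hψ0 : ψ 0 = 1) (hψ : ∀ s t, ψ (s + t) = ψ s * ψ t) (t₀ : F)
    (ht₀ : ψ t₀ ≠ 1) (c c' : F) (h : ∀ t, ψ (c * t) = ψ (c' * t)) : c = c' := by
  by_contra hne
  have hsub : c - c' ≠ 0 := sub_ne_zero.mpr hne
  have h1 := h (t₀ / (c - c'))
  have h2 : c * (t₀ / (c - c')) = t₀ + c' * (t₀ / (c - c')) := by
    field_simp
    ring
  rw [h2, hψ] at h1
  have h3 := char_ne_zero ψ hψ0 hψ (c' * (t₀ / (c - c')))
  apply ht₀
  have h4 : ψ t₀ * ψ (c' * (t₀ / (c - c'))) = 1 * ψ (c' * (t₀ / (c - c'))) := by rw [h1, one_mul]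
  exact mul_right_cancel₀ h3 h4

/-- every additive character of a finite field is a multiplicative shift of a fixed non-trivial one. -/
theorem dual [Fintype F] (ψ φ : F → L) (hψ0 : ψ 0 = 1) (hψ : ∀ s t, ψ (s + t) = ψ s * ψ t) (t₀ : F)
    (ht₀ : ψ t₀ ≠ 1) (hφ0 : φ 0 = 1) (hφ : ∀ s t, φ (s + t) = φ s * φ t) :
    ∃ c : F, ∀ t, φ t = ψ (c * t) := by
  classical
  by_contra hcon
  push Not at hcon
  let g : Option F → (Multiplicative F →* L) := fun o =>
    match o with
    | none =>
      { toFun := fun t => φ (Multiplicative.toAdd t)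
        map_one' := hφ0
        map_mul' := fun s t => hφ _ _ }
    | some c =>
      { toFun := fun t => ψ (c * Multiplicative.toAdd t)
        map_one' := by
          change ψ (c * 0) = 1
          rw [mul_zero, hψ0]
        map_mul' := fun s t => by
          change ψ (c * (Multiplicative.toAdd s + Multiplicative.toAdd t)) = _
          rw [mul_add, hψ] }
  have hg : Function.Injective g := by
    intro a b hab
    match a, b with
    | none, none => rfl
    | none, some c =>
      exfalso
      obtain ⟨t, ht⟩ := hcon c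
      apply ht
      exact DFunLike.congr_fun hab (Multiplicative.ofAdd t)
    | some c, none =>
      exfalso
      obtain ⟨t, ht⟩ := hcon c
      apply ht
      exact (DFunLike.congr_fun hab (Multiplicative.ofAdd t)).symm
    | some c, some c' =>
      congr 1
      apply char_shift_inj ψ hψ0 hψ t₀ ht₀
      intro t
      exact DFunLike.congr_fun hab (Multiplicative.ofAdd t)
  have hli := (linearIndependent_monoidHom (Multiplicative F) L).comp g hg
  have hcard := hli.fintype_card_le_finrank
  rw [Fintype.card_option, Module.finrank_pi, Fintype.card_multiplicative] at hcard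
  omega

/-- Characters of `F^n`: given a non-trivial character `ψ` of `F`, every character of `F^n` is
`u ↦ ψ (c ⬝ᵥ u)`. -/
theorem exists_dot_char [Fintype F] {ι : Type*} [Fintype ι] [DecidableEq ι]
    (ψ : F → L) (hψ0 : ψ 0 = 1) (hψ : ∀ s t, ψ (s + t) = ψ s * ψ t) (t₀ : F)
    (ht₀ : ψ t₀ ≠ 1) (χ : (ι → F) → L) (hχ0 : χ 0 = 1) (hχ : ∀ u u', χ (u + u') = χ u * χ u') :
    ∃ c : ι → F, ∀ u, χ u = ψ (c ⬝ᵥ u) := by
  have hexp : ∀ u, χ u = ∏ j, χ (Pi.single j (u j)) := by
    intro u
    conv_lhs => rw [← Finset.univ_sum_single u]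
    exact char_sum χ hχ0 hχ Finset.univ _
  have hcoord : ∀ j : ι, ∃ c : F, ∀ t, χ (Pi.single j t) = ψ (c * t) := by
    intro j
    apply dual ψ (fun t => χ (Pi.single j t)) hψ0 hψ t₀ ht₀
    · change χ (Pi.single j 0) = 1
      rw [Pi.single_zero, hχ0]
    · intro s t
      change χ (Pi.single j (s + t)) = χ (Pi.single j s) * χ (Pi.single j t)
      rw [Pi.single_add, hχ]
  choose c hc using hcoord
  refine ⟨c, fun u => ?_⟩
  rw [hexp]
  simp only [dotProduct]
  rw [char_sum ψ hψ0 hψ]
  exact Finset.prod_congr rfl (fun j _ => hc j (u j))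

theorem dot_char_injective {ι : Type*} [Fintype ι] [DecidableEq ι]
    (ψ : F → L) (hψ0 : ψ 0 = 1) (hψ : ∀ s t, ψ (s + t) = ψ s * ψ t) (t₀ : F)
    (ht₀ : ψ t₀ ≠ 1) : Function.Injective (fun (c : ι → F) (u : ι → F) => ψ (c ⬝ᵥ u)) := by
  intro c c' hcc
  funext j
  apply char_shift_inj ψ hψ0 hψ t₀ ht₀
  intro t
  have := congrFun hcc (Pi.single j t)
  simpa using this

end Chars

section Weights

variable {A : Type*} [AddCommGroup A] {L : Type*} [Field L]
  {V : Type*} [AddCommGroup V] [Module L V]

/-- The simultaneous (generalised) eigenspace of the family `R` for the function `χ`. -/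
noncomputable def weightSpace (R : A → Module.End L V) (χ : A → L) : Submodule L V :=
  ⨅ a, (R a).maxGenEigenspace (χ a)

variable (R : A → Module.End L V) (hadd : ∀ a b, R (a + b) = R a * R b) (h0 : R 0 = 1)
  (p : ℕ) (hp : (p : L) ≠ 0) (hpA : ∀ a : A, p • a = 0)

include hadd in
theorem R_commute (a b : A) : Commute (R a) (R b) := by
  change R a * R b = R b * R a
  rw [← hadd, ← hadd, add_comm]

include hadd h0 in
theorem R_nsmul (k : ℕ) (a : A) : R (k • a) = R a ^ k := by
  induction k with
  | zero => simp [h0]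
  | succ k ih => rw [succ_nsmul, hadd, ih, pow_succ]

include hadd h0 hp hpA in
theorem R_semisimple (a : A) : (R a).IsSemisimple := by
  apply Module.End.isSemisimple_of_squarefree_aeval_eq_zero (p := Polynomial.X ^ p - 1)
  · exact (Polynomial.X_pow_sub_one_separable_iff.mpr hp).squarefree
  · have : R a ^ p = 1 := by rw [← R_nsmul R hadd h0, hpA, h0]
    simp [this]

include hadd h0 hp hpA in
theorem mem_weightSpace (χ : A → L) (x : V) :
    x ∈ weightSpace R χ ↔ ∀ a, R a x = χ a • x := by
  simp only [weightSpace, Submodule.mem_iInf]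
  refine forall_congr' fun a => ?_
  rw [(R_semisimple R hadd h0 p hp hpA a).isFinitelySemisimple.maxGenEigenspace_eq_eigenspace,
    Module.End.mem_eigenspace_iff]

include hadd in
theorem weightSpace_indep : iSupIndep (weightSpace R) :=
  Module.End.independent_iInf_maxGenEigenspace_of_forall_mapsTo R
    (fun i j μ => Module.End.mapsTo_maxGenEigenspace_of_comm (R_commute R hadd j i) μ)

include hadd in
theorem weightSpace_top [IsAlgClosed L] [FiniteDimensional L V] : ⨆ χ, weightSpace R χ = ⊤ :=
  Module.End.iSup_iInf_maxGenEigenspace_eq_top_of_iSup_maxGenEigenspace_eq_top_of_commute R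
    (fun i j _ => R_commute R hadd i j) (fun u => Module.End.iSup_maxGenEigenspace_eq_top (R u))

include hadd h0 hp hpA in
/-- if every occurring weight is trivial at `a₀`, then `R a₀ = 1`. -/
theorem R_eq_one_of_trivial [IsAlgClosed L] [FiniteDimensional L V] (a₀ : A)
    (h : ∀ χ, weightSpace R χ ≠ ⊥ → χ a₀ = 1) : R a₀ = 1 := by
  apply LinearMap.ext
  intro x
  have hx : x ∈ ⨆ χ, weightSpace R χ := by
    rw [weightSpace_top R hadd]
    exact Submodule.mem_top
  refine Submodule.iSup_induction (p := weightSpace R) (motive := fun x => R a₀ x = (1 : Module.End L V) x)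
    hx ?_ ?_ ?_
  · intro χ y hy
    by_cases hχ : weightSpace R χ = ⊥
    · rw [hχ] at hy
      rw [(Submodule.mem_bot L).mp hy]
      simp
    · rw [(mem_weightSpace R hadd h0 p hp hpA χ y).mp hy a₀, h χ hχ]
      simp
  · simp
  · intro y z hy hz
    rw [map_add, map_add, hy, hz]

include hadd h0 hp hpA in
theorem weightSpace_char (χ : A → L) (hχ : weightSpace R χ ≠ ⊥) :
    χ 0 = 1 ∧ ∀ a b, χ (a + b) = χ a * χ b := by
  obtain ⟨x, hxW, hx0⟩ := (Submodule.ne_bot_iff _).mp hχ
  have hx := (mem_weightSpace R hadd h0 p hp hpA χ x).mp hxW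
  constructor
  · have h1 := hx 0
    rw [h0, Module.End.one_apply] at h1
    have h2 : (χ 0) • x = (1 : L) • x := by rw [one_smul, ← h1]
    exact smul_left_injective L hx0 h2
  · intro u u'
    have h1 := hx (u + u')
    rw [hadd, Module.End.mul_apply, hx u', map_smul, hx u, smul_smul] at h1
    have h2 : (χ (u + u')) • x = (χ u * χ u') • x := by rw [← h1, mul_comm]
    exact smul_left_injective L hx0 h2

include hadd h0 hp hpA in
/-- transport of weights by an invertible operator normalising the family. -/
theorem weightSpace_conj (χ : A → L) (hχ : weightSpace R χ ≠ ⊥) (g g' : Module.End L V)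
    (hg : g' * g = 1) (σ : A → A) (hσ : ∀ a, R a * g = g * R (σ a)) :
    weightSpace R (fun a => χ (σ a)) ≠ ⊥ := by
  obtain ⟨x, hxW, hx0⟩ := (Submodule.ne_bot_iff _).mp hχ
  have hx := (mem_weightSpace R hadd h0 p hp hpA χ x).mp hxW
  rw [Submodule.ne_bot_iff]
  refine ⟨g x, ?_, ?_⟩
  · rw [mem_weightSpace R hadd h0 p hp hpA]
    intro a
    have h1 : R a (g x) = g (R (σ a) x) := by
      rw [← Module.End.mul_apply, ← Module.End.mul_apply, hσ]
    rw [h1, hx, map_smul]
  · intro h
    apply hx0
    have h1 : g' (g x) = x := by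
      rw [← Module.End.mul_apply, hg, Module.End.one_apply]
    rw [← h1, h, map_zero]

include hadd in
/-- counting: distinct occurring weights are at most `dim V` many. -/
theorem card_le_finrank_of_weights [FiniteDimensional L V] {Y : Type*} [Fintype Y] (ι : Y → A → L)
    (hι : Function.Injective ι) (h : ∀ y, weightSpace R (ι y) ≠ ⊥) :
    Fintype.card Y ≤ Module.finrank L V := by
  classical
  have hindep := weightSpace_indep R hadd
  let _ : Fintype {χ // weightSpace R χ ≠ ⊥} := hindep.fintypeNeBotOfFiniteDimensional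
  have hle := hindep.subtype_ne_bot_le_finrank
  let f : Y → {χ // weightSpace R χ ≠ ⊥} := fun y => ⟨ι y, h y⟩
  have hf : Function.Injective f := by
    intro a b hab
    exact hι (congrArg Subtype.val hab)
  exact le_trans (Fintype.card_le_of_injective f hf) hle

end Weights

section Rep

/-- extension of scalars of a matrix representation to the algebraic closure, as endomorphisms. -/
noncomputable def repEnd {G : Type*} [Group G] {K : Type*} [Field K] {d : ℕ} (ρ : G →* GL (Fin d) K) :
    G →* Module.End (AlgebraicClosure K) (Fin d → AlgebraicClosure K) :=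
  ((Matrix.toLinAlgEquiv' : Matrix (Fin d) (Fin d) (AlgebraicClosure K) ≃ₐ[AlgebraicClosure K] _).toAlgHom.toMonoidHom).comp
    ((Units.coeHom _).comp ((Matrix.GeneralLinearGroup.map (algebraMap K (AlgebraicClosure K))).comp ρ))

theorem repEnd_eq_one {G : Type*} [Group G] {K : Type*} [Field K] {d : ℕ} (ρ : G →* GL (Fin d) K)
    (g : G) (h : repEnd ρ g = 1) : ρ g = 1 := by
  have h3 : ((Matrix.GeneralLinearGroup.map (algebraMap K (AlgebraicClosure K)) (ρ g) :
      GL (Fin d) (AlgebraicClosure K)) : Matrix (Fin d) (Fin d) (AlgebraicClosure K)) = 1 := by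
    apply (Matrix.toLinAlgEquiv' :
      Matrix (Fin d) (Fin d) (AlgebraicClosure K) ≃ₐ[AlgebraicClosure K] _).injective
    rw [map_one]
    exact h
  apply Units.ext
  apply Matrix.ext
  intro i j
  have h1 := congrFun (congrFun h3 i) j
  simp only [Matrix.GeneralLinearGroup.map_apply] at h1
  rw [Units.val_one]
  apply (algebraMap K (AlgebraicClosure K)).injective
  rw [h1, Matrix.one_apply, Matrix.one_apply]
  split_ifs <;> simp

/-- the characteristic of a finite field is non-zero in a field of different characteristic. -/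
theorem ringChar_cast_ne_zero {F : Type*} [Field F] [Finite F] {K : Type*} [Field K]
    (hK : ringChar K ≠ ringChar F) : ((ringChar F : ℕ) : AlgebraicClosure K) ≠ 0 := by
  have hprime : (ringChar F).Prime :=
    (CharP.char_is_prime_or_zero F (ringChar F)).resolve_right (CharP.char_ne_zero_of_finite F (ringChar F))
  have hpK : ((ringChar F : ℕ) : K) ≠ 0 := by
    rw [Ne, ringChar.spec]
    intro hdvd
    rcases (Nat.dvd_prime hprime).mp hdvd with h | h
    · exact CharP.ringChar_ne_one h
    · exact hK h
  intro h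
  apply hpK
  apply (algebraMap K (AlgebraicClosure K)).injective
  rw [map_natCast, map_zero]
  exact h

end Rep

end Cfsg.Agent.Helper40
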