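import Mathlib
import Cfsg.Agent.Helper40.SL2Max
import Cfsg.Agent.Helper40.SL2Nonsplit
import Cfsg.Agent.Helper41.DkMax2

/-!
# Hall `{2,3}`-subgroups of `PSL₂(q)`, `q` coprime to `6` (helper40)

Number theory of the `{2,3}`-part, an index-two extension lemma, and the Hall `{2,3}`-subgroups
of torus normalisers of `SL₂(q)`.
-/

set_option autoImplicit false
set_option linter.unusedSimpArgs false
set_option linter.unusedSectionVars false

namespace Cfsg.Agent.Helper40.PSL2Hall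

open Matrix Cfsg.Agent.Helper44 Cfsg.Agent.Helper40 Cfsg.Agent.Helper40.SL2Max
open Cfsg.Agent.Helper42.SL2

universe u

section num

/-- The `{2,3}`-part of a natural number. -/
def part23 (n : ℕ) : ℕ := 2 ^ n.factorization 2 * 3 ^ n.factorization 3

theorem part23_pos (n : ℕ) : 0 < part23 n := by
  unfold part23; positivity

theorem part23_spec (n : ℕ) (hn : n ≠ 0) : ∃ m, n = part23 n * m ∧ ¬ 2 ∣ m ∧ ¬ 3 ∣ m := by
  have h1 := Nat.ordProj_mul_ordCompl_eq_self n 2
  have h2 := Nat.not_dvd_ordCompl Nat.prime_two hn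
  obtain ⟨n1, hn1⟩ : ∃ n1 : ℕ, n1 = n / 2 ^ n.factorization 2 := ⟨_, rfl⟩
  rw [← hn1] at h1 h2
  have hn1' : n1 ≠ 0 := by
    rintro rfl
    rw [mul_zero] at h1
    exact hn h1.symm
  have h3 := Nat.ordProj_mul_ordCompl_eq_self n1 3
  have h4 := Nat.not_dvd_ordCompl Nat.prime_three hn1'
  have h5 : n1.factorization 3 = n.factorization 3 := by
    rw [hn1, Nat.factorization_ordCompl]
    simp
  refine ⟨n1 / 3 ^ n1.factorization 3, ?_, ?_, h4⟩
  · unfold part23
    rw [← h5, mul_assoc, h3, h1]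
  · intro h
    apply h2
    rw [← h3]
    exact Dvd.dvd.mul_left h _

theorem prime_dvd_part23 (n r : ℕ) (hr : r.Prime) (h : r ∣ 2 * part23 n) : r = 2 ∨ r = 3 := by
  unfold part23 at h
  rcases (Nat.Prime.dvd_mul hr).mp h with h | h
  · left; exact (Nat.prime_dvd_prime_iff_eq hr Nat.prime_two).mp h
  · rcases (Nat.Prime.dvd_mul hr).mp h with h | h
    · left; exact (Nat.prime_dvd_prime_iff_eq hr Nat.prime_two).mp (hr.dvd_of_dvd_pow h)
    · right; exact (Nat.prime_dvd_prime_iff_eq hr Nat.prime_three).mp (hr.dvd_of_dvd_pow h)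

theorem two_dvd_part23 (n : ℕ) (hn : n ≠ 0) (h : 2 ∣ n) : 2 ∣ part23 n := by
  unfold part23
  apply Dvd.dvd.mul_right
  apply dvd_pow_self
  intro h0
  exact (Nat.factorization_eq_zero_iff n 2).mp h0 |>.elim (fun h1 => h1 Nat.prime_two)
    (fun h1 => h1.elim (fun h2 => h2 h) (fun h2 => hn h2))

theorem three_dvd_part23 (n : ℕ) (hn : n ≠ 0) (h : 3 ∣ n) : 3 ∣ part23 n := by
  unfold part23
  apply Dvd.dvd.mul_left
  apply dvd_pow_self
  intro h0
  exact (Nat.factorization_eq_zero_iff n 3).mp h0 |>.elim (fun h1 => h1 Nat.prime_three)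
    (fun h1 => h1.elim (fun h2 => h2 h) (fun h2 => hn h2))

/-- A `{2,3}`-number with cofactor prime to `6` is the `{2,3}`-part. -/
theorem eq_part23 (a b n : ℕ) (hn : n ≠ 0) (hab : a * b = n)
    (ha : ∀ r : ℕ, r.Prime → r ∣ a → r = 2 ∨ r = 3) (h2 : ¬ 2 ∣ b) (h3 : ¬ 3 ∣ b) :
    a = part23 n := by
  obtain ⟨m, hm, hm2, hm3⟩ := part23_spec n hn
  have hc2 : Nat.Coprime (2 ^ n.factorization 2) b :=
    Nat.Coprime.pow_left _ ((Nat.Prime.coprime_iff_not_dvd Nat.prime_two).mpr h2)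
  have hc3 : Nat.Coprime (3 ^ n.factorization 3) b :=
    Nat.Coprime.pow_left _ ((Nat.Prime.coprime_iff_not_dvd Nat.prime_three).mpr h3)
  have hd2 : 2 ^ n.factorization 2 ∣ a :=
    hc2.dvd_of_dvd_mul_right (by rw [hab]; exact Nat.ordProj_dvd n 2)
  have hd3 : 3 ^ n.factorization 3 ∣ a :=
    hc3.dvd_of_dvd_mul_right (by rw [hab]; exact Nat.ordProj_dvd n 3)
  have hc23 : Nat.Coprime (2 ^ n.factorization 2) (3 ^ n.factorization 3) :=
    Nat.Coprime.pow _ _ (by norm_num)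
  obtain ⟨a', ha'⟩ : part23 n ∣ a := Nat.Coprime.mul_dvd_of_dvd_of_dvd hc23 hd2 hd3
  by_contra hne
  have ha'1 : a' ≠ 1 := by
    rintro rfl
    exact hne (by rw [ha', mul_one])
  obtain ⟨r, hr, hra'⟩ := Nat.exists_prime_and_dvd ha'1
  have hra : r ∣ a := by rw [ha']; exact Dvd.dvd.mul_left hra' _
  have h5 : a' * b = m := by
    apply Nat.eq_of_mul_eq_mul_left (part23_pos n)
    rw [← mul_assoc, ← ha', hab]
    exact hm
  have hrm : r ∣ m := by rw [← h5]; exact Dvd.dvd.mul_right hra' b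
  rcases ha r hr hra with rfl | rfl
  · exact hm2 hrm
  · exact hm3 hrm

end num

section ext

variable {G : Type*} [Group G]

/-- An index-two extension of a subgroup by an element normalising it whose square lies in
it. -/
def extTwo (Y : Subgroup G) (t : G) (htt : t * t ∈ Y) (hconj : ∀ y ∈ Y, t⁻¹ * y * t ∈ Y) :
    Subgroup G where
  carrier := {g | g ∈ Y ∨ t⁻¹ * g ∈ Y}
  one_mem' := Or.inl Y.one_mem
  mul_mem' := by
    rintro g h (hg | hg) (hh | hh)
    · exact Or.inl (Y.mul_mem hg hh)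
    · right
      have e : t⁻¹ * (g * h) = (t⁻¹ * g * t) * (t⁻¹ * h) := by group
      rw [e]
      exact Y.mul_mem (hconj g hg) hh
    · right
      have e : t⁻¹ * (g * h) = (t⁻¹ * g) * h := by group
      rw [e]
      exact Y.mul_mem hg hh
    · left
      have e : g * h = (t * t) * (t⁻¹ * (t⁻¹ * g) * t) * (t⁻¹ * h) := by group
      rw [e]
      exact Y.mul_mem (Y.mul_mem htt (hconj _ hg)) hh
  inv_mem' := by
    rintro g (hg | hg)
    · exact Or.inl (Y.inv_mem hg)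
    · right
      have e : t⁻¹ * g⁻¹ = (t⁻¹ * (t⁻¹ * g)⁻¹ * t) * (t * t)⁻¹ := by group
      rw [e]
      exact Y.mul_mem (hconj _ (Y.inv_mem hg)) (Y.inv_mem htt)

theorem card_extTwo [Finite G] (Y : Subgroup G) (t : G) (ht : t ∉ Y) (htt : t * t ∈ Y)
    (hconj : ∀ y ∈ Y, t⁻¹ * y * t ∈ Y) :
    Nat.card (extTwo Y t htt hconj) = 2 * Nat.card Y := by
  have hle : Y ≤ extTwo Y t htt hconj := fun g hg => Or.inl hg
  have hidx : (Y.subgroupOf (extTwo Y t htt hconj)).index = 2 := by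
    rw [Subgroup.index_eq_two_iff]
    refine ⟨⟨t, Or.inr (by rw [inv_mul_cancel]; exact Y.one_mem)⟩, ?_⟩
    rintro ⟨b, hb⟩
    simp only [Subgroup.mem_subgroupOf, Subgroup.coe_mul]
    by_cases hbY : b ∈ Y
    · right
      refine ⟨hbY, fun h => ht ?_⟩
      have e : t = b⁻¹ * (b * t) := by group
      rw [e]
      exact Y.mul_mem (Y.inv_mem hbY) h
    · left
      refine ⟨?_, hbY⟩
      have h1 : t⁻¹ * b ∈ Y := hb.resolve_left hbY
      have e : b * t = (t * t) * (t⁻¹ * (t⁻¹ * b) * t) := by group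
      rw [e]
      exact Y.mul_mem htt (hconj _ h1)
  rw [← Subgroup.index_mul_card (Y.subgroupOf (extTwo Y t htt hconj)), hidx,
    Nat.card_congr (Subgroup.subgroupOfEquivOfLe hle).toEquiv]

end ext

section sl2

variable {F : Type u} [Field F] [Fintype F]

/-- The image in `PSL₂` of a Hall `{2,3}`-subgroup of `SL₂` is a Hall `{2,3}`-subgroup. -/
theorem hall_of_sl2 (Ht : Subgroup (SL2 F))
    (hπ : ∀ r : ℕ, r.Prime → r ∣ Nat.card Ht → r = 2 ∨ r = 3) (h2 : ¬ 2 ∣ Ht.index)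
    (h3 : ¬ 3 ∣ Ht.index) :
    ∃ H : Subgroup (PSL2 F), (∀ r : ℕ, r.Prime → r ∣ Nat.card H → r ∈ ({2, 3} : Set ℕ)) ∧
      ∀ r : ℕ, r.Prime → r ∈ ({2, 3} : Set ℕ) → ¬ r ∣ H.index := by
  refine ⟨Ht.map pr, ?_, ?_⟩
  · intro r hr hdvd
    rcases hπ r hr (dvd_trans hdvd (Subgroup.card_map_dvd Ht pr)) with rfl | rfl
    · exact Set.mem_insert _ _
    · exact Set.mem_insert_of_mem _ rfl
  · intro r hr hmem hdvd
    have h1 : ((Ht.map pr).comap pr).index = (Ht.map pr).index :=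
      Subgroup.index_comap_of_surjective _ pr_surjective
    have h5 : ((Ht.map pr).comap pr).index ∣ Ht.index :=
      Subgroup.index_dvd_of_le (Subgroup.le_comap_map pr Ht)
    rw [h1] at h5
    rcases hmem with rfl | hmem
    · exact h2 (dvd_trans hdvd h5)
    · rw [Set.mem_singleton_iff] at hmem
      subst hmem
      exact h3 (dvd_trans hdvd h5)

/-- A subgroup of order `2 · (the {2,3}-part of |C(z)|)` in the normaliser of a torus. -/
theorem exists_hall_torus (hodd : Odd (Fintype.card F)) (z : SL2 F) (hz : NonScalar z.1)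
    (ht : tr2 z ^ 2 ≠ 4) :
    ∃ Ht : Subgroup (SL2 F),
      Nat.card Ht = 2 * part23 (Nat.card (Subgroup.centralizer ({z} : Set (SL2 F)))) := by
  classical
  have h2 := two_ne_zero_of_odd hodd
  have hcyc := isCyclic_centralizer hodd z hz ht
  obtain ⟨g0, hg0⟩ := IsCyclic.exists_generator (α := Subgroup.centralizer ({z} : Set (SL2 F)))
  have hord : orderOf g0 = Nat.card (Subgroup.centralizer ({z} : Set (SL2 F))) :=
    orderOf_eq_card_of_forall_mem_zpowers hg0
  obtain ⟨c, hc⟩ : ∃ c : ℕ, c = Nat.card (Subgroup.centralizer ({z} : Set (SL2 F))) := ⟨_, rfl⟩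
  rw [← hc] at hord ⊢
  have hc0 : c ≠ 0 := by rw [hc]; exact Nat.card_pos.ne'
  obtain ⟨m, hm, -, -⟩ := part23_spec c hc0
  have hm0 : m ≠ 0 := by
    rintro rfl
    rw [mul_zero] at hm
    exact hc0 hm
  have hy0 : orderOf (g0 ^ m) = part23 c := by
    rw [orderOf_pow_of_dvd hm0 (by rw [hord, hm]; exact dvd_mul_left m _), hord]
    nth_rewrite 1 [hm]
    exact Nat.mul_div_cancel _ (Nat.pos_of_ne_zero hm0)
  obtain ⟨y, hyC, hyord⟩ : ∃ y : SL2 F, y ∈ Subgroup.centralizer ({z} : Set (SL2 F)) ∧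
      orderOf y = part23 c :=
    ⟨((g0 ^ m : Subgroup.centralizer ({z} : Set (SL2 F))) : SL2 F), (g0 ^ m).2, by
      rw [Subgroup.orderOf_coe]; exact hy0⟩
  have h2c : 2 ∣ c := by
    have h1 : (⟨negOne, negOne_mem_centralizer z⟩ :
        Subgroup.centralizer ({z} : Set (SL2 F))) ^ 2 = 1 := by
      apply Subtype.ext
      rw [pow_two]
      exact negOne_mul_self
    have h3 : orderOf (⟨negOne, negOne_mem_centralizer z⟩ :
        Subgroup.centralizer ({z} : Set (SL2 F))) = 2 :=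
      orderOf_eq_prime h1 (fun h => negOne_ne_one h2 (congrArg Subtype.val h))
    have h5 := orderOf_dvd_natCard (⟨negOne, negOne_mem_centralizer z⟩ :
        Subgroup.centralizer ({z} : Set (SL2 F)))
    rw [h3] at h5
    rw [hc]
    exact h5
  obtain ⟨k, hk⟩ := two_dvd_part23 c hc0 h2c
  have hk0 : 0 < k := by
    have := part23_pos c
    omega
  have hneg : negOne ∈ Subgroup.zpowers y := by
    have h1 : (y ^ k) * (y ^ k) = 1 := by
      rw [← pow_add, ← two_mul, ← hk, ← hyord]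
      exact pow_orderOf_eq_one y
    have h3 : y ^ k ≠ 1 := by
      intro h
      have h5 := orderOf_dvd_of_pow_eq_one h
      rw [hyord, hk] at h5
      have := Nat.le_of_dvd hk0 h5
      omega
    rcases eq_one_or_neg_one_of_sq h2 (y ^ k) h1 with h | h
    · exact absurd (Subtype.ext h) h3
    · have h5 : y ^ k = negOne := Subtype.ext h
      rw [← h5]
      exact Subgroup.pow_mem _ (Subgroup.mem_zpowers y) k
  obtain ⟨t, ht'⟩ := exists_inverts hodd z hz ht
  have hYC : Subgroup.zpowers y ≤ Subgroup.centralizer ({z} : Set (SL2 F)) :=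
    (Subgroup.zpowers_le).mpr hyC
  have hsq : t * t = negOne := Subtype.ext (by
    rw [Matrix.SpecialLinearGroup.coe_mul]; exact inverts_sq t z hz ht')
  have htY : t ∉ Subgroup.zpowers y := by
    intro h
    have h3 := inverts_conj t z t hz ht' (hYC h)
    rw [mul_inv_cancel_right] at h3
    have h5 : t * t = 1 := by
      nth_rewrite 2 [h3]
      exact mul_inv_cancel t
    rw [hsq] at h5
    exact negOne_ne_one h2 h5
  have htt : t * t ∈ Subgroup.zpowers y := by rw [hsq]; exact hneg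
  have hconj : ∀ y' ∈ Subgroup.zpowers y, t⁻¹ * y' * t ∈ Subgroup.zpowers y := by
    intro y' hy'
    have h1 := inverts_conj t⁻¹ z y' hz ht'.inv (hYC hy')
    rw [inv_inv] at h1
    rw [h1]
    exact Subgroup.inv_mem _ hy'
  refine ⟨extTwo (Subgroup.zpowers y) t htt hconj, ?_⟩
  rw [card_extTwo _ t htY htt hconj, Nat.card_zpowers, hyord]

/-- Hall `{2,3}`-subgroups of `PSL₂(q)` from a torus normaliser. -/
theorem hall_of_torus (hodd : Odd (Fintype.card F)) (h3 : ¬ 3 ∣ Fintype.card F) (z : SL2 F)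
    (hz : NonScalar z.1) (ht : tr2 z ^ 2 ≠ 4) (c k : ℕ)
    (hc : Nat.card (Subgroup.centralizer ({z} : Set (SL2 F))) = c)
    (hqc : Fintype.card F ^ 2 - 1 = c * (2 * k)) (hk2 : ¬ 2 ∣ k) (hk3 : ¬ 3 ∣ k) :
    ∃ H : Subgroup (PSL2 F), (∀ r : ℕ, r.Prime → r ∣ Nat.card H → r ∈ ({2, 3} : Set ℕ)) ∧
      ∀ r : ℕ, r.Prime → r ∈ ({2, 3} : Set ℕ) → ¬ r ∣ H.index := by
  obtain ⟨Ht, hHt⟩ := exists_hall_torus hodd z hz ht
  rw [hc] at hHt
  have hc0 : c ≠ 0 := by
    rw [← hc]; exact Nat.card_pos.ne'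
  obtain ⟨m, hm, hm2, hm3⟩ := part23_spec c hc0
  have hidx : Ht.index = Fintype.card F * m * k := by
    have h1 := Subgroup.index_mul_card Ht
    rw [hHt, Cfsg.Agent.Helper42.SL2.card_SL2, hqc] at h1
    apply Nat.eq_of_mul_eq_mul_right (by have := part23_pos c; omega : 0 < 2 * part23 c)
    rw [h1]
    nth_rewrite 1 [hm]
    ring
  have hq2 : ¬ 2 ∣ Fintype.card F := by
    intro h
    exact (Nat.not_even_iff_odd.mpr hodd) (even_iff_two_dvd.mpr h)
  apply hall_of_sl2 Ht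
  · intro r hr hdvd
    rw [hHt] at hdvd
    exact prime_dvd_part23 c r hr hdvd
  · rw [hidx]
    intro h
    rcases (Nat.Prime.dvd_mul Nat.prime_two).mp h with h | h
    · rcases (Nat.Prime.dvd_mul Nat.prime_two).mp h with h | h
      · exact hq2 h
      · exact hm2 h
    · exact hk2 h
  · rw [hidx]
    intro h
    rcases (Nat.Prime.dvd_mul Nat.prime_three).mp h with h | h
    · rcases (Nat.Prime.dvd_mul Nat.prime_three).mp h with h | h
      · exact h3 h
      · exact hm3 h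
    · exact hk3 h

/-- A subgroup of `PSL₂(q)` of order half the `{2,3}`-part of `q² - 1` is a Hall
`{2,3}`-subgroup. -/
theorem hall_of_card (h2 : (2 : F) ≠ 0) (h3 : ¬ 3 ∣ Fintype.card F) (H : Subgroup (PSL2 F))
    (hcard : 2 * Nat.card H = part23 (Fintype.card F ^ 2 - 1)) :
    (∀ r : ℕ, r.Prime → r ∣ Nat.card H → r ∈ ({2, 3} : Set ℕ)) ∧
      ∀ r : ℕ, r.Prime → r ∈ ({2, 3} : Set ℕ) → ¬ r ∣ H.index := by
  have hq : 2 ≤ Fintype.card F := Fintype.one_lt_card
  have hn0 : Fintype.card F ^ 2 - 1 ≠ 0 := by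
    have : 4 ≤ Fintype.card F ^ 2 := by nlinarith
    omega
  obtain ⟨m, hm, hm2, hm3⟩ := part23_spec (Fintype.card F ^ 2 - 1) hn0
  have hG := Cfsg.Agent.Helper5.card_PSL2_mul (F := F)
  rw [Cfsg.Agent.Helper5.card_center_SL2 h2] at hG
  have hidx : H.index = Fintype.card F * m := by
    have h1 := Subgroup.index_mul_card H
    apply Nat.eq_of_mul_eq_mul_right (part23_pos (Fintype.card F ^ 2 - 1))
    calc H.index * part23 (Fintype.card F ^ 2 - 1) = H.index * Nat.card H * 2 := by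
          rw [← hcard]; ring
      _ = Fintype.card F * (Fintype.card F ^ 2 - 1) := by rw [h1, hG]
      _ = Fintype.card F * m * part23 (Fintype.card F ^ 2 - 1) := by
          nth_rewrite 1 [hm]; ring
  have hq2 : ¬ 2 ∣ Fintype.card F := by
    intro h
    have hodd : Fintype.card F % 2 = 1 :=
      FiniteField.odd_card_of_char_ne_two (fun hc => h2 (PSL2Sub.two_eq_zero_of_ringChar hc))
    omega
  refine ⟨?_, ?_⟩
  · intro r hr hdvd
    have h5 : r ∣ 2 * part23 (Fintype.card F ^ 2 - 1) := by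
      rw [← hcard]
      exact Dvd.dvd.mul_left (Dvd.dvd.mul_left hdvd 2) 2
    rcases prime_dvd_part23 _ r hr h5 with rfl | rfl
    · exact Set.mem_insert _ _
    · exact Set.mem_insert_of_mem _ rfl
  · intro r hr hmem hdvd
    rw [hidx] at hdvd
    rcases hmem with rfl | hmem
    · rcases (Nat.Prime.dvd_mul Nat.prime_two).mp hdvd with h | h
      · exact hq2 h
      · exact hm2 h
    · rw [Set.mem_singleton_iff] at hmem
      subst hmem
      rcases (Nat.Prime.dvd_mul Nat.prime_three).mp hdvd with h | h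
      · exact h3 h
      · exact hm3 h

end sl2

section necessity

variable {F : Type u} [Field F] [Fintype F]

theorem two_pow_not_dvd (n d : ℕ) (hn : n ≠ 0) (h : part23 n ∣ d) (h2 : 2 * d ∣ n) : False := by
  have h1 : 2 ^ n.factorization 2 ∣ d := by
    refine dvd_trans ?_ h
    unfold part23
    exact dvd_mul_right _ _
  apply Nat.pow_succ_factorization_not_dvd hn Nat.prime_two
  rw [pow_succ, mul_comm]
  exact dvd_trans (Nat.mul_dvd_mul_left 2 h1) h2

theorem char_facts (p : ℕ) [Fact p.Prime] [CharP F p] (hp : 5 ≤ p) :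
    ¬ 2 ∣ Fintype.card F ∧ ¬ 3 ∣ Fintype.card F ∧ 5 ≤ Fintype.card F ∧ (2 : F) ≠ 0 ∧
      (3 : F) ≠ 0 ∧ ∀ a : ℕ, ¬ p ∣ a → Nat.Coprime a (Fintype.card F) := by
  obtain ⟨n, hpp, hq⟩ := FiniteField.card F p
  refine ⟨?_, ?_, ?_, ?_, ?_, ?_⟩
  · intro h
    rw [hq] at h
    have h1 := (Nat.prime_dvd_prime_iff_eq Nat.prime_two hpp).mp (Nat.Prime.dvd_of_dvd_pow Nat.prime_two h)
    omega
  · intro h
    rw [hq] at h
    have h1 := (Nat.prime_dvd_prime_iff_eq Nat.prime_three hpp).mp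
      (Nat.Prime.dvd_of_dvd_pow Nat.prime_three h)
    omega
  · rw [hq]
    calc 5 ≤ p := hp
      _ = p ^ 1 := (pow_one p).symm
      _ ≤ p ^ (n : ℕ) := Nat.pow_le_pow_right (by omega) n.pos
  · intro h
    have h' : ((2 : ℕ) : F) = 0 := by exact_mod_cast h
    have h1 := Nat.le_of_dvd (by norm_num) ((CharP.cast_eq_zero_iff F p 2).mp h')
    omega
  · intro h
    have h' : ((3 : ℕ) : F) = 0 := by exact_mod_cast h
    have h1 := Nat.le_of_dvd (by norm_num) ((CharP.cast_eq_zero_iff F p 3).mp h')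
    omega
  · intro a ha
    rw [hq]
    exact Nat.Coprime.pow_right _ ((Nat.Prime.coprime_iff_not_dvd hpp).mpr ha).symm

theorem sq_sub_one (q : ℕ) (hq : 1 ≤ q) : q ^ 2 - 1 = (q - 1) * (q + 1) := by
  obtain ⟨j, rfl⟩ : ∃ j, q = j + 1 := ⟨q - 1, by omega⟩
  have h1 : (j + 1) ^ 2 = j * (j + 1 + 1) + 1 := by ring
  rw [h1]
  simp

/-- The order of the preimage in `SL₂(q)` of a Hall `{2,3}`-subgroup of `PSL₂(q)` and the
Dickson case analysis. -/
theorem hall_cases (p : ℕ) [Fact p.Prime] [CharP F p] (hp : 5 ≤ p) (H : Subgroup (PSL2 F))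
    (h1 : ∀ r : ℕ, r.Prime → r ∣ Nat.card H → r ∈ ({2, 3} : Set ℕ))
    (h2 : ∀ r : ℕ, r.Prime → r ∈ ({2, 3} : Set ℕ) → ¬ r ∣ H.index) :
    (3 ∣ Fintype.card F - 1 ∧ Fintype.card F % 4 = 1) ∨
      (3 ∣ Fintype.card F + 1 ∧ Fintype.card F % 4 = 3) ∨
      part23 (Fintype.card F ^ 2 - 1) = 24 ∨ part23 (Fintype.card F ^ 2 - 1) = 48 := by
  classical
  obtain ⟨hq2, hq3, hq5, h2F, -, hcop⟩ := char_facts (F := F) p hp
  obtain ⟨q, hqdef⟩ : ∃ q : ℕ, q = Fintype.card F := ⟨_, rfl⟩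
  rw [← hqdef] at hq2 hq3 hq5 hcop ⊢
  obtain ⟨Ht, hHt⟩ : ∃ Ht : Subgroup (SL2 F), Ht = Cfsg.Agent.Helper41.Dk.pre H := ⟨_, rfl⟩
  have hcen : Subgroup.center (SL2 F) ≤ Ht := by
    rw [hHt]; exact Cfsg.Agent.Helper41.Dk.center_le_pre H
  have hcard : Nat.card Ht = Nat.card H * 2 := by
    rw [hHt, Cfsg.Agent.Helper41.Dk.card_pre, Cfsg.Agent.Helper5.card_center_SL2 h2F]
  have hidx : Ht.index = H.index := by
    rw [hHt]
    exact Subgroup.index_comap_of_surjective _ (QuotientGroup.mk'_surjective _)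
  have hπ : ∀ r : ℕ, r.Prime → r ∣ Nat.card Ht → r = 2 ∨ r = 3 := by
    intro r hr hdvd
    rw [hcard] at hdvd
    rcases (Nat.Prime.dvd_mul hr).mp hdvd with h | h
    · rcases h1 r hr h with h' | h'
      · left; exact h'
      · right; exact h'
    · left; exact (Nat.prime_dvd_prime_iff_eq hr Nat.prime_two).mp h
  have hmul : Nat.card Ht * Ht.index = q * (q ^ 2 - 1) := by
    rw [Subgroup.card_mul_index, Cfsg.Agent.Helper42.SL2.card_SL2, hqdef]
  have hpH : ¬ p ∣ Nat.card Ht := by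
    intro h
    rcases hπ p (Fact.out) h with h' | h' <;> omega
  have hcopH : Nat.Coprime (Nat.card Ht) q := hcop _ hpH
  have hdvd : Nat.card Ht ∣ q ^ 2 - 1 := by
    apply hcopH.dvd_of_dvd_mul_left
    rw [← hmul]
    exact dvd_mul_right _ _
  obtain ⟨b', hb'⟩ := hdvd
  have hHpos : 0 < Nat.card Ht := Nat.card_pos
  have hidx' : Ht.index = q * b' := by
    apply Nat.eq_of_mul_eq_mul_left hHpos
    rw [hmul, hb']
    ring
  have hb2 : ¬ 2 ∣ b' := by
    intro h
    apply h2 2 Nat.prime_two (Set.mem_insert _ _)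
    rw [← hidx, hidx']
    exact Dvd.dvd.mul_left h q
  have hb3 : ¬ 3 ∣ b' := by
    intro h
    apply h2 3 Nat.prime_three (Set.mem_insert_of_mem _ rfl)
    rw [← hidx, hidx']
    exact Dvd.dvd.mul_left h q
  have hn0 : q ^ 2 - 1 ≠ 0 := by
    have : 25 ≤ q ^ 2 := by nlinarith
    omega
  have hP : Nat.card Ht = part23 (q ^ 2 - 1) :=
    eq_part23 _ b' _ hn0 hb'.symm hπ hb2 hb3
  have hsq := sq_sub_one q (by omega)
  have hqodd : q % 2 = 1 := by omega
  have h3dvd : 3 ∣ q ^ 2 - 1 := by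
    rw [hsq]
    have : q % 3 = 1 ∨ q % 3 = 2 := by omega
    rcases this with h | h
    · exact Dvd.dvd.mul_right (by omega) _
    · exact Dvd.dvd.mul_left (by omega) _
  have h3P : 3 ∣ part23 (q ^ 2 - 1) := three_dvd_part23 _ hn0 h3dvd
  rcases Cfsg.Agent.Helper41.Dk.dickson_subgroup p Ht hcen with
    hB | hT | ⟨h12, -⟩ | ⟨h24, -⟩ | ⟨h60, -⟩ | ⟨Q, hQ, K0, hS⟩
  · exfalso
    obtain ⟨v, hv, hfix⟩ := hB
    obtain ⟨Q0, hQ0⟩ := Cfsg.Agent.Helper41.Dk.exists_conj_borel v hv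
    have hle : Ht.map (MulAut.conj Q0⁻¹).toMonoidHom ≤ Cfsg.Agent.Helper41.Dk.Bor := by
      rintro _ ⟨g, hg, rfl⟩
      have := hQ0 g (hfix ⟨g, hg⟩)
      simpa [MulAut.conj_apply] using this
    have h5 := Subgroup.card_dvd_of_le hle
    rw [Subgroup.card_map_of_injective (MulAut.conj Q0⁻¹).injective,
      Cfsg.Agent.Helper41.Dk.card_Bor, ← hqdef, hP] at h5
    have h6 : part23 (q ^ 2 - 1) ∣ q - 1 := by
      rw [← hP] at h5 ⊢
      apply hcopH.dvd_of_dvd_mul_left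
      exact h5
    apply two_pow_not_dvd (q ^ 2 - 1) (q - 1) hn0 h6
    rw [hsq, mul_comm 2]
    exact Nat.mul_dvd_mul_left _ (by omega)
  · rcases Cfsg.Agent.Helper41.Dk.card_dvd_of_T p Ht hT with h | h
    · right; left
      rw [← hqdef, hP] at h
      refine ⟨?_, ?_⟩
      · have h5 := dvd_trans h3P h
        rcases (Nat.Prime.dvd_mul Nat.prime_three).mp h5 with h6 | h6
        · omega
        · exact h6
      · by_contra hne
        have h41 : q % 4 = 1 := by omega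
        apply two_pow_not_dvd (q ^ 2 - 1) (2 * (q + 1)) hn0 h
        rw [hsq]
        obtain ⟨j, hj⟩ : ∃ j, q - 1 = 4 * j := ⟨(q - 1) / 4, by omega⟩
        rw [hj]
        exact ⟨j, by ring⟩
    · left
      rw [← hqdef, hP] at h
      refine ⟨?_, ?_⟩
      · have h5 := dvd_trans h3P h
        rcases (Nat.Prime.dvd_mul Nat.prime_three).mp h5 with h6 | h6
        · omega
        · exact h6
      · by_contra hne
        have h43 : q % 4 = 3 := by omega
        apply two_pow_not_dvd (q ^ 2 - 1) (2 * (q - 1)) hn0 h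
        rw [hsq]
        obtain ⟨j, hj⟩ : ∃ j, q + 1 = 4 * j := ⟨(q + 1) / 4, by omega⟩
        rw [hj]
        exact ⟨j, by ring⟩
  · right; right; left
    rw [← hP, Cfsg.Agent.Helper41.Dk.card_of_index Ht hcen, h12,
      Cfsg.Agent.Helper5.card_center_SL2 h2F]
  · right; right; right
    rw [← hP, Cfsg.Agent.Helper41.Dk.card_of_index Ht hcen, h24,
      Cfsg.Agent.Helper5.card_center_SL2 h2F]
  · exfalso
    have h5 : 5 ∣ Nat.card Ht := by
      rw [Cfsg.Agent.Helper41.Dk.card_of_index Ht hcen, h60,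
        Cfsg.Agent.Helper5.card_center_SL2 h2F]
      norm_num
    rcases hπ 5 (by norm_num) h5 with h | h <;> omega
  · exfalso
    have hU : Cfsg.Agent.Helper41.Dk.MemK K0 (Cfsg.Agent.Helper41.Ux (1 : F)).1 :=
      Cfsg.Agent.Helper41.Dk.Ux_mem_SK K0 K0.one_mem
    obtain ⟨m, hm⟩ : ∃ m : Ht, Cfsg.Agent.Helper41.conjGL Q hQ m.1 = Cfsg.Agent.Helper41.Ux 1 := by
      rcases hS with h | ⟨lam, -, -, h⟩
      · obtain ⟨m, hm⟩ := (h _).mpr hU
        exact ⟨m, hm⟩
      · obtain ⟨m, hm⟩ := (h _).mpr (Or.inl hU)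
        exact ⟨m, hm⟩
    have hinj := Cfsg.Agent.Helper41.conjGL_injective Q hQ
    have hmp : m ^ p = 1 := by
      apply Subtype.ext
      apply hinj
      rw [Subgroup.coe_pow, map_pow, hm, Cfsg.Agent.Helper41.Ux_pow, Subgroup.coe_one, map_one,
        CharP.cast_eq_zero, zero_mul, Cfsg.Agent.Helper41.Ux_zero]
    have hm1 : m ≠ 1 := by
      intro h
      rw [h, Subgroup.coe_one, map_one] at hm
      have h5 := congrArg (fun g : SL2 F => g.1 0 1) hm
      simp only [one01, Cfsg.Agent.Helper41.Dk.Ux_e01] at h5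
      exact zero_ne_one h5
    have hord : orderOf m = p := orderOf_eq_prime hmp hm1
    have h5 : p ∣ Nat.card Ht := by rw [← hord]; exact orderOf_dvd_natCard m
    exact hpH h5

end necessity

section sufficiency

variable {F : Type u} [Field F] [Fintype F]

/-- Hall `{2,3}`-subgroups of `PSL₂(q)` in the four cases. -/
theorem hall_exists (p : ℕ) [Fact p.Prime] [CharP F p] (hp : 5 ≤ p)
    (h : (3 ∣ Fintype.card F - 1 ∧ Fintype.card F % 4 = 1) ∨
      (3 ∣ Fintype.card F + 1 ∧ Fintype.card F % 4 = 3) ∨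
      part23 (Fintype.card F ^ 2 - 1) = 24 ∨ part23 (Fintype.card F ^ 2 - 1) = 48) :
    ∃ H : Subgroup (PSL2 F), (∀ r : ℕ, r.Prime → r ∣ Nat.card H → r ∈ ({2, 3} : Set ℕ)) ∧
      ∀ r : ℕ, r.Prime → r ∈ ({2, 3} : Set ℕ) → ¬ r ∣ H.index := by
  classical
  obtain ⟨hq2, hq3, hq5, h2F, h3F, -⟩ := char_facts (F := F) p hp
  have hodd : Odd (Fintype.card F) := Nat.odd_iff.mpr (by omega)
  have hsq := sq_sub_one (Fintype.card F) (by omega)
  have hn0 : Fintype.card F ^ 2 - 1 ≠ 0 := by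
    have : 25 ≤ Fintype.card F ^ 2 := by nlinarith
    omega
  rcases h with ⟨h3, h4⟩ | ⟨h3, h4⟩ | h24 | h48
  · -- split torus
    have ha : (2 : F) * 2 ≠ 1 := by
      intro h
      apply h3F
      linear_combination h
    obtain ⟨z, hz00, hz01, hz10, hz11⟩ : ∃ z : SL2 F, z.1 0 0 = 2 ∧ z.1 0 1 = 0 ∧ z.1 1 0 = 0 ∧
        z.1 1 1 = 2⁻¹ := ⟨dg 2 h2F, rfl, rfl, rfl, rfl⟩
    have hz : NonScalar z.1 := by
      rintro ⟨-, -, h⟩
      rw [hz00, hz11] at h
      apply ha
      nth_rewrite 2 [h]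
      exact mul_inv_cancel₀ h2F
    have he : (2 : F) - 2⁻¹ ≠ 0 := by
      intro h
      apply ha
      have h5 : (2 : F) = 2⁻¹ := sub_eq_zero.mp h
      nth_rewrite 2 [h5]
      exact mul_inv_cancel₀ h2F
    have hsq' : tr2 z ^ 2 - 4 = ((2 : F) - 2⁻¹) ^ 2 := by
      unfold tr2
      rw [hz00, hz11]
      field_simp
      ring
    have ht : tr2 z ^ 2 ≠ 4 := by
      intro h
      rw [h, sub_self] at hsq'
      exact he (pow_eq_zero_iff two_ne_zero |>.mp hsq'.symm)
    have hc := card_centralizer_split hodd z hz _ he hsq'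
    obtain ⟨j, hj⟩ : ∃ j, Fintype.card F = 4 * j + 1 := ⟨Fintype.card F / 4, by omega⟩
    apply hall_of_torus hodd hq3 z hz ht (Fintype.card F - 1) (2 * j + 1) hc
    · rw [hsq, hj]
      have : 4 * j + 1 - 1 = 4 * j := by omega
      rw [this]
      ring
    · omega
    · omega
  · -- non-split torus
    obtain ⟨z, hz, hns⟩ := exists_nonsplit hodd
    have ht := trace_sq_ne_four_of_not_isSquare z hns
    have hc := card_centralizer_nonsplit hodd z hz hns
    obtain ⟨j, hj⟩ : ∃ j, Fintype.card F = 4 * j + 3 := ⟨Fintype.card F / 4, by omega⟩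
    apply hall_of_torus hodd hq3 z hz ht (Fintype.card F + 1) (2 * j + 1) hc
    · rw [hsq, hj]
      have : 4 * j + 3 - 1 = 2 * (2 * j + 1) := by omega
      rw [this]
      ring
    · omega
    · omega
  · obtain ⟨H, ⟨e⟩⟩ := PSL2Sub.exists_A4 (F := F) (Or.inl (by omega))
    refine ⟨H, hall_of_card h2F hq3 H ?_⟩
    rw [h24, Nat.card_congr e.toEquiv, PresSmall.a4_card]
  · obtain ⟨m, hm, -, -⟩ := part23_spec _ hn0
    rw [h48] at hm
    have h16 : Fintype.card F ^ 2 % 16 = 1 := by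
      have : 1 ≤ Fintype.card F ^ 2 := Nat.one_le_pow _ _ (by omega)
      omega
    obtain ⟨H, ⟨e⟩⟩ := PSL2Sub.exists_S4 (F := F) h16
    refine ⟨H, hall_of_card h2F hq3 H ?_⟩
    rw [h48, Nat.card_congr e.toEquiv, PresSmall.s4_card]

end sufficiency

end Cfsg.Agent.Helper40.PSL2Hall
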