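import Cfsg.Agent.Helper40.SUDefs
import Cfsg.Agent.Helper40.DZP

set_option autoImplicit false

/-!
Abstract rank-one local theorem on `V^U` (helper40, CALL S2318): for rank-one data `Rk1` and a
representation whose character vanishes on `U ∖ 1`, the operator `∑ c, ρ (x c * n)` acts as `-1`
on `V^U`, and the elements `h c` act trivially there.
-/

namespace Cfsg.Agent.Helper40.SUAbs

open Cfsg Cfsg.Agent.Helper40.DZ Cfsg.Agent.Helper40.SU Cfsg.Agent.Helper40.DZP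
  Cfsg.Agent.Helper40.DZR13

variable {G : Type*} [Group G] [Finite G] {F : Type*} [Field F] [Fintype F]
  {V : Type*} [AddCommGroup V] [Module ℂ V] [Module.Finite ℂ V]
  {U B U₁ : Subgroup G} {x : F → G} {n : G} {τ : F → F} {h : F → G}

theorem xs_mem_Y_abs (hR : Rk1 U B U₁ x n τ h) (ρ : Representation ℂ G V) (c : F) :
    ∀ v ∈ fixS ρ (U : Set G), ρ (x c * n) v ∈ fixS ρ (U₁ : Set G) := by
  intro v hv
  have hnorm : ∀ k ∈ U₁, x c * n * k * (x c * n)⁻¹ ∈ U₁ := by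
    intro k hk
    have h2 : x c * n * k * (x c * n)⁻¹ = x c * (n * k * n⁻¹) * (x c)⁻¹ := by group
    rw [h2]
    exact hR.x_norm c _ (hR.n_norm k hk)
  refine (mem_fixS _ _ _).2 fun u hu => ?_
  have h1 := conj_inv_mem U₁ _ hnorm u hu
  have h3 : u * (x c * n) = (x c * n) * ((x c * n)⁻¹ * u * (x c * n)) := by group
  rw [← Module.End.mul_apply, ← map_mul, h3, map_mul, Module.End.mul_apply,
    (mem_fixS _ _ _).1 hv _ (hR.le h1)]

theorem fix_of_fix_abs (hR : Rk1 U B U₁ x n τ h) (ρ : Representation ℂ G V) {v : V}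
    (h1 : v ∈ fixS ρ (U₁ : Set G)) (h2 : ∀ c : F, ρ (x c) v = v) :
    v ∈ fixS ρ (U : Set G) := by
  refine (mem_fixS _ _ _).2 fun u hu => ?_
  obtain ⟨u', hu', c, rfl⟩ := hR.factor u hu
  rw [map_mul, Module.End.mul_apply, h2, (mem_fixS _ _ _).1 h1 u' hu']

theorem T_mem_abs (hR : Rk1 U B U₁ x n τ h) (ρ : Representation ℂ G V) :
    ∀ v ∈ fixS ρ (U : Set G), ∑ c : F, ρ (x c * n) v ∈ fixS ρ (U : Set G) := by
  intro v hv
  apply fix_of_fix_abs hR ρ
  · exact Submodule.sum_mem _ fun c _ => xs_mem_Y_abs hR ρ c v hv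
  · intro d
    rw [map_sum]
    have h1 : ∀ c : F, ρ (x d) (ρ (x c * n) v) = ρ (x (d + c) * n) v := by
      intro c
      rw [← Module.End.mul_apply, ← map_mul, ← mul_assoc, ← hR.x_add]
    simp only [h1]
    exact Fintype.sum_equiv (Equiv.addLeft d) _ _ (fun c => rfl)

theorem B_stable_abs (hBU : ∀ b ∈ B, ∀ u ∈ U, b * u * b⁻¹ ∈ U) (ρ : Representation ℂ G V) :
    ∀ b ∈ B, ∀ v ∈ fixS ρ (U : Set G), ρ b v ∈ fixS ρ (U : Set G) := by
  intro b hb v hv
  refine (mem_fixS _ _ _).2 fun u hu => ?_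
  have h1 : u * b = b * (b⁻¹ * u * b⁻¹⁻¹) := by group
  have h2 : b⁻¹ * u * b⁻¹⁻¹ ∈ U := hBU b⁻¹ (B.inv_mem hb) u hu
  rw [← Module.End.mul_apply, ← map_mul, h1, map_mul, Module.End.mul_apply,
    (mem_fixS _ _ _).1 hv _ h2]

theorem x_zero (hR : Rk1 U B U₁ x n τ h) : x 0 = 1 := by
  have h1 := hR.x_add 0 0
  rw [add_zero] at h1
  exact mul_eq_left.1 h1.symm

/-- AL: the local theorem. -/
theorem local_abs (hR : Rk1 U B U₁ x n τ h) (hBU : ∀ b ∈ B, ∀ u ∈ U, b * u * b⁻¹ ∈ U)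
    (ρ : Representation ℂ G V)
    (hvan : ∀ u ∈ U, u ≠ 1 → ρ.character u = 0)
    (hgen : ∀ y ∈ fixS ρ (U₁ : Set G), ∃ x₀ ∈ fixS ρ (U : Set G), ∃ f : F → V,
      (∀ c, f c ∈ fixS ρ (U : Set G)) ∧ y = x₀ + ∑ c : F, ρ (x c * n) (f c)) :
    ∀ v ∈ fixS ρ (U : Set G),
      (∀ c : F, c ≠ 0 → ρ (h c) v = v) ∧ ∑ c : F, ρ (x c * n) v = -v := by
  classical
  intro v hv
  have hx0 : x 0 = 1 := x_zero hR
  have hdim : Module.finrank ℂ (fixS ρ (U₁ : Set G)) =
      Fintype.card F * Module.finrank ℂ (fixS ρ (U : Set G)) := by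
    have h1 := A1 ρ U hvan
    have h2 := A1 ρ U₁ (fun k hk hne => hvan k (hR.le hk) hne)
    have h3 := hR.card
    have hpos : 0 < Nat.card U₁ := Nat.card_pos
    rw [h3, Nat.card_eq_fintype_card (α := F)] at h1
    have h4 : Nat.card U₁ * Module.finrank ℂ (fixS ρ (U₁ : Set G)) =
        Nat.card U₁ * (Fintype.card F * Module.finrank ℂ (fixS ρ (U : Set G))) := by
      rw [h2, ← h1]; ring
    exact Nat.eq_of_mul_eq_mul_left hpos h4
  have hEY : fixS ρ (U : Set G) ≤ fixS ρ (U₁ : Set G) := fun w hw =>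
    (mem_fixS _ _ _).2 fun g hg => (mem_fixS _ _ _).1 hw g (hR.le hg)
  set A : F → V →ₗ[ℂ] V := fun c => ρ (x c * n) with hA
  have hconst := R4a (fixS ρ (U : Set G)) (fixS ρ (U₁ : Set G)) A hdim hgen
    (fun c y hy => xs_mem_Y_abs hR ρ c y hy) hEY (T_mem_abs hR ρ)
  have hhel : ∀ c : F, c ≠ 0 → ρ (h c) v ∈ fixS ρ (U : Set G) := fun c hc =>
    B_stable_abs hBU ρ _ (hR.h_mem c hc) v hv
  set x' : V := ∑ c : F, A c v with hx'
  have hx'E : x' ∈ fixS ρ (U : Set G) := T_mem_abs hR ρ v hv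
  set f : F → V := fun r => if r = 0 then -x' else ρ (h (τ r)) v with hf
  have hfE : ∀ r, f r ∈ fixS ρ (U : Set G) := by
    intro r
    rw [hf]
    by_cases hr : r = 0
    · simp only [hr, if_true]
      exact neg_mem hx'E
    · simp only [hr, if_false]
      exact hhel _ (hR.τ_ne r hr)
  have hrel : ρ (n * n) v + ∑ r : F, A r (f r) = 0 := by
    have hs1 : ρ n x' = A 0 x' := by
      rw [hA]
      simp only [hx0, one_mul]
    have hs2 : ρ n x' = ρ (n * n) v +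
        ∑ c ∈ (Finset.univ : Finset F).erase 0, A (τ c) (ρ (h c) v) := by
      rw [hx', map_sum, ← Finset.add_sum_erase Finset.univ _ (Finset.mem_univ (0 : F))]
      congr 1
      · rw [hA]
        simp only [hx0, one_mul]
        rw [← Module.End.mul_apply, ← map_mul]
      · apply Finset.sum_congr rfl
        intro c hc
        have hc0 : c ≠ 0 := Finset.ne_of_mem_erase hc
        obtain ⟨u, hu, e⟩ := hR.rel c hc0
        rw [hA]
        simp only
        rw [← Module.End.mul_apply, ← map_mul, ← mul_assoc, e, map_mul, map_mul,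
          Module.End.mul_apply, Module.End.mul_apply, (mem_fixS _ _ _).1 hv u hu]
    have hs3 : ∑ r : F, A r (f r) = A 0 (-x') +
        ∑ r ∈ (Finset.univ : Finset F).erase 0, A r (ρ (h (τ r)) v) := by
      rw [← Finset.add_sum_erase Finset.univ _ (Finset.mem_univ (0 : F))]
      congr 1
      · rw [hf]; simp
      · apply Finset.sum_congr rfl
        intro r hr
        have hr0 : r ≠ 0 := Finset.ne_of_mem_erase hr
        rw [hf]
        simp only [hr0, if_false]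
    have hs4 : ∑ c ∈ (Finset.univ : Finset F).erase 0, A (τ c) (ρ (h c) v) =
        ∑ r ∈ (Finset.univ : Finset F).erase 0, A r (ρ (h (τ r)) v) := by
      refine Finset.sum_nbij' (fun c => τ c) (fun r => τ r) ?_ ?_ ?_ ?_ ?_
      · intro c hc
        exact Finset.mem_erase.2 ⟨hR.τ_ne c (Finset.ne_of_mem_erase hc), Finset.mem_univ _⟩
      · intro r hr
        exact Finset.mem_erase.2 ⟨hR.τ_ne r (Finset.ne_of_mem_erase hr), Finset.mem_univ _⟩
      · intro c hc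
        exact hR.τ_τ c (Finset.ne_of_mem_erase hc)
      · intro r hr
        exact hR.τ_τ r (Finset.ne_of_mem_erase hr)
      · intro c hc
        rw [hR.τ_τ c (Finset.ne_of_mem_erase hc)]
    rw [hs3, map_neg, ← hs1, hs2, hs4]
    abel
  have hc := hconst _ (B_stable_abs hBU ρ _ hR.nn_mem v hv) f hfE hrel
  have h1 : f 1 = v := by
    rw [hf]
    simp only [one_ne_zero, if_false, hR.h_one, map_one, Module.End.one_apply]
  have h0 : f 0 = -x' := by
    rw [hf]; simp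
  have hx'x : x' = -v := by
    have := hc 1 0
    rw [h1, h0] at this
    rw [this, neg_neg]
  refine ⟨fun c hc0 => ?_, hx'x⟩
  have h2 := hc (τ c) 0
  rw [h0, hx'x, neg_neg] at h2
  rw [hf] at h2
  simp only [hR.τ_ne c hc0, if_false, hR.τ_τ c hc0] at h2
  exact h2

theorem avg_fix_abs (hR : Rk1 U B U₁ x n τ h) (ρ : Representation ℂ G V) {v : V}
    (hv : ∀ c : F, ρ (x c) v = v) : avgL ρ U₁ v ∈ fixS ρ (U : Set G) := by
  apply fix_of_fix_abs hR ρ (avgL_mem ρ _ v)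
  intro c
  rw [← avgL_conj ρ U₁ (x c) (hR.x_norm c) v, hv]

/-- AG: `V^{U₁}` is spanned by `V^U` and the `ρ(x(c) n) V^U`. -/
theorem gen_abs (hR : Rk1 U B U₁ x n τ h) (hBU : ∀ b ∈ B, ∀ u ∈ U, b * u * b⁻¹ ∈ U)
    (ρ : Representation ℂ G V) (hirr : ρ.IsIrreducible)
    (hE : ∃ v ∈ fixS ρ (U : Set G), v ≠ 0) :
    ∀ y ∈ fixS ρ (U₁ : Set G), ∃ x₀ ∈ fixS ρ (U : Set G), ∃ f : F → V,
      (∀ c, f c ∈ fixS ρ (U : Set G)) ∧ y = x₀ + ∑ c : F, ρ (x c * n) (f c) := by
  classical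
  obtain ⟨z, hzE, hz⟩ := hE
  set E := fixS ρ (U : Set G) with hEdef
  let Pred : V → Prop := fun y => ∃ x₀ ∈ E, ∃ f : F → V,
    (∀ c, f c ∈ E) ∧ y = x₀ + ∑ c : F, ρ (x c * n) (f c)
  have hP0 : Pred 0 := ⟨0, E.zero_mem, fun _ => 0, fun _ => E.zero_mem, by simp⟩
  have hPadd : ∀ y₁ y₂, Pred y₁ → Pred y₂ → Pred (y₁ + y₂) := by
    rintro y₁ y₂ ⟨a₁, ha₁, f₁, hf₁, rfl⟩ ⟨a₂, ha₂, f₂, hf₂, rfl⟩
    refine ⟨a₁ + a₂, E.add_mem ha₁ ha₂, fun c => f₁ c + f₂ c,
      fun c => E.add_mem (hf₁ c) (hf₂ c), ?_⟩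
    simp only [map_add, Finset.sum_add_distrib]
    abel
  have hPsmul : ∀ (a : ℂ) y, Pred y → Pred (a • y) := by
    rintro a y ⟨a₁, ha₁, f₁, hf₁, rfl⟩
    refine ⟨a • a₁, E.smul_mem a ha₁, fun c => a • f₁ c, fun c => E.smul_mem a (hf₁ c), ?_⟩
    simp only [map_smul, smul_add, Finset.smul_sum]
  have habs : ∀ u' ∈ U₁, ∀ w : V, avgL ρ U₁ (ρ u' w) = avgL ρ U₁ w := by
    intro u' hu' w
    rw [avgL_conj ρ U₁ u' (fun k hk => U₁.mul_mem (U₁.mul_mem hu' hk) (U₁.inv_mem hu')) w]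
    exact (mem_fixS _ _ _).1 (avgL_mem ρ U₁ w) u' hu'
  have hcore : ∀ g : G, Pred (avgL ρ U₁ (ρ g z)) := by
    intro g
    obtain ⟨u, hu, b, hb, m, hcase, hm⟩ := hR.bruhat g
    obtain ⟨u', hu', c, rfl⟩ := hR.factor u hu
    have hx₁ : ρ b z ∈ E := B_stable_abs hBU ρ b hb z hzE
    set v : V := ρ m (ρ b z) with hv
    have hvfix : ∀ d : F, ρ (x d) v = v := by
      intro d
      have h1 : x d * m = m * (m⁻¹ * x d * m) := by group
      rw [hv, ← Module.End.mul_apply, ← map_mul, h1, map_mul, Module.End.mul_apply,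
        (mem_fixS _ _ _).1 hx₁ _ (hm d)]
    have havg : avgL ρ U₁ v ∈ E := avg_fix_abs hR ρ hvfix
    rcases hcase with rfl | rfl
    · have h1 : ρ (u' * x c * m * b) z = ρ u' v := by
        rw [hv]
        simp only [map_mul, Module.End.mul_apply]
        rw [← hv, hvfix]
      rw [h1, habs u' hu']
      exact ⟨avgL ρ U₁ v, havg, fun _ => 0, fun _ => E.zero_mem, by simp⟩
    · have h1 : ρ (u' * x c * n * m * b) z = ρ u' (ρ (x c * n) v) := by
        rw [hv]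
        simp only [map_mul, Module.End.mul_apply]
      have hnorm : ∀ k ∈ U₁, x c * n * k * (x c * n)⁻¹ ∈ U₁ := by
        intro k hk
        have h2 : x c * n * k * (x c * n)⁻¹ = x c * (n * k * n⁻¹) * (x c)⁻¹ := by group
        rw [h2]
        exact hR.x_norm c _ (hR.n_norm k hk)
      rw [h1, habs u' hu', avgL_conj ρ U₁ _ hnorm v]
      refine ⟨0, E.zero_mem, fun d => if d = c then avgL ρ U₁ v else 0, fun d => ?_, ?_⟩
      · by_cases hd : d = c
        · simp only [hd, if_true]; exact havg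
        · simp only [hd, if_false]; exact E.zero_mem
      · rw [zero_add, Finset.sum_eq_single c]
        · simp
        · intro d _ hd
          simp [hd]
        · intro hh
          exact absurd (Finset.mem_univ _) hh
  intro y hy
  have hy1 : avgL ρ U₁ y = y := avgL_of_mem ρ U₁ hy
  have hy2 := irr_span ρ hirr hz y
  rw [← hy1]
  refine Submodule.span_induction (p := fun w _ => Pred (avgL ρ U₁ w)) ?_ ?_ ?_ ?_ hy2
  · rintro _ ⟨g, rfl⟩
    exact hcore g
  · rw [map_zero]; exact hP0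
  · intro a b _ _ ha hb
    rw [map_add]; exact hPadd _ _ ha hb
  · intro a w _ hw
    rw [map_smul]; exact hPsmul a _ hw

/-- AK: on `V^U`, an element `g` of `B` normalising `{x c}` acts like `n⁻¹ g n`. -/
theorem K1_abs (hBU : ∀ b ∈ B, ∀ u ∈ U, b * u * b⁻¹ ∈ U)
    (ρ : Representation ℂ G V)
    (hloc : ∀ v ∈ fixS ρ (U : Set G), ∑ c : F, ρ (x c * n) v = -v)
    (g : G) (hg' : n⁻¹ * g * n ∈ B) (σ : F ≃ F)
    (hσ : ∀ c, g * x c = x (σ c) * g) :
    ∀ v ∈ fixS ρ (U : Set G), ρ g v = ρ (n⁻¹ * g * n) v := by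
  intro v hv
  have hw : ρ (n⁻¹ * g * n) v ∈ fixS ρ (U : Set G) := B_stable_abs hBU ρ _ hg' v hv
  have h1 := hloc v hv
  have h2 := hloc _ hw
  have h3 : ρ g (∑ c : F, ρ (x c * n) v) = ∑ c : F, ρ (x c * n) (ρ (n⁻¹ * g * n) v) := by
    rw [map_sum, ← Equiv.sum_comp σ (fun c => ρ (x c * n) (ρ (n⁻¹ * g * n) v))]
    apply Finset.sum_congr rfl
    intro c _
    rw [← Module.End.mul_apply, ← map_mul, ← Module.End.mul_apply, ← map_mul]
    have e : g * (x c * n) = x (σ c) * n * (n⁻¹ * g * n) := by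
      rw [← mul_assoc, hσ c]; group
    rw [e]
  rw [h1, h2, map_neg] at h3
  exact neg_injective h3

end Cfsg.Agent.Helper40.SUAbs
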