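import Cfsg.Agent.Helper40.SUDefs

set_option autoImplicit false

/-!
Chevalley-side pieces of CALL S2318 proved by helper40: vanishing of a defect-zero character on
`U ∖ 1`, the Bruhat decomposition in `GL`, and the generation of `H` used for the triviality of
the action of `H` on `V^U`.
-/

namespace Cfsg.Agent.Helper40.SUChev

open Cfsg Cfsg.Lie Cfsg.Agent.Helper36 Cfsg.Agent.Helper40.SU

variable {D : ChevalleyDatum} {F : Type*} [Field F] {η : ℕ → ℕ → ℤ}

/-- VAN: a defect-zero irreducible character vanishes on `U ∖ 1`. -/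
theorem chev_van [Fintype F] (p : ℕ) [Fact p.Prime] [CharP F p]
    (hD : D ∈ [chevG2, chevB2, chevD4, chevF4, chevE6, chevE7, chevE8]) {m : ℕ}
    (ρ : Representation ℂ ↥(D.group F) (Fin m → ℂ)) (hρ : ρ.IsIrreducible)
    (hdeg : p ^ (Nat.card ↥(D.group F)).factorization p ∣ m) :
    ∀ u ∈ (D.posUnipotent F).subgroupOf (D.group F), u ≠ 1 → ρ.character u = 0 := by
  classical
  intro u hu hne
  have hp : p.Prime := Fact.out
  obtain ⟨S, hS⟩ := Cfsg.Agent.S2326.result (F := F) p D hD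
  have huS : u ∈ (S : Subgroup ↥(D.group F)) := by rw [hS]; exact hu
  have hpu : p ∣ orderOf u := by
    obtain ⟨k, hk⟩ := (IsPGroup.iff_orderOf.1 S.isPGroup') ⟨u, huS⟩
    rw [Subgroup.orderOf_mk] at hk
    have hk0 : k ≠ 0 := by
      rintro rfl
      rw [pow_zero, orderOf_eq_one_iff] at hk
      exact hne hk
    rw [hk]
    exact dvd_pow_self p hk0
  have : ρ.IsIrreducible := hρ
  have hG0 : Nat.card ↥(D.group F) ≠ 0 := Nat.card_pos.ne'
  exact Cfsg.Agent.S0165.result ρ p ((Nat.card ↥(D.group F)).factorization p) hp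
    (Nat.ordProj_dvd _ _) (Nat.pow_succ_factorization_not_dvd hG0 hp)
    (by rw [Module.finrank_fin_fun]; exact hdeg) u hpu

/-- BNB: Bruhat decomposition in `GL`. -/
theorem chev_BNB (hD : D ∈ [chevG2, chevB2, chevD4, chevF4, chevE6, chevE7, chevE8]) :
    ∀ g ∈ D.group F, ∃ b₁ ∈ D.borelSubgroup F, ∃ n ∈ D.monomialSubgroup F,
      ∃ b₂ ∈ D.borelSubgroup F, g = b₁ * n * b₂ := by
  intro g hg
  obtain ⟨P, hB, hN, hS⟩ := Cfsg.Agent.S1042.result (F := F) D hD
  obtain ⟨n, hn, hgn⟩ := Cfsg.Agent.Helper6.bruhat_exists P (⟨g, hg⟩ : ↥(D.group F))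
  obtain ⟨b, hb, b', hb', e⟩ := (Cfsg.Agent.Helper6.mem_DC P).1 hgn
  refine ⟨b.1, (Cfsg.Agent.Helper40.BNSt.mem_B_coe P hB b).1 hb, n.1,
    (Cfsg.Agent.Helper40.BNSt.mem_N_coe P hN n).1 hn, b'.1,
    (Cfsg.Agent.Helper40.BNSt.mem_B_coe P hB b').1 hb', ?_⟩
  exact congrArg Subtype.val e

/-- GH1: conjugation of `h_r(c)` by `n_i`, uniformly in `c`. -/
theorem chev_conj_h (R : BRel D F η) {i r : ℕ} (hi : i < D.rank) (hr : r < D.nroots) :
    (∀ c : F, c ≠ 0 →
      R.n i * hGL R.xadd r c * (R.n i)⁻¹ = hGL R.xadd (D.reflectRoot i r) c) ∨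
    (∀ c : F, c ≠ 0 → R.n i * hGL R.xadd r c * (R.n i)⁻¹ =
      hGL R.xadd (D.reflectRoot i r) (-c) * (hGL R.xadd (D.reflectRoot i r) (-1))⁻¹) := by
  have e : ∀ a x y : GL D.Idx F, a * (x * y) * a⁻¹ = (a * x * a⁻¹) * (a * y * a⁻¹) := by
    intros; group
  have hw := R.wf.refl_lt i hi r hr
  rcases R.sgn i hi r hr with h | h
  · left
    intro c _
    rw [hGL_eq, e, R.conj_n hi hr, R.conj_n hi hr, h]
    simp only [Int.cast_one, one_mul]
    rw [← hGL_eq]
  · right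
    intro c _
    rw [hGL_eq, e, R.conj_n hi hr, R.conj_n hi hr, h]
    simp only [Int.cast_neg, Int.cast_one, neg_mul, one_mul, neg_neg]
    have h1 : nGL R.xadd (D.reflectRoot i r) (-c) * nGL R.xadd (D.reflectRoot i r) 1 =
        hGL R.xadd (D.reflectRoot i r) (-c) * (hGL R.xadd (D.reflectRoot i r) (-1))⁻¹ := by
      rw [hGL_eq, hGL_eq, mul_inv_rev, R.nGL_inv hw (neg_ne_zero.mpr one_ne_zero), neg_neg,
        mul_assoc, ← mul_assoc (nGL R.xadd (D.reflectRoot i r) (-1)),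
        ← R.nGL_inv hw (one_ne_zero), inv_mul_cancel, one_mul]
    rw [h1]

/-- GH2: the `h_p(a)`, `p` fundamental, lie in `K`. -/
theorem chev_genH_simple (R : BRel D F η) (K : Subgroup (GL D.Idx F)) {i : ℕ} (hi : i < D.rank)
    (hτ : ∀ a : F, a ≠ 0 → ∃ c : F, c ≠ 0 ∧ -tau R i c = a)
    (hm : ∀ c : F, c ≠ 0 → hh R i c ∈ D.diagonalSubgroup F)
    (h1 : ∀ c : F, c ≠ 0 → hh R i c ∈ K)
    (h2 : ∀ g ∈ D.diagonalSubgroup F, g ∈ K → R.n i * g * (R.n i)⁻¹ ∈ K) :
    ∀ a : F, a ≠ 0 → hGL R.xadd (D.simple i) a ∈ K := by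
  have hp := R.wf.simple_lt i hi
  have key : ∀ a : F, a ≠ 0 → hGL R.xadd (D.simple i) a * (R.n i * R.n i) ∈ K := by
    intro a ha
    obtain ⟨c, hc, rfl⟩ := hτ a ha
    have h3 := h2 _ (hm c hc) (h1 c hc)
    have e : R.n i * hh R i c * (R.n i)⁻¹ =
        hGL R.xadd (D.simple i) (-tau R i c) * (R.n i * R.n i) := by
      unfold hh; group
    rw [e] at h3
    exact h3
  have h11 : hGL R.xadd (D.simple i) (1 : F) = 1 := by
    rw [hGL_eq, R.nGL_mul_neg hp one_ne_zero]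
  have hnn : R.n i * R.n i ∈ K := by
    have := key 1 one_ne_zero
    rwa [h11, one_mul] at this
  intro a ha
  have := K.mul_mem (key a ha) (K.inv_mem hnn)
  rwa [mul_inv_cancel_right] at this

/-- GH3: all the `h_r(a)` lie in `K`. -/
theorem chev_genH_all (R : BRel D F η) (K : Subgroup (GL D.Idx F))
    (hc : ∀ i < D.rank, ∀ r < D.nroots,
      (∀ c : F, c ≠ 0 →
        R.n i * hGL R.xadd r c * (R.n i)⁻¹ = hGL R.xadd (D.reflectRoot i r) c) ∨
      (∀ c : F, c ≠ 0 → R.n i * hGL R.xadd r c * (R.n i)⁻¹ =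
        hGL R.xadd (D.reflectRoot i r) (-c) * (hGL R.xadd (D.reflectRoot i r) (-1))⁻¹))
    (h0 : ∀ i < D.rank, ∀ a : F, a ≠ 0 → hGL R.xadd (D.simple i) a ∈ K)
    (h2 : ∀ i < D.rank, ∀ g ∈ D.diagonalSubgroup F, g ∈ K → R.n i * g * (R.n i)⁻¹ ∈ K) :
    ∀ r < D.nroots, ∀ a : F, a ≠ 0 → hGL R.xadd r a ∈ K := by
  intro r
  induction h : depthOf D r using Nat.strong_induction_on generalizing r with
  | _ k ih =>
    intro hr
    rcases R.wf.depth r hr with ⟨i, hi, rfl⟩ | ⟨i, hi, hlt⟩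
    · exact h0 i hi
    · have hr' := R.wf.refl_lt i hi r hr
      have ih' := ih _ (h ▸ hlt) (D.reflectRoot i r) rfl hr'
      have hrr := R.wf.refl_refl i hi r hr
      have h11 : hGL R.xadd r (1 : F) = 1 := by
        rw [hGL_eq, R.nGL_mul_neg hr one_ne_zero]
      rcases hc i hi _ hr' with hcase | hcase
      · intro a ha
        have h3 := h2 i hi _ (hGL_mem R.xadd hr' ha) (ih' a ha)
        rw [hcase a ha, hrr] at h3
        exact h3
      · have key : ∀ c : F, c ≠ 0 → hGL R.xadd r (-c) * (hGL R.xadd r (-1))⁻¹ ∈ K := by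
          intro c hc0
          have h3 := h2 i hi _ (hGL_mem R.xadd hr' hc0) (ih' c hc0)
          rw [hcase c hc0, hrr] at h3
          exact h3
        have hm1 : hGL R.xadd r (-1 : F) ∈ K := by
          have h4 := key (-1) (neg_ne_zero.mpr one_ne_zero)
          rw [neg_neg, h11, one_mul] at h4
          have h5 := K.inv_mem h4
          rwa [inv_inv] at h5
        intro a ha
        have h6 := K.mul_mem (key (-a) (neg_ne_zero.mpr ha)) hm1
        rwa [neg_neg, inv_mul_cancel_right] at h6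

/-- PAR: the parabolic subgroups `parabolicIn J` contain `B` and the `n_j`, `j ∈ J`. -/
theorem chev_par (R : BRel D F η) :
    D.parabolicIn F ∅ = (D.borelSubgroup F).subgroupOf (D.group F) ∧
    (∀ J : Finset ℕ, (D.borelSubgroup F).subgroupOf (D.group F) ≤ D.parabolicIn F J) ∧
    ∀ J : Finset ℕ, ∀ j ∈ J, j < D.rank → nG R j ∈ D.parabolicIn F J := by
  refine ⟨?_, ?_, ?_⟩
  · unfold ChevalleyDatum.parabolicIn ChevalleyDatum.parabolicSubgroup
    have h1 : {g : GL D.Idx F | ∃ j ∈ ((∅ : Finset ℕ) : Set ℕ), j < D.rank ∧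
        (g : Matrix D.Idx D.Idx F) = D.nMat F (D.simple j) 1} = ∅ := by
      ext g; simp
    rw [h1, Subgroup.closure_empty, sup_bot_eq]
  · intro J g hg
    unfold ChevalleyDatum.parabolicIn ChevalleyDatum.parabolicSubgroup
    exact Subgroup.mem_subgroupOf.2 (Subgroup.mem_sup_left (Subgroup.mem_subgroupOf.1 hg))
  · intro J j hj hjr
    unfold ChevalleyDatum.parabolicIn ChevalleyDatum.parabolicSubgroup
    apply Subgroup.mem_subgroupOf.2
    apply Subgroup.mem_sup_right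
    apply Subgroup.subset_closure
    exact ⟨j, hj, hjr, R.n_val j⟩

end Cfsg.Agent.Helper40.SUChev
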