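import Cfsg.Agent.Helper40.SUDefs
import Cfsg.Agent.Helper93.SUFAC

set_option autoImplicit false

/-!
Chevalley-side pieces CARD and BRU of CALL S2318 (helper40): `|U| = q |U_p|` and the Bruhat
dichotomy `G = U m B ∪ U n_p m B` with `m⁻¹ X_p m ≤ U`.
-/

namespace Cfsg.Agent.Helper40.SUChev

open Cfsg Cfsg.Lie Cfsg.Agent.Helper36 Cfsg.Agent.Helper40.SU

variable {D : ChevalleyDatum} {F : Type*} [Field F] {η : ℕ → ℕ → ℤ}

/-- BRU: the Bruhat dichotomy at a fundamental root. -/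
theorem chev_bruhat (R : BRel D F η)
    (hBNB : ∀ g ∈ D.group F, ∃ b₁ ∈ D.borelSubgroup F, ∃ n ∈ D.monomialSubgroup F,
      ∃ b₂ ∈ D.borelSubgroup F, g = b₁ * n * b₂) {i : ℕ} (hi : i < D.rank) :
    ∀ g ∈ D.group F, ∃ u ∈ D.posUnipotent F, ∃ b ∈ D.borelSubgroup F, ∃ m ∈ D.group F,
      (g = u * m * b ∨ g = u * R.n i * m * b) ∧
        ∀ c : F, m⁻¹ * xGL R.xadd (D.simple i) c * m ∈ D.posUnipotent F := by
  intro g hg
  obtain ⟨b₁, hb₁, n', hn', b₂, hb₂, rfl⟩ := hBNB g hg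
  obtain ⟨u, hu, h, hh, rfl⟩ := Cfsg.Agent.Helper40.BNSt.exists_uh R hb₁
  have hHN : D.diagonalSubgroup F ≤ D.monomialSubgroup F := le_sup_left
  have hn : h * n' ∈ D.monomialSubgroup F := mul_mem (hHN hh) hn'
  have hp := R.wf.simple_lt i hi
  obtain ⟨L, hL, hroot⟩ := R.exists_root (h * n')⁻¹ (inv_mem hn)
  have hβ := R.wf.wW_lt hL hp
  rcases R.wf.pos_xor _ hβ with hpos | hneg
  · refine ⟨u, hu, b₂, hb₂, h * n', monomialSubgroup_le_group R.xadd hn,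
      Or.inl (by group), ?_⟩
    intro c
    obtain ⟨c₀, hc₀⟩ := hroot _ hp
    have h1 := hc₀ c
    rw [inv_inv] at h1
    rw [h1]
    exact xGL_mem_posUnipotent _ hpos.1 _
  · have hnp : R.n i ∈ D.monomialSubgroup F := R.n_mem_monomial hi
    have hposβ : D.IsPosRoot (D.neg (wW D L (D.simple i))) := by
      rw [R.wf.pos_iff_neg _ (R.wf.neg_lt _ hβ), R.wf.neg_neg _ hβ]
      exact hneg.2
    refine ⟨u, hu, b₂, hb₂, (R.n i)⁻¹ * (h * n'),
      monomialSubgroup_le_group R.xadd (mul_mem (inv_mem hnp) hn), Or.inr (by group), ?_⟩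
    intro c
    have e : ((R.n i)⁻¹ * (h * n'))⁻¹ * xGL R.xadd (D.simple i) c * ((R.n i)⁻¹ * (h * n')) =
        (h * n')⁻¹ * (R.n i * xGL R.xadd (D.simple i) c * (R.n i)⁻¹) * (h * n')⁻¹⁻¹ := by group
    rw [e, R.conj_x hi hp, R.wf.refl_simple i hi]
    obtain ⟨c₀, hc₀⟩ := hroot _ (R.wf.neg_lt _ hp)
    rw [hc₀, R.wf.wW_neg hL hp]
    exact xGL_mem_posUnipotent _ hposβ _

/-- `U_p ∩ X_p = 1` -/
theorem up_inter (R : BRel D F η) {i : ℕ} (hi : i < D.rank) (t : F)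
    (ht : xGL R.xadd (D.simple i) t ∈ Subgroup.closure (upGens D F i)) : t = 0 := by
  have hp := R.wf.simple_lt i hi
  have h1 := R.n_conj_up hi _ ht
  rw [R.conj_x hi hp, R.wf.refl_simple i hi] at h1
  have h2 : xGL R.xadd (D.neg (D.simple i)) (((η i (D.simple i) : ℤ) : F) * t) ∈
      D.borelSubgroup F ⊓ D.negUnipotent F :=
    Subgroup.mem_inf.2 ⟨BRel.U_le_B D F (R.up_le_U hi h1),
      xGL_mem_negUnipotent R.xadd ((R.wf.pos_iff_neg _ hp).1 (R.wf.simple_pos i hi)) _⟩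
  rw [R.bv, Subgroup.mem_bot] at h2
  have h3 := R.xinj _ (R.wf.neg_lt _ hp) _ (by
    have h4 := congrArg Units.val h2
    simpa using h4)
  rcases mul_eq_zero.1 h3 with h4 | h4
  · exfalso
    have h5 := R.eta_mul_self (F := F) hi hp
    rw [h4, mul_zero] at h5
    exact zero_ne_one h5
  · exact h4

/-- CARD: `|U| = q |U_p|`. -/
theorem chev_card [Finite F] (R : BRel D F η) {i : ℕ} (hi : i < D.rank) :
    Nat.card (D.posUnipotent F) =
      Nat.card F * Nat.card (Subgroup.closure (upGens D F i)) := by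
  rw [← Nat.card_prod]
  symm
  let φ : F × ↥(Subgroup.closure (upGens D F i)) → ↥(D.posUnipotent F) := fun q =>
    ⟨q.2.1 * xGL R.xadd (D.simple i) q.1, mul_mem (R.up_le_U hi q.2.2)
      (xGL_mem_posUnipotent R.xadd (R.wf.simple_pos i hi) _)⟩
  refine Nat.card_eq_of_bijective φ ⟨?_, ?_⟩
  · rintro ⟨t₁, u₁⟩ ⟨t₂, u₂⟩ hq
    have hq' : u₁.1 * xGL R.xadd (D.simple i) t₁ = u₂.1 * xGL R.xadd (D.simple i) t₂ :=
      congrArg Subtype.val hq
    have h1 : xGL R.xadd (D.simple i) (t₁ - t₂) = u₁.1⁻¹ * u₂.1 := by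
      have h0 : xGL R.xadd (D.simple i) t₁ =
          u₁.1⁻¹ * (u₂.1 * xGL R.xadd (D.simple i) t₂) := by
        rw [← hq']; group
      rw [sub_eq_add_neg, ← xGL_mul, ← xGL_inv, h0]
      group
    have h2 := up_inter R hi (t₁ - t₂) (by rw [h1]; exact mul_mem (inv_mem u₁.2) u₂.2)
    have ht : t₁ = t₂ := sub_eq_zero.1 h2
    subst ht
    have hu : u₁.1 = u₂.1 := mul_right_cancel hq'
    exact Prod.ext rfl (Subtype.ext hu)
  · rintro ⟨u, hu⟩
    obtain ⟨u', hu', t, e⟩ := Cfsg.Agent.Helper93.SU.chev_factor R hi u hu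
    exact ⟨(t, ⟨u', hu'⟩), Subtype.ext e.symm⟩

end Cfsg.Agent.Helper40.SUChev
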