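import Cfsg.Agent.Helper40.DZR13
import Cfsg.Agent.Helper40.BNStE

set_option autoImplicit false

/-!
Definitions for CALL S2318 (helper40): abstract rank-one data `Rk1` for the uniqueness of the
Steinberg character, and the elements `h_i(c)`, `τ_i(c)` of a Chevalley group entering the
rank-one relation `n_i x_i(c) n_i = x_i(τ c) n_i h_i(c) u`.
-/

namespace Cfsg.Agent.Helper40.SU

open Cfsg Cfsg.Lie Cfsg.Agent.Helper36

/-- Abstract rank-one data: `U = U₁ ⋊ {x t}`, the element `n` normalises `U₁`, the relation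
`n x(c) n = x(τ c) n h(c) u`, and the decomposition `G = U m B ∪ U n m B` with
`m⁻¹ x(c) m ∈ U`. -/
structure Rk1 {G : Type*} [Group G] {F : Type*} [Field F] (U B U₁ : Subgroup G) (x : F → G)
    (n : G) (τ : F → F) (h : F → G) : Prop where
  x_add : ∀ s t : F, x (s + t) = x s * x t
  x_mem : ∀ t : F, x t ∈ U
  le : U₁ ≤ U
  factor : ∀ u ∈ U, ∃ u' ∈ U₁, ∃ t : F, u = u' * x t
  x_norm : ∀ t : F, ∀ u ∈ U₁, x t * u * (x t)⁻¹ ∈ U₁
  n_norm : ∀ u ∈ U₁, n * u * n⁻¹ ∈ U₁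
  card : Nat.card U = Nat.card F * Nat.card U₁
  τ_ne : ∀ c : F, c ≠ 0 → τ c ≠ 0
  τ_τ : ∀ c : F, c ≠ 0 → τ (τ c) = c
  h_mem : ∀ c : F, c ≠ 0 → h c ∈ B
  h_one : h (τ 1) = 1
  nn_mem : n * n ∈ B
  rel : ∀ c : F, c ≠ 0 → ∃ u ∈ U, n * x c * n = x (τ c) * n * h c * u
  bruhat : ∀ g : G, ∃ u ∈ U, ∃ b ∈ B, ∃ m : G,
    (g = u * m * b ∨ g = u * n * m * b) ∧ ∀ c : F, m⁻¹ * x c * m ∈ U

section Chev

variable {D : ChevalleyDatum} {F : Type*} [Field F] {η : ℕ → ℕ → ℤ}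

/-- `τ_i(c) = (η c)⁻¹`, `η = η i p_i` -/
def tau (_R : BRel D F η) (i : ℕ) (c : F) : F := (((η i (D.simple i) : ℤ) : F) * c)⁻¹

/-- `h_i(c) = n_i⁻¹ h_{p_i}(-τ c) n_i n_i²` -/
noncomputable def hh (R : BRel D F η) (i : ℕ) (c : F) : GL D.Idx F :=
  (R.n i)⁻¹ * hGL R.xadd (D.simple i) (-tau R i c) * R.n i * (R.n i * R.n i)

theorem n_mem_group (R : BRel D F η) (i : ℕ) : R.n i ∈ D.group F :=
  wordGL_mem_group R.xadd _

theorem hh_mem_group (R : BRel D F η) (i : ℕ) (c : F) : hh R i c ∈ D.group F :=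
  mul_mem (mul_mem (mul_mem (inv_mem (n_mem_group R i)) (wordGL_mem_group R.xadd _))
    (n_mem_group R i)) (mul_mem (n_mem_group R i) (n_mem_group R i))

/-- `x_{p_i}(t)` in the Chevalley group -/
noncomputable def xG (R : BRel D F η) (i : ℕ) (t : F) : ↥(D.group F) :=
  ⟨xGL R.xadd (D.simple i) t, xGL_mem_group R.xadd _ t⟩

/-- `n_i` in the Chevalley group -/
noncomputable def nG (R : BRel D F η) (i : ℕ) : ↥(D.group F) := ⟨R.n i, n_mem_group R i⟩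

/-- `h_i(c)` in the Chevalley group -/
noncomputable def hG (R : BRel D F η) (i : ℕ) (c : F) : ↥(D.group F) :=
  ⟨hh R i c, hh_mem_group R i c⟩

end Chev

end Cfsg.Agent.Helper40.SU
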