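import Cfsg.Agent.Helper40.SUAbs
import Cfsg.Agent.Helper40.SUChev
import Cfsg.Agent.Helper93.SUFAC
import Cfsg.Agent.Helper93.SUXN
import Cfsg.Agent.Helper93.SUREL
import Cfsg.Agent.Helper93.SUH1
import Cfsg.Agent.Helper93.SUHM
import Cfsg.Agent.Helper93.SUTAU
import Cfsg.Agent.Helper93.SUHX
import Cfsg.Agent.Helper93.SUBU
import Cfsg.Agent.Helper40.SUChev2
import Cfsg.Agent.Helper75.InnerLin
import Cfsg.Agent.Helper81.CharBasic
import Cfsg.Agent.Helper80.CharIrr
import Cfsg.Agent.S2311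

set_option autoImplicit false

/-!
Uniqueness of the Steinberg character among the irreducible characters of `p`-defect zero of a
Chevalley group of type G₂, B₂, D₄, F₄, E₆, E₇, E₈ (helper40; assembled from the pieces of
CALL S2318 by helper93 and helper40).

* `st_abs`: abstract theorem.  For rank-one data `Rk1` at each fundamental reflection and an
  irreducible representation whose character vanishes on `U ∖ 1`, the multiplicity of the
  character in the alternating sum of the parabolic permutation characters is `dim V^U`.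
* `rk1_chev`: the rank-one data of a Chevalley group.
* `chev_st_unique`: the theorem.
-/

namespace Cfsg.Agent.Helper40.SUMain

open Cfsg Cfsg.Lie Cfsg.Agent.Helper36 Cfsg.Agent.Helper40.DZ Cfsg.Agent.Helper40.SU
  Cfsg.Agent.Helper40.DZP Cfsg.Agent.Helper40.DZR13 Cfsg.Agent.Helper40.SUAbs
  Cfsg.Agent.Helper40.SUChev Cfsg.Agent.Helper93.SU
open scoped ComplexConjugate

/-- conjugate-linearity of `classInner` in a signed sum of functions -/
theorem classInner_sum_pow {G : Type*} [Group G] [Fintype G] {ι : Type*} (S : Finset ι)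
    (φ : G → ℂ) (a : ι → ℕ) (f : ι → G → ℂ) :
    Cfsg.classInner φ (fun g => ∑ i ∈ S, (-1 : ℂ) ^ a i * f i g) =
      ∑ i ∈ S, (-1 : ℂ) ^ a i * Cfsg.classInner φ (f i) := by
  unfold Cfsg.classInner
  have h1 : ∀ g : G, φ g * conj (∑ i ∈ S, (-1 : ℂ) ^ a i * f i g) =
      ∑ i ∈ S, (-1 : ℂ) ^ a i * (φ g * conj (f i g)) := by
    intro g
    rw [map_sum, Finset.mul_sum]
    apply Finset.sum_congr rfl
    intro i _
    rw [map_mul, map_pow, map_neg, map_one]; ring
  simp only [h1]
  rw [Finset.sum_comm, Finset.mul_sum]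
  apply Finset.sum_congr rfl
  intro i _
  rw [← Finset.mul_sum]; ring

section Abs

variable {G : Type*} [Group G] [Fintype G] {F : Type*} [Field F] [Fintype F]
  {V : Type*} [AddCommGroup V] [Module ℂ V] [Module.Finite ℂ V]

/-- **Abstract uniqueness of the Steinberg character.** -/
theorem st_abs (U H B : Subgroup G) (r : ℕ) (U₁ : ℕ → Subgroup G) (x : ℕ → F → G)
    (n : ℕ → G) (τ : ℕ → F → F) (h : ℕ → F → G)
    (hR : ∀ i < r, Rk1 U B (U₁ i) (x i) (n i) (τ i) (h i))
    (hBU : ∀ b ∈ B, ∀ u ∈ U, b * u * b⁻¹ ∈ U)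
    (hUB : U ≤ B) (hHB : H ≤ B) (hB : B ≤ U ⊔ H)
    (hHx : ∀ i < r, ∀ g ∈ H, ∃ σ : F ≃ F, ∀ c, g * x i c = x i (σ c) * g)
    (hHn : ∀ i < r, ∀ g ∈ H, n i * g * (n i)⁻¹ ∈ H)
    (hgen : ∀ K : Subgroup G, (∀ i < r, ∀ c : F, c ≠ 0 → h i c ∈ K) →
      (∀ i < r, ∀ g ∈ H, g ∈ K → n i * g * (n i)⁻¹ ∈ K) → H ≤ K)
    (Par : Finset ℕ → Subgroup G) (hPar0 : Par ∅ = B) (hParB : ∀ J, B ≤ Par J)
    (hParn : ∀ J : Finset ℕ, ∀ j ∈ J, j < r → n j ∈ Par J)
    (ρ : Representation ℂ G V) (hirr : ρ.IsIrreducible)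
    (hvan : ∀ u ∈ U, u ≠ 1 → ρ.character u = 0) :
    Cfsg.classInner ρ.character (fun g => ∑ J ∈ (Finset.range r).powerset,
      (-1 : ℂ) ^ J.card * Cfsg.fixedPointCharacter (Par J) g) =
      (Module.finrank ℂ (fixS ρ (U : Set G)) : ℂ) := by
  classical
  -- the local theorem at each `i`
  have hloc : ∀ i < r, ∀ v ∈ fixS ρ (U : Set G),
      (∀ c : F, c ≠ 0 → ρ (h i c) v = v) ∧ ∑ c : F, ρ (x i c * n i) v = -v := by
    intro i hi v hv
    by_cases hv0 : v = 0
    · subst hv0; simp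
    · exact local_abs (hR i hi) hBU ρ hvan (gen_abs (hR i hi) hBU ρ hirr ⟨v, hv, hv0⟩) v hv
  -- the subgroup of elements acting trivially on `V^U`
  let K : Subgroup G :=
    { carrier := {g | ∀ v ∈ fixS ρ (U : Set G), ρ g v = v}
      mul_mem' := by
        intro a b ha hb v hv
        rw [map_mul, Module.End.mul_apply, hb v hv, ha v hv]
      one_mem' := by
        intro v _
        rw [map_one, Module.End.one_apply]
      inv_mem' := by
        intro a ha v hv
        have h1 : ρ a⁻¹ (ρ a v) = v := by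
          rw [← Module.End.mul_apply, ← map_mul, inv_mul_cancel, map_one, Module.End.one_apply]
        rw [ha v hv] at h1
        exact h1 }
  have hHK : H ≤ K := by
    apply hgen K
    · intro i hi c hc v hv
      exact (hloc i hi v hv).1 c hc
    · intro i hi g hgH hgK v hv
      have hg' : n i * g * (n i)⁻¹ ∈ H := hHn i hi g hgH
      obtain ⟨σ, hσ⟩ := hHx i hi _ hg'
      have e : (n i)⁻¹ * (n i * g * (n i)⁻¹) * n i = g := by group
      have h1 := K1_abs hBU ρ (fun v hv => (hloc i hi v hv).2) (n i * g * (n i)⁻¹)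
        (by rw [e]; exact hHB hgH) σ hσ v hv
      rw [h1, e]
      exact hgK v hv
  have hEB : fixS ρ (B : Set G) = fixS ρ (U : Set G) := by
    apply le_antisymm
    · intro v hv
      exact (mem_fixS _ _ _).2 fun g hg => (mem_fixS _ _ _).1 hv g (hUB hg)
    · intro v hv
      have h1 : v ∈ fixS ρ ((U : Set G) ∪ (H : Set G)) := by
        refine (mem_fixS _ _ _).2 fun g hg => ?_
        rcases hg with hg | hg
        · exact (mem_fixS _ _ _).1 hv g hg
        · exact hHK hg v hv
      rw [← fixS_closure] at h1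
      refine (mem_fixS _ _ _).2 fun g hg => (mem_fixS _ _ _).1 h1 g ?_
      have h2 : g ∈ U ⊔ H := hB hg
      rw [Subgroup.sup_eq_closure] at h2
      exact h2
  have hbot : ∀ J ∈ (Finset.range r).powerset, J ≠ ∅ → fixS ρ (Par J : Set G) = ⊥ := by
    intro J hJ hne
    obtain ⟨j, hj⟩ := Finset.nonempty_iff_ne_empty.2 hne
    have hjr : j < r := Finset.mem_range.1 (Finset.mem_powerset.1 hJ hj)
    rw [eq_bot_iff]
    intro v hv
    have hvE : v ∈ fixS ρ (U : Set G) :=
      (mem_fixS _ _ _).2 fun g hg => (mem_fixS _ _ _).1 hv g (hParB J (hUB hg))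
    have h2 := (hloc j hjr v hvE).2
    have h3 : ∀ c : F, ρ (x j c * n j) v = v := by
      intro c
      exact (mem_fixS _ _ _).1 hv _
        ((Par J).mul_mem (hParB J (hUB ((hR j hjr).x_mem c))) (hParn J j hj hjr))
    simp only [h3, Finset.sum_const, Finset.card_univ] at h2
    have h4 : ((Fintype.card F : ℂ) + 1) • v = 0 := by
      rw [add_smul, one_smul, ← Nat.cast_smul_eq_nsmul ℂ] at *
      rw [h2, neg_add_cancel]
    have h5 : ((Fintype.card F : ℂ) + 1) ≠ 0 := by
      have : ((Fintype.card F : ℂ) + 1) = ((Fintype.card F + 1 : ℕ) : ℂ) := by push_cast; rfl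
      rw [this]
      exact Nat.cast_ne_zero.2 (Nat.succ_ne_zero _)
    exact (Submodule.mem_bot ℂ).2 ((smul_eq_zero.1 h4).resolve_left h5)
  rw [classInner_sum_pow]
  simp only [A3a]
  rw [Finset.sum_eq_single (∅ : Finset ℕ)]
  · rw [Finset.card_empty, pow_zero, one_mul, hPar0, hEB]
  · intro J hJ hne
    rw [hbot J hJ hne, finrank_bot]
    simp
  · intro h
    exact absurd (Finset.mem_powerset.2 (Finset.empty_subset _)) h

end Abs

section Chev

variable {D : ChevalleyDatum} {F : Type*} [Field F] {η : ℕ → ℕ → ℤ}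

theorem rk1_chev [Fintype F] (R : BRel D F η)
    (hBNB : ∀ g ∈ D.group F, ∃ b₁ ∈ D.borelSubgroup F, ∃ n ∈ D.monomialSubgroup F,
      ∃ b₂ ∈ D.borelSubgroup F, g = b₁ * n * b₂) {i : ℕ} (hi : i < D.rank) :
    Rk1 ((D.posUnipotent F).subgroupOf (D.group F))
      ((D.borelSubgroup F).subgroupOf (D.group F))
      ((Subgroup.closure (upGens D F i)).subgroupOf (D.group F))
      (xG R i) (nG R i) (tau R i) (hG R i) where
  x_add := fun s t => Subtype.ext (xGL_mul R.xadd _ s t).symm
  x_mem := fun t =>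
    Subgroup.mem_subgroupOf.2 (xGL_mem_posUnipotent R.xadd (R.wf.simple_pos i hi) t)
  le := fun u hu => Subgroup.mem_subgroupOf.2 (R.up_le_U hi (Subgroup.mem_subgroupOf.1 hu))
  factor := by
    intro u hu
    obtain ⟨u', hu', t, e⟩ := chev_factor R hi u.1 (Subgroup.mem_subgroupOf.1 hu)
    have hu'G : u' ∈ D.group F := posUnipotent_le_group R.xadd (R.up_le_U hi hu')
    exact ⟨⟨u', hu'G⟩, Subgroup.mem_subgroupOf.2 hu', t, Subtype.ext e⟩
  x_norm := fun t u hu =>
    Subgroup.mem_subgroupOf.2 (chev_x_norm R hi t u.1 (Subgroup.mem_subgroupOf.1 hu))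
  n_norm := fun u hu =>
    Subgroup.mem_subgroupOf.2 (R.n_conj_up hi u.1 (Subgroup.mem_subgroupOf.1 hu))
  card := by
    have hUG : D.posUnipotent F ≤ D.group F := posUnipotent_le_group R.xadd
    have hUpG : Subgroup.closure (upGens D F i) ≤ D.group F := (R.up_le_U hi).trans hUG
    rw [Nat.card_congr (Subgroup.subgroupOfEquivOfLe hUG).toEquiv,
      Nat.card_congr (Subgroup.subgroupOfEquivOfLe hUpG).toEquiv]
    exact chev_card R hi
  τ_ne := (chev_tau R hi).1
  τ_τ := (chev_tau R hi).2.1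
  h_mem := fun c hc => Subgroup.mem_subgroupOf.2 (BRel.H_le_B D F (chev_h_mem R hi c hc))
  h_one := Subtype.ext (chev_h_one R hi)
  nn_mem := Subgroup.mem_subgroupOf.2 (BRel.H_le_B D F (R.n_sq_mem hi))
  rel := by
    intro c hc
    obtain ⟨u, hu, e⟩ := chev_rel R hi c hc
    exact ⟨⟨u, posUnipotent_le_group R.xadd hu⟩, Subgroup.mem_subgroupOf.2 hu, Subtype.ext e⟩
  bruhat := by
    intro g
    obtain ⟨u, hu, b, hb, m, hm, hcase, hmx⟩ := chev_bruhat R hBNB hi g.1 g.2
    refine ⟨⟨u, posUnipotent_le_group R.xadd hu⟩, Subgroup.mem_subgroupOf.2 hu,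
      ⟨b, borelSubgroup_le_group R.xadd hb⟩, Subgroup.mem_subgroupOf.2 hb, ⟨m, hm⟩, ?_, ?_⟩
    · rcases hcase with e | e
      · left; exact Subtype.ext e
      · right; exact Subtype.ext e
    · intro c
      exact Subgroup.mem_subgroupOf.2 (hmx c)

end Chev

section Final

variable {D : ChevalleyDatum} {F : Type*} [Field F] {η : ℕ → ℕ → ℤ}

/-- the generation hypothesis of `st_abs` in the Chevalley group -/
theorem chev_gen (R : BRel D F η) (K : Subgroup ↥(D.group F))
    (h1 : ∀ i < D.rank, ∀ c : F, c ≠ 0 → hG R i c ∈ K)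
    (h2 : ∀ i < D.rank, ∀ g ∈ (D.diagonalSubgroup F).subgroupOf (D.group F), g ∈ K →
      nG R i * g * (nG R i)⁻¹ ∈ K) :
    (D.diagonalSubgroup F).subgroupOf (D.group F) ≤ K := by
  have h1' : ∀ i < D.rank, ∀ c : F, c ≠ 0 → hh R i c ∈ K.map (D.group F).subtype :=
    fun i hi c hc => ⟨hG R i c, h1 i hi c hc, rfl⟩
  have h2' : ∀ i < D.rank, ∀ g ∈ D.diagonalSubgroup F, g ∈ K.map (D.group F).subtype →
      R.n i * g * (R.n i)⁻¹ ∈ K.map (D.group F).subtype := by
    rintro i hi g hgH ⟨k, hk, rfl⟩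
    exact ⟨nG R i * k * (nG R i)⁻¹, h2 i hi k (Subgroup.mem_subgroupOf.2 hgH) hk, rfl⟩
  have h0 : ∀ i < D.rank, ∀ a : F, a ≠ 0 →
      hGL R.xadd (D.simple i) a ∈ K.map (D.group F).subtype := fun i hi =>
    chev_genH_simple R _ hi (chev_tau R hi).2.2 (chev_h_mem R hi) (h1' i hi) (h2' i hi)
  have hall := chev_genH_all R (K.map (D.group F).subtype)
    (fun i hi r hr => chev_conj_h R hi hr) h0 h2'
  have hle : D.diagonalSubgroup F ≤ K.map (D.group F).subtype := by
    unfold ChevalleyDatum.diagonalSubgroup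
    rw [Subgroup.closure_le]
    rintro g ⟨r, t, hr, ht, hg⟩
    have : g = hGL R.xadd r t := Units.ext (by rw [hg, hGL_val])
    rw [this]
    exact hall r hr t ht
  intro g hg
  obtain ⟨k, hk, e⟩ := hle (Subgroup.mem_subgroupOf.1 hg)
  have : k = g := Subtype.ext e
  rw [← this]
  exact hk

/-- **Uniqueness of the Steinberg character** among the irreducible characters of defect zero. -/
theorem chev_st_unique [Fintype F] (p : ℕ) [Fact p.Prime] [CharP F p]
    (hD : D ∈ [chevG2, chevB2, chevD4, chevF4, chevE6, chevE7, chevE8])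
    (χ : ↥(D.group F) → ℂ) (hχ : Cfsg.IsIrrCharacter ↥(D.group F) χ)
    (hdeg : ∃ d : ℕ, χ 1 = (d : ℂ) ∧ p ^ (Nat.card ↥(D.group F)).factorization p ∣ d) :
    χ = D.steinbergCharacter F := by
  classical
  have R := Cfsg.Agent.Helper36.bRel_of_mem (F := F) hD
  haveI : Fintype ↥(D.group F) := Fintype.ofFinite _
  have hSt := Cfsg.Agent.S2311.result (F := F) D hD
  by_contra hne
  have h0 := Cfsg.Agent.Helper75.classInner_irr_of_ne hχ hSt hne
  have hχ' := hχ
  obtain ⟨m, ρ, hρ, rfl⟩ := hχ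
  obtain ⟨d, hd1, hd2⟩ := hdeg
  have hm : m = d := by
    have h := Representation.char_one ρ
    rw [hd1, Module.finrank_fin_fun] at h
    exact_mod_cast h.symm
  subst hm
  have hvan := chev_van p hD ρ hρ hd2
  have hBNB := chev_BNB (F := F) hD
  have hpar := chev_par R
  have hUG : D.posUnipotent F ≤ D.group F := posUnipotent_le_group R.xadd
  have hHG : D.diagonalSubgroup F ≤ D.group F := diagonalSubgroup_le_group R.xadd
  have key := st_abs ((D.posUnipotent F).subgroupOf (D.group F))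
    ((D.diagonalSubgroup F).subgroupOf (D.group F))
    ((D.borelSubgroup F).subgroupOf (D.group F)) D.rank
    (fun i => (Subgroup.closure (upGens D F i)).subgroupOf (D.group F)) (xG R) (nG R) (tau R)
    (hG R) (fun i hi => rk1_chev R hBNB hi)
    (fun b hb u hu => Subgroup.mem_subgroupOf.2
      (chev_BU R b.1 (Subgroup.mem_subgroupOf.1 hb) u.1 (Subgroup.mem_subgroupOf.1 hu)))
    (fun u hu => Subgroup.mem_subgroupOf.2 (BRel.U_le_B D F (Subgroup.mem_subgroupOf.1 hu)))
    (fun u hu => Subgroup.mem_subgroupOf.2 (BRel.H_le_B D F (Subgroup.mem_subgroupOf.1 hu)))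
    (by
      have h1 : (D.borelSubgroup F).subgroupOf (D.group F) =
          (D.posUnipotent F ⊔ D.diagonalSubgroup F).subgroupOf (D.group F) := rfl
      rw [h1, Subgroup.subgroupOf_sup hUG hHG])
    (fun i hi g hg => by
      obtain ⟨σ, hσ⟩ := chev_Hx R hi g.1 (Subgroup.mem_subgroupOf.1 hg)
      exact ⟨σ, fun c => Subtype.ext (hσ c)⟩)
    (fun i hi g hg => Subgroup.mem_subgroupOf.2 (R.n_conj_H hi g.1 (Subgroup.mem_subgroupOf.1 hg)))
    (chev_gen R) (D.parabolicIn F) hpar.1 hpar.2.1 hpar.2.2 ρ hρ hvan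
  have hkey : Cfsg.classInner ρ.character (D.steinbergCharacter F) =
      (Module.finrank ℂ (fixS ρ (((D.posUnipotent F).subgroupOf (D.group F) :
        Subgroup ↥(D.group F)) : Set ↥(D.group F))) : ℂ) := key
  rw [hkey] at h0
  have hd : 0 < m := by
    have h := Cfsg.Agent.Helper81.charDegree_pos (⟨ρ.character, hχ'⟩ : Cfsg.IrrCharacter ↥(D.group F))
    rwa [Cfsg.Agent.Helper80.charDegree_rep_character] at h
  have hA1 := A1 ρ ((D.posUnipotent F).subgroupOf (D.group F)) hvan
  rw [Module.finrank_fin_fun] at hA1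
  have h00 : Module.finrank ℂ (fixS ρ (((D.posUnipotent F).subgroupOf (D.group F) :
        Subgroup ↥(D.group F)) : Set ↥(D.group F))) = 0 := by exact_mod_cast h0
  rw [h00, mul_zero] at hA1
  omega

end Final

end Cfsg.Agent.Helper40.SUMain
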