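import Mathlib
import Cfsg.Agent.Helper40.SemisimpleMat

set_option autoImplicit false

namespace Cfsg.Agent.Helper40

open Polynomial

universe u

section Count

variable {F : Type u} [Field F]

/-- Every monic polynomial of degree `n` is a characteristic polynomial. -/
lemma exists_matrix_charpoly {n : ℕ} (P : F[X]) (hP : P.Monic) (hn : P.natDegree = n) :
    ∃ A : Matrix (Fin n) (Fin n) F, A.charpoly = P := by
  subst hn
  have hne := hP.ne_zero
  refine ⟨(Algebra.leftMulMatrix (AdjoinRoot.powerBasis hne).basis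
    (AdjoinRoot.powerBasis hne).gen : Matrix (Fin P.natDegree) (Fin P.natDegree) F), ?_⟩
  have h1 := charpoly_leftMulMatrix (AdjoinRoot.powerBasis hne)
  rw [AdjoinRoot.minpoly_powerBasis_gen_of_monic hP] at h1
  exact h1

lemma charpoly_pow_card_pow [Fintype F] {n : ℕ} (A : Matrix (Fin n) (Fin n) F) (a : ℕ) :
    (A ^ (Fintype.card F ^ a)).charpoly = A.charpoly := by
  induction a with
  | zero => simp
  | succ a ih => rw [pow_succ, pow_mul, FiniteField.Matrix.charpoly_pow_card, ih]

/-- An invertible matrix over a finite field has a power of order prime to `p` with the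
same characteristic polynomial. -/
lemma exists_pprime_matrix [Fintype F] (p : ℕ) [Fact p.Prime] [CharP F p] {n : ℕ}
    (A : Matrix (Fin n) (Fin n) F) (hA : A.det ≠ 0) :
    ∃ (B : Matrix (Fin n) (Fin n) F) (m : ℕ), m.Coprime p ∧ B ^ m = 1 ∧
      B.charpoly = A.charpoly := by
  classical
  let g : GL (Fin n) F := Matrix.GeneralLinearGroup.mkOfDetNeZero A hA
  have hN : 0 < orderOf g := orderOf_pos g
  have hAN : A ^ orderOf g = 1 := by
    have h1 : g ^ orderOf g = 1 := pow_orderOf_eq_one g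
    have h2 : ((g ^ orderOf g : GL (Fin n) F) : Matrix (Fin n) (Fin n) F) = 1 := by
      rw [h1]
      rfl
    rw [Units.val_pow_eq_pow_val] at h2
    exact h2
  obtain ⟨a, m, hpm, hNeq⟩ :=
    Nat.exists_eq_pow_mul_and_not_dvd hN.ne' p (Nat.Prime.one_lt Fact.out).ne'
  obtain ⟨k, -, hq⟩ := FiniteField.card F p
  refine ⟨A ^ (Fintype.card F ^ a), m, ?_, ?_, charpoly_pow_card_pow A a⟩
  · exact ((Nat.Prime.coprime_iff_not_dvd Fact.out).2 hpm).symm
  · rw [← pow_mul]
    have hdvd : orderOf g ∣ Fintype.card F ^ a * m := by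
      rw [hNeq]
      apply Nat.mul_dvd_mul_right
      apply pow_dvd_pow_of_dvd
      rw [hq]
      exact dvd_pow_self p k.ne_zero
    obtain ⟨t, ht⟩ := hdvd
    rw [ht, pow_mul, hAN, one_pow]

/-- Monic polynomials of degree `n` are given by their lower coefficients. -/
noncomputable def monicCoeffEquiv (n : ℕ) :
    {P : F[X] // P.Monic ∧ P.natDegree = n} ≃ (Fin n → F) :=
  (monicEquivDegreeLT n).trans (degreeLTEquiv F n).toEquiv

lemma monicCoeffEquiv_apply (n : ℕ) (P : {P : F[X] // P.Monic ∧ P.natDegree = n}) (i : Fin n) :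
    monicCoeffEquiv n P i = P.1.coeff i := by
  obtain ⟨P, hP, rfl⟩ := P
  simp only [monicCoeffEquiv, monicEquivDegreeLT, degreeLTEquiv, Equiv.trans_apply,
    Equiv.coe_fn_mk, LinearEquiv.coe_toEquiv, LinearEquiv.coe_mk, LinearMap.coe_mk,
    AddHom.coe_mk]
  rw [eraseLead_coeff_of_ne]
  exact i.2.ne

lemma card_monic_coeff_zero [Fintype F] {n : ℕ} (hn : 1 ≤ n) (pr : F → Prop) :
    Nat.card {P : F[X] // P.Monic ∧ P.natDegree = n ∧ pr (P.coeff 0)} =
      Nat.card {x : F // pr x} * Fintype.card F ^ (n - 1) := by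
  classical
  let i₀ : Fin n := ⟨0, hn⟩
  have e0 : {P : F[X] // P.Monic ∧ P.natDegree = n ∧ pr (P.coeff 0)} ≃
      {Q : {P : F[X] // P.Monic ∧ P.natDegree = n} // pr (Q.1.coeff 0)} :=
    (Equiv.subtypeEquivRight (fun P => by rw [and_assoc])).trans
      (Equiv.subtypeSubtypeEquivSubtypeInter (fun P : F[X] => P.Monic ∧ P.natDegree = n)
        (fun P => pr (P.coeff 0))).symm
  have e1 : {Q : {P : F[X] // P.Monic ∧ P.natDegree = n} // pr (Q.1.coeff 0)} ≃
      {a : Fin n → F // pr (a i₀)} :=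
    Equiv.subtypeEquiv (monicCoeffEquiv n) (fun Q => by rw [monicCoeffEquiv_apply])
  have e2 : {a : Fin n → F // pr (a i₀)} ≃ {x : F // pr x} × ({j : Fin n // j ≠ i₀} → F) :=
    (Equiv.subtypeEquiv (Equiv.funSplitAt i₀ F) (fun a => by
      simp [Equiv.funSplitAt, Equiv.piSplitAt])).trans
      (Equiv.prodSubtypeFstEquivSubtypeProd (p := pr))
  rw [Nat.card_congr ((e0.trans e1).trans e2), Nat.card_prod,
    Nat.card_eq_fintype_card (α := {j : Fin n // j ≠ i₀} → F), Fintype.card_fun,
    Fintype.card_subtype_compl, Fintype.card_subtype_eq, Fintype.card_fin]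

end Count

end Cfsg.Agent.Helper40
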