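import Mathlib

/-!
# Euler characteristic of the lattice of invariant subspaces (helper40, foundation for S2425)

`invEC φ` is the Möbius value `μ(⊥, ⊤)` of the lattice of `φ`-invariant subspaces, as an integer,
defined without any instance arguments beyond `[Finite V]`.
-/

set_option autoImplicit false

namespace Cfsg.Agent.Helper40.StGL

open Polynomial

universe u v

section Def

variable {F : Type u} {V : Type v} [Field F] [AddCommGroup V] [Module F V] [Finite V]

/-- The Möbius value `μ(⊥, ⊤)` of the lattice of `φ`-invariant subspaces. -/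
noncomputable def invEC (φ : Module.End F V) : ℤ := by
  classical
  exact
    letI : Fintype ↥(Module.End.invtSubmodule φ) := Fintype.ofFinite _
    letI : LocallyFiniteOrder ↥(Module.End.invtSubmodule φ) := Fintype.toLocallyFiniteOrder
    IncidenceAlgebra.eulerChar ℤ ↥(Module.End.invtSubmodule φ)

/-- `invEC` does not depend on the instances used to compute it. -/
theorem invEC_eq (φ : Module.End F V) [LocallyFiniteOrder ↥(Module.End.invtSubmodule φ)]
    [DecidableEq ↥(Module.End.invtSubmodule φ)] :
    invEC φ = IncidenceAlgebra.eulerChar ℤ ↥(Module.End.invtSubmodule φ) := by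
  unfold invEC
  congr 1 <;> exact Subsingleton.elim _ _

end Def

section Poset

variable {α : Type*} {β : Type*} [PartialOrder α] [PartialOrder β] [LocallyFiniteOrder α]
  [LocallyFiniteOrder β] [DecidableEq α] [DecidableEq β]

/-- The Möbius function is invariant under order isomorphisms. -/
theorem mu_orderIso (e : α ≃o β) (a b : α) :
    IncidenceAlgebra.mu ℤ (e a) (e b) = IncidenceAlgebra.mu ℤ a b := by
  induction h : (Finset.Icc a b).card using Nat.strong_induction_on generalizing b with
  | _ k ih =>
    rw [IncidenceAlgebra.mu_apply, IncidenceAlgebra.mu_apply (𝕜 := ℤ) a b]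
    by_cases hab : a = b
    · simp [hab]
    · rw [if_neg hab, if_neg (fun h' => hab (e.injective h'))]
      congr 1
      have hmap : Finset.Ico (e a) (e b) = (Finset.Ico a b).map e.toEquiv.toEmbedding := by
        ext y
        simp only [Finset.mem_Ico, Finset.mem_map, Equiv.coe_toEmbedding, RelIso.coe_fn_toEquiv]
        constructor
        · rintro ⟨h1, h2⟩
          refine ⟨e.symm y, ⟨?_, ?_⟩, by simp⟩
          · rw [← e.le_iff_le]; simpa using h1
          · rw [← e.lt_iff_lt]; simpa using h2
        · rintro ⟨x, ⟨h1, h2⟩, rfl⟩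
          exact ⟨e.le_iff_le.mpr h1, e.lt_iff_lt.mpr h2⟩
      rw [hmap, Finset.sum_map]
      apply Finset.sum_congr rfl
      intro x hx
      rw [Finset.mem_Ico] at hx
      simp only [Equiv.coe_toEmbedding, RelIso.coe_fn_toEquiv]
      refine ih _ ?_ x rfl
      rw [← h]
      apply Finset.card_lt_card
      rw [Finset.ssubset_iff_of_subset (Finset.Icc_subset_Icc_right hx.2.le)]
      exact ⟨b, Finset.mem_Icc.mpr ⟨hx.1.trans hx.2.le, le_rfl⟩,
        fun hb => lt_irrefl _ (lt_of_lt_of_le hx.2 (Finset.mem_Icc.mp hb).2)⟩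

/-- The Euler characteristic of a finite bounded order is invariant under order isomorphisms. -/
theorem eulerChar_orderIso [BoundedOrder α] [BoundedOrder β] (e : α ≃o β) :
    IncidenceAlgebra.eulerChar ℤ α = IncidenceAlgebra.eulerChar ℤ β := by
  unfold IncidenceAlgebra.eulerChar
  rw [← mu_orderIso e, map_bot, map_top]

/-- Uniqueness of the Möbius function: a function whose sums over the intervals `[a, b]` are
`1` for `b = a` and `0` otherwise is `μ(a, ·)` on the elements above `a`. -/
theorem mu_unique (a : α) (g : α → ℤ)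
    (hg : ∀ b, a ≤ b → ∑ x ∈ Finset.Icc a b, g x = if a = b then 1 else 0) (b : α) (hab : a ≤ b) :
    g b = IncidenceAlgebra.mu ℤ a b := by
  induction h : (Finset.Icc a b).card using Nat.strong_induction_on generalizing b with
  | _ k ih =>
    have h1 := hg b hab
    have h2 := IncidenceAlgebra.sum_Icc_mu_right (𝕜 := ℤ) a b
    have hsplit : ∀ f : α → ℤ, ∑ x ∈ Finset.Icc a b, f x = ∑ x ∈ Finset.Ico a b, f x + f b := by
      intro f
      rw [← Finset.Ico_insert_right hab, Finset.sum_insert (by simp), add_comm]
    rw [hsplit] at h1 h2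
    have h3 : ∑ x ∈ Finset.Ico a b, g x = ∑ x ∈ Finset.Ico a b, IncidenceAlgebra.mu ℤ a x := by
      apply Finset.sum_congr rfl
      intro x hx
      rw [Finset.mem_Ico] at hx
      refine ih _ ?_ x hx.1 rfl
      rw [← h]
      apply Finset.card_lt_card
      rw [Finset.ssubset_iff_of_subset (Finset.Icc_subset_Icc_right hx.2.le)]
      exact ⟨b, Finset.mem_Icc.mpr ⟨hab, le_rfl⟩,
        fun hb => lt_irrefl _ (lt_of_lt_of_le hx.2 (Finset.mem_Icc.mp hb).2)⟩
    linarith

end Poset

section Iso

variable {F : Type*} {V : Type*} [Field F] [AddCommGroup V] [Module F V] [Finite V]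
variable {F' : Type*} {V' : Type*} [Field F'] [AddCommGroup V'] [Module F' V'] [Finite V']

/-- `invEC` only depends on the isomorphism type of the lattice of invariant subspaces. -/
theorem invEC_orderIso (φ : Module.End F V) (ψ : Module.End F' V')
    (e : ↥(Module.End.invtSubmodule φ) ≃o ↥(Module.End.invtSubmodule ψ)) : invEC φ = invEC ψ := by
  classical
  let _ : Fintype ↥(Module.End.invtSubmodule φ) := Fintype.ofFinite _
  let _ : LocallyFiniteOrder ↥(Module.End.invtSubmodule φ) := Fintype.toLocallyFiniteOrder
  let _ : Fintype ↥(Module.End.invtSubmodule ψ) := Fintype.ofFinite _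
  let _ : LocallyFiniteOrder ↥(Module.End.invtSubmodule ψ) := Fintype.toLocallyFiniteOrder
  rw [invEC_eq φ, invEC_eq ψ]
  exact eulerChar_orderIso e

end Iso

section Hess

variable {R : Type*} [Ring R]

/-- The Hessenberg recursion: `hessD A 0 = 1` and
`hessD A (n+1) = ∑_{c ≤ n} (-1)^c · hessD A (n-c) · A (c+1)`. -/
noncomputable def hessD (A : ℕ → R) : ℕ → R
  | 0 => 1
  | n + 1 => ∑ c : Fin (n + 1), (-1 : R) ^ (c : ℕ) * (hessD A (n - c) * A (c + 1))
termination_by n => n
decreasing_by omega

theorem hessD_zero (A : ℕ → R) : hessD A 0 = 1 := by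
  rw [hessD]

theorem hessD_succ (A : ℕ → R) (n : ℕ) :
    hessD A (n + 1) = ∑ c : Fin (n + 1), (-1 : R) ^ (c : ℕ) * (hessD A (n - c) * A (c + 1)) := by
  rw [hessD]

end Hess

end Cfsg.Agent.Helper40.StGL
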