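import Mathlib
import Cfsg.Prelude.Def_LinearParabolics
import Cfsg.Agent.Helper40.Parabolic
import Cfsg.Agent.Helper40.StGLBase

/-!
# Cosets of parabolic subgroups of `GL_n` and flags (helper40, for S2425)
-/

set_option autoImplicit false

namespace Cfsg.Agent.Helper40.StGL

open scoped MatrixGroups
open Finset Cfsg.Agent.Helper40

section Std

variable (F : Type*) [Field F] (n : ℕ)

/-- The span of the first `d` coordinate vectors of `F^n`. -/
def stdSub (d : ℕ) : Submodule F (Fin n → F) :=
  Submodule.span F ((fun i : Fin n => (Pi.single i 1 : Fin n → F)) '' {i : Fin n | i.val < d})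

variable {F n}

theorem mem_stdSub {d : ℕ} {v : Fin n → F} :
    v ∈ stdSub F n d ↔ ∀ i : Fin n, d ≤ i.val → v i = 0 := by
  constructor
  · intro hv
    unfold stdSub at hv
    induction hv using Submodule.span_induction with
    | mem x hx =>
      obtain ⟨j, hj, rfl⟩ := hx
      intro i hi
      have hij : i ≠ j := by
        intro h
        rw [h] at hi
        exact absurd hj (by simpa using hi)
      simp [Pi.single_apply, hij]
    | zero => intro i _; rfl
    | add x y _ _ hx hy =>
      intro i hi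
      simp [hx i hi, hy i hi]
    | smul a x _ hx =>
      intro i hi
      simp [hx i hi]
  · intro hv
    have h : v = ∑ i : Fin n, v i • (Pi.single i 1 : Fin n → F) := by
      funext j
      simp [Finset.sum_apply, Pi.single_apply]
    rw [h]
    apply Submodule.sum_mem
    intro i _
    by_cases hi : i.val < d
    · exact Submodule.smul_mem _ _ (Submodule.subset_span ⟨i, hi, rfl⟩)
    · rw [hv i (not_lt.mp hi), zero_smul]
      exact Submodule.zero_mem _

theorem single_mem_stdSub {d : ℕ} (j : Fin n) (hj : j.val < d) :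
    (Pi.single j 1 : Fin n → F) ∈ stdSub F n d :=
  Submodule.subset_span ⟨j, hj, rfl⟩

/-- `p` maps the `d`-th standard subspace into itself iff its lower left block vanishes. -/
theorem map_stdSub_le_iff (p : Matrix (Fin n) (Fin n) F) (d : ℕ) :
    (stdSub F n d).map (Matrix.toLin' p) ≤ stdSub F n d ↔
      ∀ i j : Fin n, d ≤ i.val → j.val < d → p i j = 0 := by
  constructor
  · intro h i j hi hj
    have h1 : Matrix.toLin' p (Pi.single j 1) ∈ stdSub F n d :=
      h (Submodule.mem_map_of_mem (single_mem_stdSub j hj))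
    have h2 := mem_stdSub.mp h1 i hi
    rw [Matrix.toLin'_apply, Matrix.mulVec_single_one] at h2
    exact h2
  · intro h v hv
    obtain ⟨u, hu, rfl⟩ := Submodule.mem_map.mp hv
    rw [mem_stdSub] at hu ⊢
    intro i hi
    rw [Matrix.toLin'_apply, Matrix.mulVec, dotProduct]
    apply Finset.sum_eq_zero
    intro j _
    by_cases hj : j.val < d
    · rw [h i j hi hj, zero_mul]
    · rw [hu j (not_lt.mp hj), mul_zero]

theorem finrank_stdSub {d : ℕ} (hd : d ≤ n) : Module.finrank F (stdSub F n d) = d := by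
  classical
  have hli : LinearIndependent F (fun i : {i : Fin n // i.val < d} =>
      (Pi.single i.1 1 : Fin n → F)) := by
    have h := (Pi.basisFun F (Fin n)).linearIndependent
    have h2 := h.comp (fun i : {i : Fin n // i.val < d} => i.1) Subtype.val_injective
    convert h2 using 1
    funext i
    simp [Pi.basisFun_apply]
  have hrange : Set.range (fun i : {i : Fin n // i.val < d} => (Pi.single i.1 1 : Fin n → F)) =
      (fun i : Fin n => (Pi.single i 1 : Fin n → F)) '' {i : Fin n | i.val < d} := by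
    ext v
    constructor
    · rintro ⟨⟨i, hi⟩, rfl⟩
      exact ⟨i, hi, rfl⟩
    · rintro ⟨i, hi, rfl⟩
      exact ⟨⟨i, hi⟩, rfl⟩
  unfold stdSub
  rw [← hrange, finrank_span_eq_card hli]
  rw [Fintype.card_subtype]
  have : (Finset.univ.filter fun i : Fin n => i.val < d) = (Finset.univ : Finset (Fin n)).filter
      (fun i => i.val < d) := rfl
  rw [Fin.card_filter_val_lt, min_eq_right hd]

end Std

section Para

variable {F : Type*} [Field F] {n : ℕ} (μ : Fin n → ℕ)

theorem label_lt_iff (hμ : ∑ i, μ i = n) (j : Fin n) (a : ℕ) :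
    Cfsg.compLabel μ j < a ↔ j.val < psum μ a := by
  obtain ⟨_, h2, h3⟩ := label_spec μ hμ j
  constructor
  · intro h
    exact lt_of_lt_of_le h3 (psum_mono μ h)
  · intro h
    by_contra hc
    have := psum_mono μ (not_lt.mp hc)
    omega

/-- The linear map of an invertible matrix. -/
noncomputable def glLin (g : GL (Fin n) F) : (Fin n → F) →ₗ[F] (Fin n → F) :=
  Matrix.toLin' (g : Matrix (Fin n) (Fin n) F)

theorem glLin_mul (g h : GL (Fin n) F) : glLin (g * h) = glLin g ∘ₗ glLin h := by
  unfold glLin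
  rw [Units.val_mul, Matrix.toLin'_mul]

theorem glLin_one : glLin (1 : GL (Fin n) F) = LinearMap.id := by
  unfold glLin
  rw [Units.val_one, Matrix.toLin'_one]

theorem map_glLin_mul (g h : GL (Fin n) F) (E : Submodule F (Fin n → F)) :
    E.map (glLin (g * h)) = (E.map (glLin h)).map (glLin g) := by
  rw [glLin_mul, Submodule.map_comp]

theorem map_glLin_inv_cancel (g : GL (Fin n) F) (E : Submodule F (Fin n → F)) :
    (E.map (glLin g)).map (glLin g⁻¹) = E := by
  rw [← map_glLin_mul, inv_mul_cancel, glLin_one, Submodule.map_id]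

theorem map_glLin_cancel_inv (g : GL (Fin n) F) (E : Submodule F (Fin n → F)) :
    (E.map (glLin g⁻¹)).map (glLin g) = E := by
  rw [← map_glLin_mul, mul_inv_cancel, glLin_one, Submodule.map_id]

/-- A matrix lies in the parabolic subgroup iff it maps each standard subspace of the flag into
itself. -/
theorem mem_parabolic_iff (hμ : ∑ i, μ i = n) (p : GL (Fin n) F) :
    p ∈ Cfsg.parabolicGL n F μ ↔
      ∀ a : ℕ, (stdSub F n (psum μ a)).map (glLin p) ≤ stdSub F n (psum μ a) := by
  have hmem : p ∈ Cfsg.parabolicGL n F μ ↔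
      (p : Matrix (Fin n) (Fin n) F).BlockTriangular (Cfsg.compLabel μ) := Iff.rfl
  rw [hmem]
  unfold glLin
  simp only [map_stdSub_le_iff]
  constructor
  · intro h a i j hi hj
    apply h
    have h1 : Cfsg.compLabel μ j < a := (label_lt_iff μ hμ j a).mpr hj
    have h2 : ¬ Cfsg.compLabel μ i < a := fun hc =>
      absurd ((label_lt_iff μ hμ i a).mp hc) (not_lt.mpr hi)
    omega
  · intro h i j hij
    apply h (Cfsg.compLabel μ j + 1) i j
    · by_contra hc
      have := (label_lt_iff μ hμ i (Cfsg.compLabel μ j + 1)).mpr (not_le.mp hc)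
      omega
    · exact (label_lt_iff μ hμ j (Cfsg.compLabel μ j + 1)).mp (Nat.lt_succ_self _)

theorem map_eq_of_mem_parabolic (hμ : ∑ i, μ i = n) {p : GL (Fin n) F}
    (hp : p ∈ Cfsg.parabolicGL n F μ) (a : ℕ) :
    (stdSub F n (psum μ a)).map (glLin p) = stdSub F n (psum μ a) := by
  apply le_antisymm ((mem_parabolic_iff μ hμ p).mp hp a)
  have h := (mem_parabolic_iff μ hμ p⁻¹).mp (inv_mem hp) a
  have h2 := Submodule.map_mono (f := glLin p) h
  rwa [map_glLin_cancel_inv] at h2

/-- The flag attached to `g`: the images of the standard subspaces. -/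
noncomputable def flagOf (g : GL (Fin n) F) (a : ℕ) : Submodule F (Fin n → F) :=
  (stdSub F n (psum μ a)).map (glLin g)

theorem flagOf_mul_of_mem (hμ : ∑ i, μ i = n) (g : GL (Fin n) F) {p : GL (Fin n) F}
    (hp : p ∈ Cfsg.parabolicGL n F μ) : flagOf μ (g * p) = flagOf μ g := by
  funext a
  unfold flagOf
  rw [map_glLin_mul, map_eq_of_mem_parabolic μ hμ hp]

theorem inv_mul_mem_of_flagOf_eq (hμ : ∑ i, μ i = n) {g h : GL (Fin n) F}
    (hgh : flagOf μ g = flagOf μ h) : g⁻¹ * h ∈ Cfsg.parabolicGL n F μ := by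
  rw [mem_parabolic_iff μ hμ]
  intro a
  have h1 := congrFun hgh a
  unfold flagOf at h1
  rw [map_glLin_mul, ← h1, map_glLin_inv_cancel]

theorem conj_mem_parabolic_iff (hμ : ∑ i, μ i = n) (x g : GL (Fin n) F) :
    g⁻¹ * x * g ∈ Cfsg.parabolicGL n F μ ↔
      ∀ a : ℕ, flagOf μ g a ∈ Module.End.invtSubmodule (glLin x) := by
  rw [mem_parabolic_iff μ hμ]
  apply forall_congr'
  intro a
  rw [Module.End.mem_invtSubmodule_iff_map_le]
  unfold flagOf
  constructor
  · intro h
    have h2 := Submodule.map_mono (f := glLin g) h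
    rw [← map_glLin_mul] at h2
    have e : g * (g⁻¹ * x * g) = x * g := by group
    rw [e, map_glLin_mul] at h2
    exact h2
  · intro h
    have h2 := Submodule.map_mono (f := glLin g⁻¹) h
    rw [map_glLin_inv_cancel, ← map_glLin_mul, ← map_glLin_mul] at h2
    have e : g⁻¹ * (x * g) = g⁻¹ * x * g := by group
    first
      | exact h2
      | (rw [e] at h2; exact h2)

theorem flagOf_finrank (g : GL (Fin n) F) (a : ℕ) (ha : psum μ a ≤ n) :
    Module.finrank F (flagOf μ g a) = psum μ a := by
  unfold flagOf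
  have hinj : Function.Injective (glLin g) := by
    intro u v huv
    have := congrArg (glLin g⁻¹) huv
    have e : ∀ w, glLin g⁻¹ (glLin g w) = w := by
      intro w
      have := congrFun (congrArg DFunLike.coe (glLin_mul g⁻¹ g)) w
      rw [inv_mul_cancel, glLin_one] at this
      simpa using this.symm
    rwa [e, e] at this
  rw [LinearEquiv.finrank_eq (Submodule.equivMapOfInjective (glLin g) hinj _).symm]
  exact finrank_stdSub ha

theorem flagOf_mono (g : GL (Fin n) F) : Monotone (flagOf μ g) := by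
  intro a b hab
  unfold flagOf
  apply Submodule.map_mono
  intro v hv
  rw [mem_stdSub] at hv ⊢
  intro i hi
  exact hv i (le_trans (psum_mono μ hab) hi)

theorem psum_min (a : ℕ) : psum μ (min a n) = psum μ a := by
  unfold psum
  apply Finset.sum_congr rfl
  intro k _
  have hk := k.2
  by_cases h : k.val < a
  · have h2 : k.val < min a n := lt_min h hk
    simp [h, h2]
  · have h2 : ¬ k.val < min a n := fun hc => h (lt_of_lt_of_le hc (min_le_left _ _))
    simp [h, h2]

theorem psum_le (hμ : ∑ i, μ i = n) (a : ℕ) : psum μ a ≤ n := by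
  rw [← psum_min]
  calc psum μ (min a n) ≤ psum μ n := psum_mono μ (min_le_right _ _)
    _ = n := by rw [psum_top, hμ]

theorem flagOf_min (g : GL (Fin n) F) (a : ℕ) : flagOf μ g (min a n) = flagOf μ g a := by
  unfold flagOf
  rw [psum_min]

end Para

section Coset

variable {F : Type*} [Field F] {n : ℕ} (μ : Fin n → ℕ) (x : GL (Fin n) F)

/-- `W` is obtained from `U` by adding `k` dimensions. -/
def IsStep (k : ℕ) (U W : Submodule F (Fin n → F)) : Prop :=
  U ≤ W ∧ Module.finrank F W = Module.finrank F U + k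

/-- Chains of `x`-invariant subspaces from `⊥` to `⊤` with dimension jumps `μ`. -/
def FlagSeq : Set (Fin (n + 1) → ↥(Module.End.invtSubmodule (glLin x))) :=
  {w | (w 0 : Submodule F (Fin n → F)) = ⊥ ∧ (w (Fin.last n) : Submodule F (Fin n → F)) = ⊤ ∧
    ∀ i : Fin n, IsStep (μ i) (w i.castSucc).1 (w i.succ).1}

theorem flagSeq_finrank {w : Fin (n + 1) → ↥(Module.End.invtSubmodule (glLin x))}
    (hw : w ∈ FlagSeq μ x) (a : Fin (n + 1)) :
    Module.finrank F (w a : Submodule F (Fin n → F)) = psum μ a.val := by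
  induction a using Fin.induction with
  | zero =>
    rw [hw.1, finrank_bot, Fin.val_zero, psum_zero]
  | succ i ih =>
    rw [(hw.2.2 i).2, ih, Fin.val_succ, Fin.val_castSucc, psum_succ]

theorem flagSeq_mono {w : Fin (n + 1) → ↥(Module.End.invtSubmodule (glLin x))}
    (hw : w ∈ FlagSeq μ x) : Monotone w := by
  rw [Fin.monotone_iff_le_succ]
  intro i
  exact (hw.2.2 i).1

/-- The number of cosets of the parabolic subgroup fixed by `x` is the number of `x`-invariant
flags of the corresponding type. -/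
theorem card_fixedBy_eq (hμ : ∑ i, μ i = n)
    (hA : ∀ W : ℕ → Submodule F (Fin n → F), Monotone W →
      ∃ g : GL (Fin n) F, ∀ a, W a = (stdSub F n (Module.finrank F (W a))).map (glLin g)) :
    Nat.card (MulAction.fixedBy (GL (Fin n) F ⧸ Cfsg.parabolicGL n F μ) x) =
      Nat.card (FlagSeq μ x) := by
  have hfix : ∀ g : GL (Fin n) F,
      x • (g : GL (Fin n) F ⧸ Cfsg.parabolicGL n F μ) = g ↔
        ∀ a : ℕ, flagOf μ g a ∈ Module.End.invtSubmodule (glLin x) := by
    intro g
    rw [← conj_mem_parabolic_iff μ hμ]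
    have h1 : x • (g : GL (Fin n) F ⧸ Cfsg.parabolicGL n F μ) =
        ((x * g : GL (Fin n) F) : GL (Fin n) F ⧸ Cfsg.parabolicGL n F μ) := rfl
    rw [h1, eq_comm, QuotientGroup.eq, mul_assoc]
  have hseq : ∀ g : GL (Fin n) F, ∀ hg : ∀ a : ℕ, flagOf μ g a ∈ Module.End.invtSubmodule (glLin x),
      (fun a : Fin (n + 1) => (⟨flagOf μ g a.val, hg a.val⟩ :
        ↥(Module.End.invtSubmodule (glLin x)))) ∈ FlagSeq μ x := by
    intro g hg
    refine ⟨?_, ?_, ?_⟩
    · change flagOf μ g ((0 : Fin (n + 1)) : ℕ) = ⊥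
      rw [← Submodule.finrank_eq_zero, flagOf_finrank μ g _ (psum_le μ hμ _), Fin.val_zero,
        psum_zero]
    · change flagOf μ g ((Fin.last n : Fin (n + 1)) : ℕ) = ⊤
      apply Submodule.eq_top_of_finrank_eq
      rw [flagOf_finrank μ g _ (psum_le μ hμ _), Fin.val_last, psum_top, hμ]
      simp
    · intro i
      refine ⟨flagOf_mono μ g (by simp), ?_⟩
      change Module.finrank F (flagOf μ g (i.succ : Fin (n + 1)).val) =
        Module.finrank F (flagOf μ g (i.castSucc : Fin (n + 1)).val) + μ i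
      rw [flagOf_finrank μ g _ (psum_le μ hμ _), flagOf_finrank μ g _ (psum_le μ hμ _),
        Fin.val_succ, Fin.val_castSucc, psum_succ]
  have hout : ∀ c : MulAction.fixedBy (GL (Fin n) F ⧸ Cfsg.parabolicGL n F μ) x,
      ∀ a : ℕ, flagOf μ (Quotient.out c.1) a ∈ Module.End.invtSubmodule (glLin x) := by
    intro c
    rw [← hfix]
    have h1 : ((Quotient.out c.1 : GL (Fin n) F) : GL (Fin n) F ⧸ Cfsg.parabolicGL n F μ) = c.1 :=
      QuotientGroup.out_eq' c.1
    rw [h1]
    exact c.2
  let Φ : MulAction.fixedBy (GL (Fin n) F ⧸ Cfsg.parabolicGL n F μ) x → FlagSeq μ x :=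
    fun c => ⟨fun a : Fin (n + 1) => ⟨flagOf μ (Quotient.out c.1) a.val, hout c a.val⟩,
      hseq _ (hout c)⟩
  have hinj : Function.Injective Φ := by
    intro c c' hcc
    have h1 : ∀ a : Fin (n + 1), flagOf μ (Quotient.out c.1) a.val =
        flagOf μ (Quotient.out c'.1) a.val := by
      intro a
      have h2 := congrFun (congrArg Subtype.val hcc) a
      exact congrArg Subtype.val h2
    have h3 : flagOf μ (Quotient.out c.1) = flagOf μ (Quotient.out c'.1) := by
      funext a
      rw [← flagOf_min μ _ a, ← flagOf_min μ (Quotient.out c'.1) a]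
      exact h1 ⟨min a n, Nat.lt_succ_of_le (min_le_right _ _)⟩
    have h4 := inv_mul_mem_of_flagOf_eq μ hμ h3
    apply Subtype.ext
    rw [← QuotientGroup.out_eq' c.1, ← QuotientGroup.out_eq' c'.1]
    exact QuotientGroup.eq.mpr h4
  have hsurj : Function.Surjective Φ := by
    rintro ⟨w, hw⟩
    let W : ℕ → Submodule F (Fin n → F) :=
      fun a => (w ⟨min a n, Nat.lt_succ_of_le (min_le_right _ _)⟩).1
    have hWmono : Monotone W := by
      intro a b hab
      have : (⟨min a n, Nat.lt_succ_of_le (min_le_right _ _)⟩ : Fin (n + 1)) ≤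
          ⟨min b n, Nat.lt_succ_of_le (min_le_right _ _)⟩ := by
        rw [Fin.mk_le_mk]
        exact min_le_min hab le_rfl
      exact flagSeq_mono μ x hw this
    obtain ⟨g, hg⟩ := hA W hWmono
    have hWg : ∀ a : ℕ, W a = flagOf μ g a := by
      intro a
      rw [hg a]
      have : Module.finrank F (W a) = psum μ a := by
        change Module.finrank F
          (w ⟨min a n, Nat.lt_succ_of_le (min_le_right _ _)⟩ : Submodule F (Fin n → F)) = _
        rw [flagSeq_finrank μ x hw, psum_min]
      rw [this]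
      rfl
    have hginv : ∀ a : ℕ, flagOf μ g a ∈ Module.End.invtSubmodule (glLin x) := by
      intro a
      rw [← hWg a]
      exact (w ⟨min a n, Nat.lt_succ_of_le (min_le_right _ _)⟩).2
    have hc : (g : GL (Fin n) F ⧸ Cfsg.parabolicGL n F μ) ∈
        MulAction.fixedBy (GL (Fin n) F ⧸ Cfsg.parabolicGL n F μ) x := (hfix g).mpr hginv
    refine ⟨⟨(g : GL (Fin n) F ⧸ Cfsg.parabolicGL n F μ), hc⟩, ?_⟩
    apply Subtype.ext
    funext a
    apply Subtype.ext
    change flagOf μ (Quotient.out (g : GL (Fin n) F ⧸ Cfsg.parabolicGL n F μ)) a.val = (w a).1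
    obtain ⟨p, hp⟩ := QuotientGroup.mk_out_eq_mul (Cfsg.parabolicGL n F μ) g
    have hp' : Quotient.out (g : GL (Fin n) F ⧸ Cfsg.parabolicGL n F μ) = g * p := hp
    rw [hp', flagOf_mul_of_mem μ hμ g p.2, ← hWg]
    change (w ⟨min a.val n, _⟩).1 = (w a).1
    congr 2
    apply Fin.ext
    exact min_eq_left (Nat.lt_succ_iff.mp a.2)
  exact Nat.card_congr (Equiv.ofBijective Φ ⟨hinj, hsurj⟩)

end Coset

end Cfsg.Agent.Helper40.StGL
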