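import Mathlib
import Cfsg.Agent.Helper40.StGLBase

set_option autoImplicit false

namespace Cfsg.Agent.Helper40.StGL

open Equiv

/-- decomposition of a permutation of `Fin (n+1)` by the image of the last point -/
noncomputable def decompLast (n : ℕ) : Perm (Fin (n+1)) ≃ Fin (n+1) × Perm (Fin n) :=
  (Equiv.permCongr finSuccEquivLast).trans
    (Equiv.Perm.decomposeOption.trans (Equiv.prodCongr finSuccEquivLast.symm (Equiv.refl _)))

theorem decompLast_symm_last (n : ℕ) (p : Fin (n+1)) (σ : Perm (Fin n)) :
    (decompLast n).symm (p, σ) (Fin.last n) = p := by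
  simp [decompLast, Equiv.Perm.decomposeOption]

theorem decompLast_symm_castSucc (n : ℕ) (p : Fin (n+1)) (σ : Perm (Fin n)) (j : Fin n) :
    (decompLast n).symm (p, σ) (Fin.castSucc j) =
      if Fin.castSucc (σ j) = p then Fin.last n else Fin.castSucc (σ j) := by
  have h : (some (σ j) = finSuccEquivLast p) ↔ ((σ j).castSucc = p) := by
    rw [← finSuccEquivLast_castSucc]; exact finSuccEquivLast.apply_eq_iff_eq
  simp only [decompLast, Equiv.Perm.decomposeOption]
  simp [Equiv.swap_apply_def, h]
  split_ifs <;> simp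

theorem decompLast_symm_sign (n : ℕ) (p : Fin (n+1)) (σ : Perm (Fin n)) :
    Perm.sign ((decompLast n).symm (p, σ)) = (if p = Fin.last n then 1 else -1) * Perm.sign σ := by
  have h : (none = finSuccEquivLast p) ↔ (p = Fin.last n) := by
    rw [← finSuccEquivLast_last, eq_comm]; exact finSuccEquivLast.apply_eq_iff_eq
  simp [decompLast, Equiv.Perm.decomposeOption, h]

variable {R : Type*} [Ring R]

/-- shifted Hessenberg sum -/
noncomputable def hessW (A : ℕ → R) (n s : ℕ) : R :=
  ∑ κ : Perm (Fin n), (if ∀ i : Fin n, (κ i).val ≤ 1 + i.val then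
    ((Perm.sign κ : ℤ) : R) * (List.ofFn fun i : Fin n =>
      A (1 + i.val - (κ i).val + (if i.val + 1 = n then s else 0))).prod else 0)

theorem hessW_zero (A : ℕ → R) (s : ℕ) : hessW A 0 s = 1 := by
  simp [hessW]

theorem hessW_one (A : ℕ → R) (s : ℕ) : hessW A 1 s = A (1 + s) := by
  simp [hessW]

theorem hessW_aux_hess_last (m : ℕ) (σ : Perm (Fin (m+1))) :
    (∀ i : Fin (m+2), ((decompLast (m+1)).symm (Fin.last (m+1), σ) i).val ≤ 1 + i.val) ↔
      ∀ j : Fin (m+1), (σ j).val ≤ 1 + j.val := by
  rw [Fin.forall_fin_succ']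
  simp [decompLast_symm_last, decompLast_symm_castSucc, Fin.castSucc_ne_last]

theorem hessW_aux_hess_cast (m : ℕ) (σ : Perm (Fin (m+1))) (b : Fin (m+1)) :
    (∀ i : Fin (m+2), ((decompLast (m+1)).symm (Fin.castSucc b, σ) i).val ≤ 1 + i.val) ↔
      (b = σ (Fin.last m) ∧ ∀ j : Fin (m+1), (σ j).val ≤ 1 + j.val) := by
  rw [Fin.forall_fin_succ']
  simp only [decompLast_symm_last, decompLast_symm_castSucc, Fin.castSucc_inj]
  constructor
  · rintro ⟨h, -⟩
    have hb : b = σ (Fin.last m) := by
      have h1 := h (σ.symm b)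
      simp only [Equiv.apply_symm_apply, if_true, Fin.val_last, Fin.val_castSucc] at h1
      have h2 : σ.symm b = Fin.last m := by
        apply Fin.ext
        have := (σ.symm b).isLt
        simp only [Fin.val_last]
        omega
      rw [← h2]; simp
    refine ⟨hb, fun j => ?_⟩
    have h1 := h j
    split_ifs at h1 with h3
    · have := (σ j).isLt
      have h4 : j = Fin.last m := σ.injective (h3.trans hb)
      rw [h4]
      have := (σ (Fin.last m)).isLt
      simp only [Fin.val_last]
      omega
    · simpa using h1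
  · rintro ⟨rfl, h⟩
    refine ⟨fun j => ?_, ?_⟩
    · split_ifs with h1
      · have : j = Fin.last m := σ.injective h1
        subst this; simp
      · simpa using h j
    · have := (σ (Fin.last m)).isLt
      simp only [Fin.val_last, Fin.val_castSucc]
      omega

theorem hessW_aux_prod_last (A : ℕ → R) (m s : ℕ) (σ : Perm (Fin (m+1))) :
    (List.ofFn fun i : Fin (m+2) => A (1 + i.val -
        ((decompLast (m+1)).symm (Fin.last (m+1), σ) i).val +
        (if i.val + 1 = m + 2 then s else 0))).prod
    = (List.ofFn fun i : Fin (m+1) => A (1 + i.val - (σ i).val +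
        (if i.val + 1 = m + 1 then 0 else 0))).prod * A (1 + s) := by
  rw [List.ofFn_succ', List.concat_eq_append, List.prod_append, List.prod_singleton]
  congr 1
  · congr 2
    funext j
    have := j.isLt
    simp only [decompLast_symm_castSucc, Fin.castSucc_ne_last, if_false, Fin.val_castSucc]
    rw [if_neg (by omega), ite_self]
  · simp [decompLast_symm_last]

theorem hessW_aux_prod_cast (A : ℕ → R) (hA : A 0 = 1) (m s : ℕ) (σ : Perm (Fin (m+1))) :
    (List.ofFn fun i : Fin (m+2) => A (1 + i.val -
        ((decompLast (m+1)).symm (Fin.castSucc (σ (Fin.last m)), σ) i).val +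
        (if i.val + 1 = m + 2 then s else 0))).prod
    = (List.ofFn fun i : Fin (m+1) => A (1 + i.val - (σ i).val +
        (if i.val + 1 = m + 1 then s + 1 else 0))).prod := by
  rw [List.ofFn_succ', List.concat_eq_append, List.prod_append, List.prod_singleton]
  rw [List.ofFn_succ', List.concat_eq_append, List.prod_append, List.prod_singleton]
  conv_rhs => rw [List.ofFn_succ', List.concat_eq_append, List.prod_append, List.prod_singleton]
  simp only [decompLast_symm_castSucc, decompLast_symm_last, Fin.castSucc_inj,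
    EmbeddingLike.apply_eq_iff_eq]
  have h1 : ∀ i : Fin m, (i.castSucc = Fin.last m) = False :=
    fun i => eq_false (Fin.castSucc_ne_last i)
  have hl := (σ (Fin.last m)).isLt
  simp only [h1, if_false, if_true, Fin.val_castSucc, Fin.val_last]
  have e3 : 1 + (m + 1) - (σ (Fin.last m)).val + s = 1 + m - (σ (Fin.last m)).val + (s + 1) := by
    omega
  have e2 : 1 + m - (m + 1) + (if m + 1 = m + 2 then s else 0) = 0 := by
    rw [if_neg (by omega)]; omega
  rw [e2, e3, hA, mul_one]
  congr 3
  funext i
  have := i.isLt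
  rw [if_neg (by omega), if_neg (by omega)]

theorem hessW_succ_succ (A : ℕ → R) (hA : A 0 = 1) (m s : ℕ) :
    hessW A (m+2) s = hessW A (m+1) 0 * A (1+s) - hessW A (m+1) (s+1) := by
  unfold hessW
  rw [← Equiv.sum_comp (decompLast (m+1)).symm, Fintype.sum_prod_type, Finset.sum_comm,
    Finset.sum_mul, ← Finset.sum_sub_distrib]
  refine Finset.sum_congr rfl fun σ _ => ?_
  rw [Fin.sum_univ_castSucc, Finset.sum_eq_single (σ (Fin.last m))]
  rotate_left
  · intro b _ hb
    rw [if_neg]
    rw [hessW_aux_hess_cast]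
    tauto
  · simp
  simp only [hessW_aux_hess_cast, hessW_aux_hess_last, true_and]
  by_cases hσ : ∀ j : Fin (m+1), (σ j).val ≤ 1 + j.val
  · simp only [if_pos hσ]
    rw [decompLast_symm_sign, decompLast_symm_sign, hessW_aux_prod_last,
      hessW_aux_prod_cast A hA]
    simp [Fin.castSucc_ne_last, mul_assoc, sub_eq_add_neg, add_comm]
  · simp [hσ]

theorem hessW_expand (A : ℕ → R) (hA : A 0 = 1) (n : ℕ) : ∀ s : ℕ,
    hessW A (n+1) s = ∑ c : Fin (n+1), (-1 : R)^(c:ℕ) * (hessW A (n - c) 0 * A (1 + s + c)) := by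
  induction n with
  | zero => intro s; simp [hessW_one, hessW_zero]
  | succ n ih =>
    intro s
    rw [hessW_succ_succ A hA, ih (s+1)]
    conv_rhs => rw [Fin.sum_univ_succ]
    simp only [Fin.val_zero, pow_zero, one_mul, Nat.sub_zero, add_zero, Fin.val_succ, pow_succ,
      Nat.add_sub_add_right, mul_neg, mul_one, neg_mul, Finset.sum_neg_distrib, sub_eq_add_neg]
    congr 2
    refine Finset.sum_congr rfl fun c _ => ?_
    congr 3
    omega

theorem hessW_eq_hessD (A : ℕ → R) (hA : A 0 = 1) (n : ℕ) : hessW A n 0 = hessD A n := by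
  induction n using Nat.strong_induction_on with
  | _ n ih =>
    cases n with
    | zero => rw [hessW_zero, hessD_zero]
    | succ n =>
      rw [hessW_expand A hA, hessD_succ]
      refine Finset.sum_congr rfl fun c _ => ?_
      rw [ih (n - c) (by omega)]
      congr 3
      omega

/-- PIECE H -/
theorem hess_expand (A : ℕ → R) (hA : A 0 = 1) (n : ℕ) :
    ∑ κ : Equiv.Perm (Fin n), (if ∀ i : Fin n, (κ i).val ≤ 1 + i.val then
        ((Equiv.Perm.sign κ : ℤ) : R) * (List.ofFn fun i : Fin n => A (1 + i.val - (κ i).val)).prod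
      else 0) = hessD A n := by
  rw [← hessW_eq_hessD A hA]
  simp [hessW]

end Cfsg.Agent.Helper40.StGL
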