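import Mathlib
import Cfsg.Agent.Helper40.StGLFlag
import Cfsg.Agent.Helper40.Unipotent

/-!
# The Steinberg character of `GL_n` and the Möbius function of the lattice of invariant
subspaces (helper40, for S2425)
-/

set_option autoImplicit false

namespace Cfsg.Agent.Helper40.StGL

open scoped MatrixGroups
open Finset Cfsg.Agent.Helper40 Classical

section Mobius

variable {F : Type*} [Field F] [Finite F] {n : ℕ}

noncomputable local instance invtFintype (x : GL (Fin n) F) :
    Fintype ↥(Module.End.invtSubmodule (glLin x)) := Fintype.ofFinite _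

noncomputable local instance invtLFO (x : GL (Fin n) F) :
    LocallyFiniteOrder ↥(Module.End.invtSubmodule (glLin x)) := Fintype.toLocallyFiniteOrder

variable (x : GL (Fin n) F)

/-- The matrix of the relation "`W` contains `U` with codimension `k`" on invariant subspaces. -/
noncomputable def stepMat (k : ℕ) :
    Matrix ↥(Module.End.invtSubmodule (glLin x)) ↥(Module.End.invtSubmodule (glLin x)) ℤ :=
  Matrix.of fun U W => if IsStep k U.1 W.1 then 1 else 0

theorem stepMat_apply (k : ℕ) (U W : ↥(Module.End.invtSubmodule (glLin x))) :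
    stepMat x k U W = if IsStep k U.1 W.1 then 1 else 0 := rfl

theorem stepMat_zero : stepMat x 0 = 1 := by
  ext U W
  rw [stepMat_apply, Matrix.one_apply]
  by_cases h : U = W
  · subst h
    rw [if_pos rfl, if_pos]
    exact ⟨le_rfl, rfl⟩
  · rw [if_neg h, if_neg]
    rintro ⟨h1, h2⟩
    apply h
    apply Subtype.ext
    exact Submodule.eq_of_le_of_finrank_eq h1 (by omega)

/-- homogeneity of the Hessenberg recursion -/
theorem hessD_homogeneous (m : ℕ) : ∀ U W : ↥(Module.End.invtSubmodule (glLin x)),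
    hessD (stepMat x) m U W ≠ 0 →
      Module.finrank F (W : Submodule F (Fin n → F)) =
        Module.finrank F (U : Submodule F (Fin n → F)) + m := by
  induction m using Nat.strong_induction_on with
  | _ m ih =>
    intro U W h
    rcases m with _ | m
    · rw [hessD_zero, Matrix.one_apply] at h
      by_cases hUW : U = W
      · rw [hUW]; rfl
      · rw [if_neg hUW] at h
        exact absurd rfl h
    · rw [hessD_succ, Matrix.sum_apply] at h
      obtain ⟨c, _, hc⟩ := Finset.exists_ne_zero_of_sum_ne_zero h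
      have e1 : (-1 : Matrix ↥(Module.End.invtSubmodule (glLin x))
          ↥(Module.End.invtSubmodule (glLin x)) ℤ) ^ (c : ℕ) *
          (hessD (stepMat x) (m - c) * stepMat x (c + 1)) =
          ((-1 : ℤ) ^ (c : ℕ)) • (hessD (stepMat x) (m - c) * stepMat x (c + 1)) := by
        rw [zsmul_eq_mul]
        push_cast
        rfl
      rw [e1, Matrix.smul_apply, Matrix.mul_apply] at hc
      have hc2 : ∑ j, hessD (stepMat x) (m - c) U j * stepMat x (c + 1) j W ≠ 0 := by
        intro h0
        rw [h0, smul_zero] at hc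
        exact hc rfl
      obtain ⟨U', _, hU'⟩ := Finset.exists_ne_zero_of_sum_ne_zero hc2
      have h1 : hessD (stepMat x) (m - c) U U' ≠ 0 := left_ne_zero_of_mul hU'
      have h2 : stepMat x (c + 1) U' W ≠ 0 := right_ne_zero_of_mul hU'
      have h3 := ih (m - c) (by omega) U U' h1
      rw [stepMat_apply] at h2
      have h4 : IsStep (c + 1) U'.1 W.1 := by
        by_contra hn
        rw [if_neg hn] at h2
        exact h2 rfl
      have hcm : (c : ℕ) ≤ m := Nat.lt_succ_iff.mp c.2
      rw [h4.2, h3]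
      omega

/-- The candidate for `μ(⊥, W)`. -/
noncomputable def gfun (W : ↥(Module.End.invtSubmodule (glLin x))) : ℤ :=
  (-1) ^ Module.finrank F (W : Submodule F (Fin n → F)) *
    hessD (stepMat x) (Module.finrank F (W : Submodule F (Fin n → F))) ⊥ W

theorem finrank_bot_invt :
    Module.finrank F ((⊥ : ↥(Module.End.invtSubmodule (glLin x))) : Submodule F (Fin n → F)) = 0 := by
  change Module.finrank F ((⊥ : Submodule F (Fin n → F))) = 0
  exact finrank_bot F (Fin n → F)

theorem finrank_top_invt :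
    Module.finrank F ((⊤ : ↥(Module.End.invtSubmodule (glLin x))) : Submodule F (Fin n → F)) = n := by
  change Module.finrank F ((⊤ : Submodule F (Fin n → F))) = n
  rw [finrank_top]
  simp

theorem hessD_succ_apply (m : ℕ) (W : ↥(Module.End.invtSubmodule (glLin x)))
    (hW : Module.finrank F (W : Submodule F (Fin n → F)) = m + 1) :
    hessD (stepMat x) (m + 1) ⊥ W =
      ∑ U ∈ Finset.Ico (⊥ : ↥(Module.End.invtSubmodule (glLin x))) W, (-1) ^ m * gfun x U := by
  rw [hessD_succ, Matrix.sum_apply]
  have e1 : ∀ c : Fin (m + 1), ((-1 : Matrix ↥(Module.End.invtSubmodule (glLin x))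
      ↥(Module.End.invtSubmodule (glLin x)) ℤ) ^ (c : ℕ) *
      (hessD (stepMat x) (m - c) * stepMat x (c + 1))) ⊥ W =
      ∑ U, (-1 : ℤ) ^ (c : ℕ) * (hessD (stepMat x) (m - c) ⊥ U * stepMat x (c + 1) U W) := by
    intro c
    have e0 : (-1 : Matrix ↥(Module.End.invtSubmodule (glLin x))
        ↥(Module.End.invtSubmodule (glLin x)) ℤ) ^ (c : ℕ) *
        (hessD (stepMat x) (m - c) * stepMat x (c + 1)) =
        ((-1 : ℤ) ^ (c : ℕ)) • (hessD (stepMat x) (m - c) * stepMat x (c + 1)) := by
      rw [zsmul_eq_mul]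
      push_cast
      rfl
    rw [e0, Matrix.smul_apply, Matrix.mul_apply, smul_eq_mul, Finset.mul_sum]
  rw [Finset.sum_congr rfl (fun c _ => e1 c), Finset.sum_comm]
  have hR : ∑ U ∈ Finset.Ico (⊥ : ↥(Module.End.invtSubmodule (glLin x))) W, (-1) ^ m * gfun x U =
      ∑ U : ↥(Module.End.invtSubmodule (glLin x)),
        if U ∈ Finset.Ico (⊥ : ↥(Module.End.invtSubmodule (glLin x))) W then (-1) ^ m * gfun x U
        else 0 := by
    rw [Finset.sum_ite_mem, Finset.univ_inter]
  rw [hR]
  apply Finset.sum_congr rfl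
  intro U _
  by_cases hU : U ∈ Finset.Ico (⊥ : ↥(Module.End.invtSubmodule (glLin x))) W
  · rw [if_pos hU]
    rw [Finset.mem_Ico] at hU
    have hlt : (U : Submodule F (Fin n → F)) < W := hU.2
    have hr : Module.finrank F (U : Submodule F (Fin n → F)) < m + 1 := by
      rw [← hW]
      exact Submodule.finrank_lt_finrank_of_lt hlt
    set r := Module.finrank F (U : Submodule F (Fin n → F)) with hrdef
    rw [Finset.sum_eq_single (⟨m - r, by omega⟩ : Fin (m + 1))]
    · have hstep : IsStep (m - r + 1) U.1 W.1 := ⟨hlt.le, by rw [hW]; omega⟩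
      rw [stepMat_apply, if_pos hstep, mul_one]
      have hmr : m - (m - r) = r := by omega
      change (-1 : ℤ) ^ (m - r) * hessD (stepMat x) (m - (m - r)) ⊥ U = _
      rw [hmr]
      unfold gfun
      rw [← hrdef, ← mul_assoc, ← pow_add]
      congr 1
      have : m + r = (m - r) + 2 * r := by omega
      rw [this, pow_add, pow_mul]
      simp
    · intro c _ hc
      rw [stepMat_apply, if_neg, mul_zero, mul_zero]
      rintro ⟨_, h2⟩
      apply hc
      apply Fin.ext
      change (c : ℕ) = m - r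
      rw [hW] at h2
      omega
    · intro h
      exact absurd (Finset.mem_univ _) h
  · rw [if_neg hU]
    apply Finset.sum_eq_zero
    intro c _
    rw [stepMat_apply, if_neg, mul_zero, mul_zero]
    rintro ⟨h1, h2⟩
    apply hU
    rw [Finset.mem_Ico]
    refine ⟨bot_le, lt_of_le_of_ne h1 ?_⟩
    intro hUW
    rw [hUW] at h2
    omega

theorem sum_gfun (W : ↥(Module.End.invtSubmodule (glLin x))) :
    ∑ U ∈ Finset.Icc (⊥ : ↥(Module.End.invtSubmodule (glLin x))) W, gfun x U =
      if (⊥ : ↥(Module.End.invtSubmodule (glLin x))) = W then 1 else 0 := by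
  by_cases hW : (⊥ : ↥(Module.End.invtSubmodule (glLin x))) = W
  · subst hW
    rw [if_pos rfl, Finset.Icc_self, Finset.sum_singleton]
    unfold gfun
    rw [finrank_bot_invt, hessD_zero, Matrix.one_apply_eq]
    simp
  · rw [if_neg hW]
    have hd : Module.finrank F (W : Submodule F (Fin n → F)) ≠ 0 := by
      intro h0
      apply hW
      apply Subtype.ext
      exact (Submodule.finrank_eq_zero.mp h0).symm
    obtain ⟨m, hm⟩ := Nat.exists_eq_succ_of_ne_zero hd
    rw [← Finset.Ico_insert_right bot_le, Finset.sum_insert (by simp)]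
    have h1 : gfun x W = (-1) ^ (m + 1) * hessD (stepMat x) (m + 1) ⊥ W := by
      unfold gfun
      rw [hm]
    rw [h1, hessD_succ_apply x m W hm, Finset.mul_sum]
    rw [← Finset.sum_add_distrib]
    apply Finset.sum_eq_zero
    intro U _
    rw [← mul_assoc, ← pow_add]
    have : (-1 : ℤ) ^ (m + 1 + m) = -1 := by
      have : m + 1 + m = 2 * m + 1 := by ring
      rw [this, pow_succ, pow_mul]
      simp
    rw [this]
    ring

/-- The Hessenberg recursion computes the Möbius value `μ(⊥, ⊤)` up to sign. -/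
theorem hessD_top : hessD (stepMat x) n ⊥ ⊤ = (-1) ^ n * invEC (glLin x) := by
  have h := mu_unique (⊥ : ↥(Module.End.invtSubmodule (glLin x))) (gfun x)
    (fun b _ => sum_gfun x b) ⊤ bot_le
  have h2 : invEC (glLin x) =
      IncidenceAlgebra.mu ℤ (⊥ : ↥(Module.End.invtSubmodule (glLin x))) ⊤ := invEC_eq (glLin x)
  rw [h2, ← h]
  unfold gfun
  rw [finrank_top_invt, ← mul_assoc, ← pow_add]
  have : (-1 : ℤ) ^ (n + n) = 1 := by
    rw [← two_mul, pow_mul]
    simp
  rw [this, one_mul]

/-- The permutation character on the cosets of a parabolic subgroup, at `x`, is an entry of a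
product of step matrices. -/
theorem fpc_eq_prod (μ : Fin n → ℕ) (hμ : ∑ i, μ i = n)
    (hA : ∀ W : ℕ → Submodule F (Fin n → F), Monotone W →
      ∃ g : GL (Fin n) F, ∀ a, W a = (stdSub F n (Module.finrank F (W a))).map (glLin g))
    (hP : ∀ (M : Fin n → Matrix ↥(Module.End.invtSubmodule (glLin x))
        ↥(Module.End.invtSubmodule (glLin x)) ℤ) (a b : ↥(Module.End.invtSubmodule (glLin x))),
      (List.ofFn M).prod a b = ∑ w : Fin (n + 1) → ↥(Module.End.invtSubmodule (glLin x)),
        if w 0 = a ∧ w (Fin.last n) = b then ∏ i : Fin n, M i (w i.castSucc) (w i.succ) else 0) :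
    Cfsg.fixedPointCharacter (Cfsg.parabolicGL n F μ) x =
      (((List.ofFn fun i : Fin n => stepMat x (μ i)).prod ⊥ ⊤ : ℤ) : ℂ) := by
  unfold Cfsg.fixedPointCharacter
  rw [card_fixedBy_eq μ x hμ hA, hP]
  have key : ∀ w : Fin (n + 1) → ↥(Module.End.invtSubmodule (glLin x)),
      (if w 0 = ⊥ ∧ w (Fin.last n) = ⊤ then
        ∏ i : Fin n, stepMat x (μ i) (w i.castSucc) (w i.succ) else 0) =
      if w ∈ FlagSeq μ x then (1 : ℤ) else 0 := by
    intro w
    have hprod : ∏ i : Fin n, stepMat x (μ i) (w i.castSucc) (w i.succ) =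
        if ∀ i : Fin n, IsStep (μ i) (w i.castSucc).1 (w i.succ).1 then (1 : ℤ) else 0 := by
      simp only [stepMat_apply]
      rw [Finset.prod_ite_zero]
      simp
    rw [hprod]
    have hmem : w ∈ FlagSeq μ x ↔ (w 0 = ⊥ ∧ w (Fin.last n) = ⊤) ∧
        ∀ i : Fin n, IsStep (μ i) (w i.castSucc).1 (w i.succ).1 := by
      unfold FlagSeq
      rw [Set.mem_setOf_eq, and_assoc]
      have e0 : (w 0 : Submodule F (Fin n → F)) = ⊥ ↔ w 0 = ⊥ := by
        rw [Subtype.ext_iff]; rfl
      have e1 : (w (Fin.last n) : Submodule F (Fin n → F)) = ⊤ ↔ w (Fin.last n) = ⊤ := by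
        rw [Subtype.ext_iff]; rfl
      rw [e0, e1]
    by_cases h1 : w 0 = ⊥ ∧ w (Fin.last n) = ⊤
    · rw [if_pos h1]
      by_cases h2 : ∀ i : Fin n, IsStep (μ i) (w i.castSucc).1 (w i.succ).1
      · rw [if_pos h2, if_pos (hmem.mpr ⟨h1, h2⟩)]
      · rw [if_neg h2, if_neg (fun h => h2 (hmem.mp h).2)]
    · rw [if_neg h1, if_neg (fun h => h1 (hmem.mp h).1)]
  rw [Finset.sum_congr rfl (fun w _ => key w), Finset.sum_boole]
  have hcard : Nat.card (FlagSeq μ x) =
      (Finset.univ.filter fun w : Fin (n + 1) → ↥(Module.End.invtSubmodule (glLin x)) =>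
        w ∈ FlagSeq μ x).card := by
    rw [Nat.card_coe_set_eq]
    have hset : FlagSeq μ x = ↑(Finset.univ.filter
        fun w : Fin (n + 1) → ↥(Module.End.invtSubmodule (glLin x)) => w ∈ FlagSeq μ x) := by
      ext w
      simp
    conv_lhs => rw [hset]
    rw [Set.ncard_coe_finset]
  rw [hcard]
  push_cast
  rfl

/-- The Steinberg character of `GL_n` at `x` is, up to sign, the Möbius value `μ(⊥, ⊤)` of the
lattice of `x`-invariant subspaces. -/
theorem st_eq_invEC
    (hA : ∀ W : ℕ → Submodule F (Fin n → F), Monotone W →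
      ∃ g : GL (Fin n) F, ∀ a, W a = (stdSub F n (Module.finrank F (W a))).map (glLin g))
    (hP : ∀ (M : Fin n → Matrix ↥(Module.End.invtSubmodule (glLin x))
        ↥(Module.End.invtSubmodule (glLin x)) ℤ) (a b : ↥(Module.End.invtSubmodule (glLin x))),
      (List.ofFn M).prod a b = ∑ w : Fin (n + 1) → ↥(Module.End.invtSubmodule (glLin x)),
        if w 0 = a ∧ w (Fin.last n) = b then ∏ i : Fin n, M i (w i.castSucc) (w i.succ) else 0)
    (hH : ∑ κ : Equiv.Perm (Fin n), (if ∀ i : Fin n, (κ i).val ≤ 1 + i.val then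
        ((Equiv.Perm.sign κ : ℤ) : Matrix ↥(Module.End.invtSubmodule (glLin x))
          ↥(Module.End.invtSubmodule (glLin x)) ℤ) *
          (List.ofFn fun i : Fin n => stepMat x (1 + i.val - (κ i).val)).prod
      else 0) = hessD (stepMat x) n) :
    Cfsg.unipotentCharacterGL n F (fun _ => 1) x = (-1) ^ n * ((invEC (glLin x) : ℤ) : ℂ) := by
  have hmain : Cfsg.unipotentCharacterGL n F (fun _ => 1) x =
      ((hessD (stepMat x) n ⊥ ⊤ : ℤ) : ℂ) := by
    rw [← hH, Matrix.sum_apply]
    unfold Cfsg.unipotentCharacterGL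
    push_cast
    apply Finset.sum_congr rfl
    intro κ _
    by_cases hκ : ∀ i : Fin n, (κ i).val ≤ 1 + i.val
    · rw [if_pos hκ, if_pos hκ]
      have hμ : ∑ i : Fin n, (1 + i.val - (κ i).val) = n :=
        sum_shift_sub (fun _ => 1) (by simp) κ hκ
      rw [fpc_eq_prod x (fun i : Fin n => 1 + i.val - (κ i).val) hμ hA hP]
      have hent : ∀ (k : ℤ) (Pm : Matrix ↥(Module.End.invtSubmodule (glLin x))
          ↥(Module.End.invtSubmodule (glLin x)) ℤ),
          (((k : Matrix ↥(Module.End.invtSubmodule (glLin x))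
            ↥(Module.End.invtSubmodule (glLin x)) ℤ)) * Pm) ⊥ ⊤ = k * Pm ⊥ ⊤ := by
        intro k Pm
        rw [← zsmul_eq_mul, Matrix.smul_apply, smul_eq_mul]
      rw [hent]
      push_cast
      rfl
    · rw [if_neg hκ, if_neg hκ]
      simp
  rw [hmain, hessD_top]
  push_cast
  rfl

end Mobius

end Cfsg.Agent.Helper40.StGL
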