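import Mathlib
import Cfsg.Agent.Helper40.StGLMu
import Cfsg.Agent.Helper40.StGLHess
import Cfsg.Agent.Helper40.SteinbergPSL
import Cfsg.Agent.Helper61.PathProd
import Cfsg.Agent.Helper61.StT1
import Cfsg.Agent.Helper84.StGLT2
import Cfsg.Agent.Helper84.StGLT3

/-!
# The Steinberg character of `GL_n(q)` at semisimple elements (helper40, S2425): assembly

The pieces: `st_eq_invEC` (Steinberg value = signed Möbius value of the lattice of invariant
subspaces), path expansion (helper61), Hessenberg expansion, `invEC` of an isotypic component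
(helper61), coprime splitting and the induction over the irreducible factors (helper84).
The adapted-basis statement (piece A, helper51) enters as the hypothesis `AdaptedHyp`.
-/

set_option autoImplicit false

namespace Cfsg.Agent.Helper40.StGL

open scoped MatrixGroups
open Polynomial

universe u

/-- The adapted-basis statement: every monotone chain of subspaces of `F^n` is the image under
one element of `GL_n(F)` of the chain of standard subspaces of the same dimensions. -/
def AdaptedHyp (F : Type u) [Field F] (n : ℕ) : Prop :=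
  ∀ W : ℕ → Submodule F (Fin n → F), Monotone W →
    ∃ g : GL (Fin n) F, ∀ a, W a = (stdSub F n (Module.finrank F (W a))).map (glLin g)

theorem glLin_pow {F : Type u} [Field F] {n : ℕ} (g : GL (Fin n) F) (k : ℕ) :
    glLin (g ^ k) = (glLin g) ^ k := by
  induction k with
  | zero => rw [pow_zero, pow_zero, glLin_one]; rfl
  | succ k ih => rw [pow_succ, pow_succ, glLin_mul, ih]; rfl

theorem st_eq_invEC_of_adapted {F : Type u} [Field F] [Finite F] {n : ℕ} (x : GL (Fin n) F)
    (hA : AdaptedHyp F n) :
    Cfsg.unipotentCharacterGL n F (fun _ => 1) x = (-1) ^ n * ((invEC (glLin x) : ℤ) : ℂ) := by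
  classical
  letI : Fintype ↥(Module.End.invtSubmodule (glLin x)) := invtFintype x
  exact st_eq_invEC x hA
    (fun M a b => Cfsg.Agent.Helper61.list_prod_apply_eq_sum_paths n M a b)
    (hess_expand (stepMat x) (stepMat_zero x) n)

/-- The Möbius value of the full subspace lattice of `K^m`, from the degree of the Steinberg
character. -/
theorem invEC_id_eq (hA : ∀ (K : Type u) [Field K] (m : ℕ), AdaptedHyp K m)
    (K : Type u) [Field K] [Fintype K] (m : ℕ) :
    invEC (LinearMap.id : Module.End K (Fin m → K)) =
      (-1) ^ m * (Fintype.card K : ℤ) ^ (m * (m - 1) / 2) := by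
  have h1 := st_eq_invEC_of_adapted (1 : GL (Fin m) K) (hA K m)
  rw [glLin_one, Cfsg.Agent.Helper40.SteinbergPSL.steinberg_degree, Finset.sum_range_id] at h1
  have h2 : ((invEC (LinearMap.id : Module.End K (Fin m → K)) : ℤ) : ℂ) =
      (-1) ^ m * (Fintype.card K : ℂ) ^ (m * (m - 1) / 2) := by
    rw [h1, ← mul_assoc, ← mul_pow]
    simp
  exact_mod_cast h2

theorem steinberg_value_of_adapted (hA : ∀ (K : Type u) [Field K] (m : ℕ), AdaptedHyp K m)
    {F : Type u} [Field F] [Fintype F] [DecidableEq F] {q : ℕ}
    (hq : Fintype.card F = q) (p : ℕ) [Fact p.Prime] [CharP F p]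
    {n : ℕ} (x : GL (Fin n) F) (hx : (orderOf x).Coprime p) :
    Cfsg.unipotentCharacterGL n F (fun _ => 1) x =
      ∏ f ∈ (UniqueFactorizationMonoid.normalizedFactors
          (x : Matrix (Fin n) (Fin n) F).charpoly).toFinset,
        (-1 : ℂ) ^ ((f.natDegree - 1) * (UniqueFactorizationMonoid.normalizedFactors
            (x : Matrix (Fin n) (Fin n) F).charpoly).count f) *
          (q : ℂ) ^ (f.natDegree * (UniqueFactorizationMonoid.normalizedFactors
            (x : Matrix (Fin n) (Fin n) F).charpoly).count f *
            ((UniqueFactorizationMonoid.normalizedFactors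
              (x : Matrix (Fin n) (Fin n) F).charpoly).count f - 1) / 2) := by
  have hkF : ((orderOf x : ℕ) : F) ≠ 0 := by
    rw [Ne, CharP.cast_eq_zero_iff F p]
    intro hdvd
    have h1 : p = 1 := Nat.Coprime.eq_one_of_dvd hx.symm hdvd
    exact (Fact.out : p.Prime).one_lt.ne' h1
  have hsq : Squarefree (X ^ orderOf x - C 1 : F[X]) :=
    (Polynomial.separable_X_pow_sub_C (1 : F) hkF one_ne_zero).squarefree
  have hann : aeval (glLin x) (X ^ orderOf x - C 1 : F[X]) = 0 := by
    simp only [map_sub, map_pow, aeval_X, map_one]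
    rw [← glLin_pow, pow_orderOf_eq_one, glLin_one]
    exact sub_self _
  have hT3 := Cfsg.Agent.Helper84.invEC_semisimple (F := F) (V := Fin n → F)
    (fun V' _ _ _ φ f hf hm hφ =>
      Cfsg.Agent.Helper61.invEC_irreducible φ f hf hm hφ (invEC_id_eq hA))
    (fun V' _ _ _ φ f g h h' => Cfsg.Agent.Helper84.invEC_coprime_split φ f g h h')
    (glLin x) _ hsq hann
  have hcp : LinearMap.charpoly (glLin x) = (x : Matrix (Fin n) (Fin n) F).charpoly := by
    unfold glLin
    exact Matrix.charpoly_toLin' _
  rw [hcp, Module.finrank_fin_fun] at hT3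
  rw [st_eq_invEC_of_adapted x (hA F n)]
  subst hq
  have h4 := congrArg (Int.cast : ℤ → ℂ) hT3
  push_cast at h4
  exact h4

end Cfsg.Agent.Helper40.StGL
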