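import Mathlib
import Cfsg.Prelude.Def_SteinbergCover

/-!
# Perfectness of the group presented by Steinberg's relators (R1), (R2) (helper40)

A checkable certificate (a list of pairs of roots) for `commutator (D.SteinbergCover K) = ⊤`.
-/

set_option autoImplicit false

namespace Cfsg.Agent.Helper40

open Cfsg.Lie
open scoped commutatorElement

section cert

variable (D : ChevalleyDatum)

/-- One certificate step `(useB, r, s)`: from the commutator relation of the pair `(r, s)` the roots of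
its leading term(s) become trivial in the abelianisation, the others being trivial already. -/
def perfStep (tr : List ℕ) (st : Bool × ℕ × ℕ) : Option (List ℕ) :=
  if st.2.1 < D.nroots ∧ st.2.2 < D.nroots ∧ st.2.2 ≠ st.2.1 ∧ st.2.2 ≠ D.neg st.2.1 then
    match D.commTerms st.2.1 st.2.2 with
    | [] => none
    | e1 :: rest =>
      if e1.2.2.1 = 1 ∧ e1.2.2.2 = 1 ∧ (e1.2.1 = 1 ∨ e1.2.1 = -1) then
        if st.1 = true then
          match rest with
          | [] => none
          | e2 :: rest2 =>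
            if (e2.2.1 = 1 ∨ e2.2.1 = -1) ∧
                ((e2.2.2.1 = 2 ∧ e2.2.2.2 = 1) ∨ (e2.2.2.1 = 1 ∧ e2.2.2.2 = 2)) ∧
                (∀ e ∈ rest2, e.1 ∈ tr) then some (e1.1 :: e2.1 :: tr) else none
        else if (∀ e ∈ rest, e.1 ∈ tr) then some (e1.1 :: tr) else none
      else none
  else none

/-- Run a certificate. -/
def perfRun : List ℕ → List (Bool × ℕ × ℕ) → Option (List ℕ)
  | tr, [] => some tr
  | tr, st :: sts => (perfStep D tr st).bind fun tr' => perfRun tr' sts

/-- The certificate is valid: it runs through and makes every root trivial. -/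
def perfOK (cert : List (Bool × ℕ × ℕ)) : Bool :=
  match perfRun D [] cert with
  | none => false
  | some tr => decide (∀ r < D.nroots, r ∈ tr)

/-- The certificate uses the scaling rule (which needs a field element other than `0`, `1`). -/
def perfUsesB (cert : List (Bool × ℕ × ℕ)) : Bool := cert.any fun st => st.1

end cert

section sound

variable (D : ChevalleyDatum) (K : Type*) [Field K]

theorem scGen_add (r : ℕ) (t₁ t₂ : K) :
    D.scGen K r (t₁ + t₂) = D.scGen K r t₁ * D.scGen K r t₂ := by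
  by_cases h : r < D.nroots
  · have hmem : D.stX r t₁ * D.stX r t₂ * (D.stX r (t₁ + t₂))⁻¹ ∈ D.steinbergRelsAB K :=
      Or.inl ⟨r, t₁, t₂, h, rfl⟩
    have h1 := PresentedGroup.one_of_mem hmem
    rw [map_mul, map_mul, map_inv, mul_inv_eq_one] at h1
    exact h1.symm
  · have hx : ∀ t : K, D.scGen K r t = 1 := by
      intro t
      unfold ChevalleyDatum.scGen ChevalleyDatum.stX
      rw [dif_neg h, map_one]
    rw [hx, hx, hx, mul_one]

theorem scGen_zero (r : ℕ) : D.scGen K r 0 = 1 := by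
  have h := scGen_add D K r 0 0
  rw [add_zero] at h
  exact (mul_eq_left.mp h.symm)

theorem scGen_neg (r : ℕ) (t : K) : D.scGen K r (-t) = (D.scGen K r t)⁻¹ := by
  have h := scGen_add D K r (-t) t
  rw [neg_add_cancel, scGen_zero] at h
  exact eq_inv_of_mul_eq_one_left h.symm

theorem mk_stWord (w : List (ℕ × K)) :
    PresentedGroup.mk (D.steinbergRelsAB K) (D.stWord w) = (w.map fun p => D.scGen K p.1 p.2).prod := by
  unfold ChevalleyDatum.stWord
  rw [map_list_prod, List.map_map]
  rfl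

theorem comm_word_mem {r s : ℕ} (hr : r < D.nroots) (hs : s < D.nroots) (hsr : s ≠ r)
    (hsn : s ≠ D.neg r) (t u : K) :
    ((D.commTerms r s).map fun c =>
      D.scGen K c.1 ((c.2.1 : K) * (-t) ^ c.2.2.1 * u ^ c.2.2.2)).prod ∈
      commutator (D.SteinbergCover K) := by
  have hmem : (D.stX s u)⁻¹ * (D.stX r t)⁻¹ * D.stX s u * D.stX r t *
      (D.stWord (D.commWord K r s t u))⁻¹ ∈ D.steinbergRelsAB K :=
    Or.inr ⟨r, s, t, u, hr, hs, hsr, hsn, rfl⟩
  have h1 := PresentedGroup.one_of_mem hmem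
  rw [map_mul, map_inv, mul_inv_eq_one, mk_stWord] at h1
  have h2 : ((D.commWord K r s t u).map fun p => D.scGen K p.1 p.2) =
      (D.commTerms r s).map fun c =>
        D.scGen K c.1 ((c.2.1 : K) * (-t) ^ c.2.2.1 * u ^ c.2.2.2) := by
    unfold ChevalleyDatum.commWord
    rw [List.map_map]
    rfl
  rw [h2] at h1
  rw [← h1, map_mul, map_mul, map_mul, map_inv, map_inv]
  have h3 : (PresentedGroup.mk (D.steinbergRelsAB K) (D.stX s u))⁻¹ *
      (PresentedGroup.mk (D.steinbergRelsAB K) (D.stX r t))⁻¹ *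
      PresentedGroup.mk (D.steinbergRelsAB K) (D.stX s u) *
      PresentedGroup.mk (D.steinbergRelsAB K) (D.stX r t) =
      ⁅(PresentedGroup.mk (D.steinbergRelsAB K) (D.stX s u))⁻¹,
        (PresentedGroup.mk (D.steinbergRelsAB K) (D.stX r t))⁻¹⁆ := by
    rw [commutatorElement_def, inv_inv, inv_inv]
  rw [h3]
  exact Subgroup.commutator_mem_commutator (Subgroup.mem_top _) (Subgroup.mem_top _)

/-- The root `γ` is trivial in the abelianisation. -/
def PerfTriv (γ : ℕ) : Prop := ∀ t : K, D.scGen K γ t ∈ commutator (D.SteinbergCover K)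

theorem rest_prod_mem (rest : List (ℕ × ℤ × ℕ × ℕ)) (hrest : ∀ e ∈ rest, PerfTriv D K e.1) (t u : K) :
    (rest.map fun c => D.scGen K c.1 ((c.2.1 : K) * (-t) ^ c.2.2.1 * u ^ c.2.2.2)).prod ∈
      commutator (D.SteinbergCover K) := by
  apply Subgroup.list_prod_mem
  intro x hx
  obtain ⟨e, he, rfl⟩ := List.mem_map.mp hx
  exact hrest e he _

theorem cast_unit_sq {c : ℤ} (hc : c = 1 ∨ c = -1) : ((c : ℤ) : K) * (c : K) = 1 := by
  rcases hc with rfl | rfl <;> simp

theorem cast_unit_ne {c : ℤ} (hc : c = 1 ∨ c = -1) : ((c : ℤ) : K) ≠ 0 := by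
  intro h
  have := cast_unit_sq K hc
  rw [h, zero_mul] at this
  exact zero_ne_one this

theorem ruleA {r s : ℕ} (hr : r < D.nroots) (hs : s < D.nroots) (hsr : s ≠ r) (hsn : s ≠ D.neg r)
    (e1 : ℕ × ℤ × ℕ × ℕ) (rest : List (ℕ × ℤ × ℕ × ℕ)) (h : D.commTerms r s = e1 :: rest)
    (hi : e1.2.2.1 = 1) (hj : e1.2.2.2 = 1) (hc : e1.2.1 = 1 ∨ e1.2.1 = -1)
    (hrest : ∀ e ∈ rest, PerfTriv D K e.1) : PerfTriv D K e1.1 := by
  intro v
  have h1 := comm_word_mem D K hr hs hsr hsn (-((e1.2.1 : K) * v)) 1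
  rw [h, List.map_cons, List.prod_cons] at h1
  have h2 := (Subgroup.mul_mem_cancel_right _ (rest_prod_mem D K rest hrest _ _)).mp h1
  rw [hi, hj, pow_one, pow_one, mul_one, neg_neg, ← mul_assoc, cast_unit_sq K hc, one_mul] at h2
  exact h2

theorem ruleB {r s : ℕ} (hr : r < D.nroots) (hs : s < D.nroots) (hsr : s ≠ r) (hsn : s ≠ D.neg r)
    (e1 e2 : ℕ × ℤ × ℕ × ℕ) (rest : List (ℕ × ℤ × ℕ × ℕ)) (h : D.commTerms r s = e1 :: e2 :: rest)
    (hi : e1.2.2.1 = 1) (hj : e1.2.2.2 = 1) (hc : e1.2.1 = 1 ∨ e1.2.1 = -1)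
    (hc2 : e2.2.1 = 1 ∨ e2.2.1 = -1)
    (hij : (e2.2.2.1 = 2 ∧ e2.2.2.2 = 1) ∨ (e2.2.2.1 = 1 ∧ e2.2.2.2 = 2))
    (hrest : ∀ e ∈ rest, PerfTriv D K e.1) (x : K) (hx0 : x ≠ 0) (hx1 : x ≠ 1) :
    PerfTriv D K e1.1 ∧ PerfTriv D K e2.1 := by
  have hx1' : x - 1 ≠ 0 := sub_ne_zero.mpr hx1
  have hc2ne := cast_unit_ne K hc2
  have key : ∀ t u : K, D.scGen K e1.1 ((e1.2.1 : K) * (-t) * u) *
      D.scGen K e2.1 ((e2.2.1 : K) * (-t) ^ e2.2.2.1 * u ^ e2.2.2.2) ∈
      commutator (D.SteinbergCover K) := by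
    intro t u
    have h1 := comm_word_mem D K hr hs hsr hsn t u
    rw [h, List.map_cons, List.map_cons, List.prod_cons, List.prod_cons, ← mul_assoc] at h1
    have h2 := (Subgroup.mul_mem_cancel_right _ (rest_prod_mem D K rest hrest _ _)).mp h1
    rw [hi, hj, pow_one, pow_one] at h2
    exact h2
  have h2triv : PerfTriv D K e2.1 := by
    intro v
    rcases hij with ⟨hi2, hj2⟩ | ⟨hi2, hj2⟩
    · -- exponents (2, 1)
      set u := v / ((e2.2.1 : K) * (x * (1 - x))) with hu
      have hA := key x u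
      have hB := key 1 (x * u)
      rw [hi2, hj2] at hA hB
      have harg : (e1.2.1 : K) * (-1) * (x * u) = (e1.2.1 : K) * (-x) * u := by ring
      rw [harg] at hB
      have hAB := Subgroup.mul_mem _ (Subgroup.inv_mem _ hA) hB
      rw [mul_inv_rev, mul_assoc, inv_mul_cancel_left, ← scGen_neg, ← scGen_add] at hAB
      have hv : -((e2.2.1 : K) * (-x) ^ 2 * u ^ 1) + (e2.2.1 : K) * (-1) ^ 2 * (x * u) ^ 1 = v := by
        rw [hu]
        have hne : (e2.2.1 : K) * (x * (1 - x)) ≠ 0 :=
          mul_ne_zero hc2ne (mul_ne_zero hx0 (by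
            intro h0; apply hx1'; linear_combination -h0))
        field_simp
        ring
      rw [hv] at hAB
      exact hAB
    · -- exponents (1, 2)
      set t := v / ((e2.2.1 : K) * (x * (x - 1))) with ht
      have hA := key t x
      have hB := key (x * t) 1
      rw [hi2, hj2] at hA hB
      have harg : (e1.2.1 : K) * (-(x * t)) * 1 = (e1.2.1 : K) * (-t) * x := by ring
      rw [harg] at hB
      have hAB := Subgroup.mul_mem _ (Subgroup.inv_mem _ hB) hA
      rw [mul_inv_rev, mul_assoc, inv_mul_cancel_left, ← scGen_neg, ← scGen_add] at hAB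
      have hv : -((e2.2.1 : K) * (-(x * t)) ^ 1 * 1 ^ 2) + (e2.2.1 : K) * (-t) ^ 1 * x ^ 2 = -v := by
        rw [ht]
        have hne : (e2.2.1 : K) * (x * (x - 1)) ≠ 0 :=
          mul_ne_zero hc2ne (mul_ne_zero hx0 hx1')
        field_simp
        ring
      rw [hv, scGen_neg] at hAB
      exact (Subgroup.inv_mem_iff _).mp hAB
  refine ⟨?_, h2triv⟩
  intro v
  have h1 := key (-((e1.2.1 : K) * v)) 1
  have h2 := (Subgroup.mul_mem_cancel_right _ (h2triv _)).mp h1
  rw [mul_one, neg_neg, ← mul_assoc, cast_unit_sq K hc, one_mul] at h2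
  exact h2

theorem perfStep_sound (tr tr' : List ℕ) (st : Bool × ℕ × ℕ)
    (hB : st.1 = true → ∃ x : K, x ≠ 0 ∧ x ≠ 1)
    (htr : ∀ γ ∈ tr, PerfTriv D K γ) (h : perfStep D tr st = some tr') :
    ∀ γ ∈ tr', PerfTriv D K γ := by
  unfold perfStep at h
  by_cases hvalid : st.2.1 < D.nroots ∧ st.2.2 < D.nroots ∧ st.2.2 ≠ st.2.1 ∧ st.2.2 ≠ D.neg st.2.1
  swap
  · rw [if_neg hvalid] at h; exact absurd h (by simp)
  rw [if_pos hvalid] at h
  obtain ⟨hr, hs, hsr, hsn⟩ := hvalid
  cases hterms : D.commTerms st.2.1 st.2.2 with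
  | nil => rw [hterms] at h; exact absurd h (by simp)
  | cons e1 rest =>
    rw [hterms] at h
    dsimp only at h
    by_cases hcond : e1.2.2.1 = 1 ∧ e1.2.2.2 = 1 ∧ (e1.2.1 = 1 ∨ e1.2.1 = -1)
    swap
    · rw [if_neg hcond] at h; exact absurd h (by simp)
    rw [if_pos hcond] at h
    obtain ⟨hi, hj, hc⟩ := hcond
    by_cases hb : st.1 = true
    · rw [if_pos hb] at h
      cases rest with
      | nil => exact absurd h (by simp)
      | cons e2 rest2 =>
        dsimp only at h
        by_cases hcond2 : (e2.2.1 = 1 ∨ e2.2.1 = -1) ∧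
                ((e2.2.2.1 = 2 ∧ e2.2.2.2 = 1) ∨ (e2.2.2.1 = 1 ∧ e2.2.2.2 = 2)) ∧
                (∀ e ∈ rest2, e.1 ∈ tr)
        swap
        · rw [if_neg hcond2] at h; exact absurd h (by simp)
        rw [if_pos hcond2] at h
        obtain ⟨hc2, hij, hall2⟩ := hcond2
        obtain ⟨x, hx0, hx1⟩ := hB hb
        obtain ⟨p1, p2⟩ := ruleB D K hr hs hsr hsn e1 e2 rest2 hterms hi hj hc hc2 hij
          (fun e he => htr _ (hall2 e he)) x hx0 hx1
        rw [Option.some.injEq] at h
        subst h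
        intro γ hγ
        rw [List.mem_cons, List.mem_cons] at hγ
        rcases hγ with rfl | rfl | hγ
        · exact p1
        · exact p2
        · exact htr γ hγ
    · rw [if_neg hb] at h
      by_cases hall : ∀ e ∈ rest, e.1 ∈ tr
      swap
      · rw [if_neg hall] at h; exact absurd h (by simp)
      rw [if_pos hall] at h
      have p1 := ruleA D K hr hs hsr hsn e1 rest hterms hi hj hc (fun e he => htr _ (hall e he))
      rw [Option.some.injEq] at h
      subst h
      intro γ hγ
      rw [List.mem_cons] at hγ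
      rcases hγ with rfl | hγ
      · exact p1
      · exact htr γ hγ

theorem perfRun_sound (cert : List (Bool × ℕ × ℕ)) :
    ∀ (tr tr' : List ℕ), (perfUsesB cert = true → ∃ x : K, x ≠ 0 ∧ x ≠ 1) →
      (∀ γ ∈ tr, PerfTriv D K γ) → perfRun D tr cert = some tr' → ∀ γ ∈ tr', PerfTriv D K γ := by
  induction cert with
  | nil =>
    intro tr tr' _ htr h
    unfold perfRun at h
    rw [Option.some.injEq] at h
    subst h
    exact htr
  | cons st sts ih =>
    intro tr tr' hB htr h
    unfold perfRun at h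
    cases hstep : perfStep D tr st with
    | none => rw [hstep] at h; simp at h
    | some tr1 =>
      rw [hstep] at h
      simp only [Option.bind_some] at h
      have h1 := perfStep_sound D K tr tr1 st (fun hb => hB (by
        unfold perfUsesB
        rw [List.any_cons, hb, Bool.true_or])) htr hstep
      exact ih tr1 tr' (fun hb => hB (by
        unfold perfUsesB at hb ⊢
        rw [List.any_cons, hb, Bool.or_true])) h1 h

/-- A valid certificate proves that the group presented by (R1), (R2) is perfect. -/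
theorem perfect_of_cert (cert : List (Bool × ℕ × ℕ)) (hOK : perfOK D cert = true)
    (hB : perfUsesB cert = true → ∃ x : K, x ≠ 0 ∧ x ≠ 1) :
    commutator (D.SteinbergCover K) = ⊤ := by
  unfold perfOK at hOK
  cases hrun : perfRun D [] cert with
  | none => rw [hrun] at hOK; simp at hOK
  | some tr =>
    rw [hrun] at hOK
    simp only [decide_eq_true_eq] at hOK
    have htriv := perfRun_sound D K cert [] tr hB (by simp) hrun
    rw [eq_top_iff, ← PresentedGroup.closure_range_of, Subgroup.closure_le]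
    rintro _ ⟨⟨r, t⟩, rfl⟩
    have h1 := htriv r.val (hOK r.val r.isLt) t
    unfold ChevalleyDatum.scGen ChevalleyDatum.stX at h1
    rw [dif_pos r.isLt] at h1
    exact h1

end sound

end Cfsg.Agent.Helper40
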